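import Mathlib
import Cfsg.Agent.FGS.FpfTwo
import Cfsg.Agent.FGS.ClassSize
import Cfsg.Agent.SOLV.FrobeniusNil
import Cfsg.Agent.SOLV.ProductsHall
import Cfsg.Agent.SOLV.HallSystem
import Cfsg.Agent.SOLV.HallConverse
import Cfsg.Agent.SOLV.CoprimeGen
import Cfsg.Agent.PLOC.Fusion
import Cfsg.Agent.S0108

/-!
# Coprime action of `C_q × C_q` with abelian centralizers: basic set-up

`A` is a non-cyclic group of order `q ^ 2` normalizing `K` coprimely, the centralizers `C_K(a)`
being abelian. `Min` describes a minimal non-solvable `K`.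
-/

set_option autoImplicit false

namespace CL.AbCent

open Subgroup Cfsg CL CL.Tr
open scoped commutatorElement Pointwise

universe u
variable {G : Type u} [Group G]

local notation "𝐍(" H ")" => Subgroup.normalizer ((H : Subgroup G) : Set G)
local notation "𝐂(" H ")" => Subgroup.centralizer ((H : Subgroup G) : Set G)
local notation "𝐂[" x "]" => Subgroup.centralizer ({x} : Set G)

/-- The hypotheses of the theorem. -/
structure Hyp (q : ℕ) (A K : Subgroup G) : Prop where
  prime : q.Prime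
  card : Nat.card A = q ^ 2
  ncyc : ¬ IsCyclic A
  norm : A ≤ 𝐍(K)
  cop : ¬ q ∣ Nat.card K
  ab : ∀ a ∈ A, a ≠ 1 → K ⊓ 𝐂[a] ≤ 𝐂(K ⊓ 𝐂[a])

/-- A minimal counterexample. -/
structure Min (q : ℕ) (A K : Subgroup G) : Prop extends Hyp q A K where
  nsol : ¬ Group.IsSolvable K
  solv : ∀ H ≤ K, A ≤ 𝐍(H) → H ≠ K → Group.IsSolvable H
  simple : ∀ T ≤ K, A ≤ 𝐍(T) → K ≤ 𝐍(T) → Group.IsSolvable T → T = ⊥

/-- An `A`-invariant subgroup of `K`. -/
structure Inv (A K H : Subgroup G) : Prop where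
  le : H ≤ K
  norm : A ≤ 𝐍(H)

variable {q : ℕ} {A K : Subgroup G}

namespace Inv
variable {H L : Subgroup G}

theorem inf (h : Inv A K H) (h' : Inv A K L) : Inv A K (H ⊓ L) :=
  ⟨inf_le_left.trans h.le, le_normalizer_inf h.norm h'.norm⟩

theorem sup (h : Inv A K H) (h' : Inv A K L) : Inv A K (H ⊔ L) :=
  ⟨sup_le h.le h'.le, le_normalizer_sup h.norm h'.norm⟩

theorem inf_norm (h : Inv A K H) (h' : Inv A K L) : Inv A K (H ⊓ 𝐍(L)) :=
  ⟨inf_le_left.trans h.le, le_normalizer_inf h.norm (le_normalizer_normalizer h'.norm)⟩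

theorem inf_cent (h : Inv A K H) (h' : Inv A K L) : Inv A K (H ⊓ 𝐂(L)) :=
  ⟨inf_le_left.trans h.le, le_normalizer_inf h.norm (le_normalizer_centralizer h'.norm)⟩

theorem op (h : Inv A K H) (p : ℕ) : Inv A K (Op p H) :=
  ⟨(Op_le p H).trans h.le, h.norm.trans (normalizer_le_normalizer_map_pCore H)⟩

theorem op' (h : Inv A K H) (p : ℕ) : Inv A K (Op' p H) :=
  ⟨(Op'_le p H).trans h.le, h.norm.trans (normalizer_le_normalizer_map_pPrimeCore H)⟩

end Inv

namespace Hyp

theorem top (h : Hyp q A K) : Inv A K K := ⟨le_rfl, h.norm⟩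

theorem isPGroup (h : Hyp q A K) : IsPGroup q A := IsPGroup.of_card h.card

theorem comm (h : Hyp q A K) : IsMulCommutative A :=
  haveI := Fact.mk h.prime
  IsPGroup.isMulCommutative_of_card_eq_prime_sq h.card

theorem mul_comm' (h : Hyp q A K) {a b : G} (ha : a ∈ A) (hb : b ∈ A) : a * b = b * a :=
  congrArg Subtype.val (h.comm.is_comm.comm (⟨a, ha⟩ : A) ⟨b, hb⟩)

theorem inv_cen (h : Hyp q A K) {H : Subgroup G} (hH : Inv A K H) {a : G} (ha : a ∈ A) :
    Inv A K (H ⊓ 𝐂[a]) := by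
  refine ⟨inf_le_left.trans hH.le, le_normalizer_inf hH.norm ?_⟩
  rw [← CS.cen_zpowers]
  refine le_normalizer_centralizer (le_trans ?_ (centralizer_le_normalizer _))
  rw [CS.cen_zpowers]
  exact fun b hb => mem_centralizer_singleton_iff.mpr (h.mul_comm' hb ha)

variable [Finite G]

theorem solvA (h : Hyp q A K) : Group.IsSolvable A :=
  haveI := Fact.mk h.prime
  isSolvable_of_isPGroup h.isPGroup

theorem coprime (h : Hyp q A K) {H : Subgroup G} (hH : H ≤ K) :
    (Nat.card A).Coprime (Nat.card H) := by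
  rw [h.card]
  exact Nat.Coprime.pow_left 2 ((h.prime.coprime_iff_not_dvd).mpr fun hd =>
    h.cop (hd.trans (card_dvd_of_le hH)))

theorem orderOf_eq (h : Hyp q A K) {a : G} (ha : a ∈ A) (h1 : a ≠ 1) : orderOf a = q := by
  have hd : orderOf a ∣ q ^ 2 := h.card ▸ orderOf_dvd_natCard A ha
  obtain ⟨k, hk, hk'⟩ := (Nat.dvd_prime_pow h.prime).mp hd
  interval_cases k
  · exact absurd (orderOf_eq_one_iff.mp (by simpa using hk')) h1
  · simpa using hk'
  · exfalso
    apply h.ncyc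
    have : zpowers a = A :=
      eq_of_le_of_card_ge (zpowers_le.mpr ha) (by rw [Nat.card_zpowers, hk', h.card])
    rw [← this]
    infer_instance

theorem exists_not_mem (h : Hyp q A K) (c : G) : ∃ b ∈ A, b ∉ zpowers c := by
  by_contra hn
  push Not at hn
  exact h.ncyc (isCyclic_of_injective (inclusion (show A ≤ zpowers c from hn))
    (inclusion_injective _))

theorem le_sup_zpowers (h : Hyp q A K) {b c : G} (hb : b ∈ A) (hc : c ∈ A) (h1 : c ≠ 1)
    (hbc : b ∉ zpowers c) : A ≤ zpowers b ⊔ zpowers c := by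
  have hle : zpowers b ⊔ zpowers c ≤ A := sup_le (zpowers_le.mpr hb) (zpowers_le.mpr hc)
  have hlt : zpowers c < zpowers b ⊔ zpowers c :=
    lt_of_le_of_ne le_sup_right fun he => hbc (he ▸ mem_sup_left (mem_zpowers b))
  have h2 := CL.card_lt_of_lt hlt
  rw [Nat.card_zpowers, h.orderOf_eq hc h1] at h2
  obtain ⟨k, hk, hk'⟩ := (Nat.dvd_prime_pow h.prime).mp (h.card ▸ card_dvd_of_le hle)
  have hk2 : k = 2 := by
    rw [hk'] at h2
    have := (Nat.pow_lt_pow_iff_right h.prime.one_lt (n := 1) (m := k)).mp (by simpa using h2)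
    omega
  exact (eq_of_le_of_card_ge hle (by rw [hk', hk2, h.card])).ge

theorem not_mem_zpowers_symm (h : Hyp q A K) {b c : G} (hb : b ∈ A) (hc : c ∈ A) (h1 : c ≠ 1)
    (hbc : b ∉ zpowers c) : c ∉ zpowers b := by
  intro hcb
  have := h.le_sup_zpowers hb hc h1 hbc
  rw [sup_eq_left.mpr (zpowers_le.mpr hcb)] at this
  exact h.ncyc (isCyclic_of_injective (inclusion this) (inclusion_injective _))

theorem cen_eq_of_mem (h : Hyp q A K) {b c : G} (hc : c ∈ A) (h1 : b ≠ 1)
    (hbc : b ∈ zpowers c) : 𝐂[b] = 𝐂[c] := by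
  have hc1 : c ≠ 1 := by
    rintro rfl
    exact h1 (by simpa using hbc)
  have : zpowers b = zpowers c := eq_of_le_of_card_ge (zpowers_le.mpr hbc) (by
    rw [Nat.card_zpowers, Nat.card_zpowers, h.orderOf_eq hc hc1,
      h.orderOf_eq (zpowers_le.mpr hc hbc) h1])
  rw [← CS.cen_zpowers, this, CS.cen_zpowers]

theorem gen (h : Hyp q A K) {X H : Subgroup G} (hX : Inv A K X)
    (hH : ∀ a ∈ A, a ≠ 1 → X ⊓ 𝐂[a] ≤ H) : X ≤ H :=
  haveI := h.comm
  coprime_le_of_forall_centralizer_le A X H h.ncyc hX.norm (h.coprime hX.le) hH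

theorem cen_le_cent (h : Hyp q A K) {X Y : Subgroup G} (hX : X ≤ K) (hY : Y ≤ K) {a : G}
    (ha : a ∈ A) (h1 : a ≠ 1) : X ⊓ 𝐂[a] ≤ 𝐂(Y ⊓ 𝐂[a]) :=
  ((inf_le_inf_right _ hX).trans (h.ab a ha h1)).trans
    (centralizer_le (SetLike.coe_subset_coe.mpr (inf_le_inf_right _ hY)))

/-- Thompson's theorem: two invariant subgroups of coprime orders without `d`-fixed points
commute. -/
theorem le_cent_of_fpf (h : Hyp q A K) {V Z : Subgroup G} (hV : Inv A K V) (hZ : Inv A K Z)
    (hZV : Z ≤ 𝐍(V)) (hco : (Nat.card Z).Coprime (Nat.card V)) {d : G} (hd : d ∈ A) (h1 : d ≠ 1)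
    (hVd : V ⊓ 𝐂[d] = ⊥) (hZd : Z ⊓ 𝐂[d] = ⊥) : Z ≤ 𝐂(V) := by
  have hdA : zpowers d ≤ A := zpowers_le.mpr hd
  have hnil : Group.IsNilpotent (Z ⊔ V : Subgroup G) := by
    refine Frob.isNilpotent_of_prime (R := zpowers d) (hdA.trans (hZ.sup hV).norm)
      (by rw [Nat.card_zpowers, h.orderOf_eq hd h1]; exact h.prime) ?_
    rw [eq_bot_iff]
    rintro x ⟨hx, hxd⟩
    obtain ⟨z, hz, v, hv, rfl⟩ := (mem_sup_of_le_normalizer hZV).mp hx
    obtain ⟨z', hz', v', hv', he⟩ := coprime_centralizer_mul (zpowers d) Z V (hdA.trans hZ.norm)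
      (hdA.trans hV.norm) ((h.coprime (inf_le_left.trans hZ.le)).coprime_dvd_left
        (card_dvd_of_le hdA)) (Or.inl inferInstance) z hz v hv hxd
    rw [CS.cen_zpowers] at hz' hv'
    rw [hZd, mem_bot] at hz'
    rw [hVd, mem_bot] at hv'
    rw [he, hz', hv', mul_one]
    exact one_mem _
  exact le_centralizer_of_coprime_of_le_nilpotent hnil le_sup_left le_sup_right hco

end Hyp

/-- The join of the invariant `p`-subgroups. -/
def syl (A K : Subgroup G) (p : ℕ) : Subgroup G := sSup {T | Inv A K T ∧ IsPGroup p T}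

theorem le_syl {p : ℕ} {T : Subgroup G} (hT : Inv A K T) (hp : IsPGroup p T) : T ≤ syl A K p :=
  le_sSup ⟨hT, hp⟩

variable [Finite G]

namespace Min

theorem fpf (h : Min q A K) : K ⊓ 𝐂(A) = ⊥ := by
  have hc : K ≤ 𝐂(K ⊓ 𝐂(A)) := h.gen h.top fun a ha h1 => (h.ab a ha h1).trans
    (centralizer_le (SetLike.coe_subset_coe.mpr (inf_le_inf_left _
      (centralizer_le (Set.singleton_subset_iff.mpr ha)))))
  refine h.simple _ inf_le_left (le_normalizer_inf h.norm (le_normalizer_centralizer le_normalizer))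
    (hc.trans (centralizer_le_normalizer _)) (Group.isSolvable_of_comm fun x y => Subtype.ext ?_)
  exact hc y.2.1 x x.2

theorem cen_inf_cen (h : Min q A K) {X : Subgroup G} (hX : X ≤ K) {b c : G} (hb : b ∈ A)
    (hc : c ∈ A) (h1 : c ≠ 1) (hbc : b ∉ zpowers c) : X ⊓ 𝐂[c] ⊓ 𝐂[b] = ⊥ := by
  rw [eq_bot_iff, ← h.fpf]
  rintro x ⟨⟨hx, hxc⟩, hxb⟩
  refine ⟨hX hx, ?_⟩
  have : zpowers b ⊔ zpowers c ≤ 𝐂[x] := sup_le
    (zpowers_le.mpr (mem_centralizer_singleton_iff.mpr (mem_centralizer_singleton_iff.mp hxb).symm))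
    (zpowers_le.mpr (mem_centralizer_singleton_iff.mpr (mem_centralizer_singleton_iff.mp hxc).symm))
  exact fun a ha => mem_centralizer_singleton_iff.mp (this (h.le_sup_zpowers hb hc h1 hbc ha))

/-- If `V_c = 1` then `T_b` centralizes `V` for every `b` off the line of `c`. -/
theorem cen_le_cent_of (h : Min q A K) {V T : Subgroup G} (hV : Inv A K V) (hT : Inv A K T)
    (hTV : T ≤ 𝐍(V)) (hco : (Nat.card T).Coprime (Nat.card V)) {b c : G} (hb : b ∈ A) (hc : c ∈ A)
    (h1 : c ≠ 1) (hbc : b ∉ zpowers c) (hVc : V ⊓ 𝐂[c] = ⊥) : T ⊓ 𝐂[b] ≤ 𝐂(V) := by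
  have hb1 : b ≠ 1 := by
    rintro rfl
    exact hbc (one_mem _)
  exact h.le_cent_of_fpf hV (h.inv_cen hT hb) (inf_le_left.trans hTV)
    (hco.coprime_dvd_left (card_dvd_of_le inf_le_left)) hc h1 hVc
    (h.cen_inf_cen hT.le hc hb hb1 (h.not_mem_zpowers_symm hb hc h1 hbc))

/-- A nontrivial coprime action forces fixed points off one line. -/
theorem exists_line (h : Min q A K) {V T : Subgroup G} (hV : Inv A K V) (hT : Inv A K T)
    (hTV : T ≤ 𝐍(V)) (hco : (Nat.card T).Coprime (Nat.card V)) (hn : ¬ T ≤ 𝐂(V)) :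
    ∃ c ∈ A, c ≠ 1 ∧ ∀ b ∈ A, b ∉ zpowers c → V ⊓ 𝐂[b] ≠ ⊥ := by
  by_contra hcon
  push Not at hcon
  refine hn (h.gen hT fun c hc h1 => ?_)
  obtain ⟨b, hb, hbc, hVb⟩ := hcon c hc h1
  have hb1 : b ≠ 1 := by
    rintro rfl
    exact hbc (one_mem _)
  exact h.cen_le_cent_of hV hT hTV hco hc hb hb1 (h.not_mem_zpowers_symm hb hc h1 hbc) hVb

section Syl
variable {p : ℕ} [hp : Fact p.Prime]

theorem exists_syl (h : Min q A K) (p : ℕ) [Fact p.Prime] :
    ∃ P : Sylow p K, (P : Subgroup K).map K.subtype = syl A K p ∧ Inv A K (syl A K p) := by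
  obtain ⟨P, hP⟩ := coprime_exists_invariant_sylow A K h.norm (h.coprime le_rfl) (Or.inl h.solvA) p
  have hi : Inv A K ((P : Subgroup K).map K.subtype) := ⟨map_subtype_le _, hP⟩
  have he : (P : Subgroup K).map K.subtype = syl A K p := by
    refine le_antisymm (le_syl hi (P.2.map _)) (sSup_le ?_)
    rintro T ⟨hT, hTp⟩
    obtain ⟨Q, hTQ, hQ⟩ := coprime_exists_invariant_sylow_ge A K h.norm (h.coprime le_rfl)
      (Or.inl h.solvA) p T hT.le hTp hT.norm
    obtain ⟨c, hc, hce⟩ := coprime_invariant_sylow_conj A K h.norm (h.coprime le_rfl)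
      (Or.inl h.solvA) p P Q hP hQ
    rw [h.fpf, mem_bot] at hc
    rw [hc, conj_one_smul] at hce
    exact hce ▸ hTQ
  exact ⟨P, he, he ▸ hi⟩

theorem inv_syl (h : Min q A K) (p : ℕ) [Fact p.Prime] : Inv A K (syl A K p) :=
  (h.exists_syl p).choose_spec.2

theorem isPGroup_syl (h : Min q A K) (p : ℕ) [Fact p.Prime] : IsPGroup p (syl A K p) := by
  obtain ⟨P, hP, -⟩ := h.exists_syl p
  exact hP ▸ P.2.map _

theorem exists_sylow (h : Min q A K) (p : ℕ) [Fact p.Prime] {H : Subgroup G} (hH : Inv A K H) :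
    ∃ S : Sylow p H, (S : Subgroup H).map H.subtype = syl A K p ⊓ H := by
  obtain ⟨S, hS⟩ := coprime_exists_invariant_sylow A H hH.norm (h.coprime hH.le) (Or.inl h.solvA) p
  exact ⟨S, (eq_map_sylow_of_le S inf_le_right (h.isPGroup_syl p).to_inf_left
    (le_inf (le_syl ⟨(map_subtype_le _).trans hH.le, hS⟩ (S.2.map _)) (map_subtype_le _))).symm⟩

theorem not_dvd_relIndex (h : Min q A K) (p : ℕ) [Fact p.Prime] {H : Subgroup G}
    (hH : Inv A K H) : ¬ p ∣ (syl A K p ⊓ H).relIndex H := by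
  obtain ⟨S, hS⟩ := h.exists_sylow p hH
  rw [← hS, relIndex, subgroupOf, comap_map_eq_self_of_injective H.subtype_injective]
  exact S.not_dvd_index

theorem le_of_syl (h : Min q A K) {H L : Subgroup G} (hH : Inv A K H)
    (hL : ∀ (r : ℕ) [Fact r.Prime], r ∣ Nat.card H → syl A K r ⊓ H ≤ L) : H ≤ L := by
  refine le_of_exists_sylow_le fun r _ => ?_
  obtain ⟨S, hS⟩ := h.exists_sylow r hH
  refine ⟨S, ?_⟩
  by_cases hr : r ∣ Nat.card H
  · exact hS ▸ hL r hr
  · have : (S : Subgroup H) = ⊥ := by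
      by_contra hne
      obtain ⟨k, hk⟩ := S.2.exists_card_eq
      rcases k with _ | k
      · exact hne (card_eq_one.mp (by simpa using hk))
      · exact hr ((dvd_pow_self r (Nat.succ_ne_zero k)).trans (hk ▸ card_subgroup_dvd_card _))
    rw [this, Subgroup.map_bot]
    exact bot_le

theorem syl_ne (h : Min q A K) {T : Subgroup G} (hT : IsPGroup p T) : T ≠ K := by
  rintro rfl
  exact h.nsol (isSolvable_of_isPGroup hT)

theorem solv_norm (h : Min q A K) {T : Subgroup G} (hT : Inv A K T) (hp : IsPGroup p T)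
    (hne : T ≠ ⊥) : Group.IsSolvable (K ⊓ 𝐍(T) : Subgroup G) :=
  h.solv _ inf_le_left (h.top.inf_norm hT).norm fun he =>
    hne (h.simple T hT.le hT.norm (he ▸ inf_le_right) (isSolvable_of_isPGroup hp))

/-- Ward's theorem gives `p`-length one. -/
theorem normal_sylow_sup (h : Min q A K) {H : Subgroup G} (hH : Inv A K H)
    (hs : Group.IsSolvable H) (S : Sylow p H) :
    ((S : Subgroup H) ⊔ pPrimeCore p H).Normal := by
  letI : MulDistribMulAction A H :=
    MulDistribMulAction.compHom H (H.normalizerMonoidHom.comp (inclusion hH.norm))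
  have h2 : FH.res 2 (⊤ : Subgroup H) = ⊥ := by
    refine FH.res_two_eq_bot_of_card (A := A) hs h.prime h.prime (by rw [h.card, sq])
      (h.coprime hH.le) fun g hg => ?_
    have : (g : G) ∈ K ⊓ 𝐂(A) := by
      refine ⟨hH.le g.2, fun a ha => ?_⟩
      have h1 : a * g * a⁻¹ = g := congrArg Subtype.val (hg ⟨a, ha⟩)
      exact mul_inv_eq_iff_eq_mul.mp h1
    rw [h.fpf, mem_bot] at this
    exact Subtype.ext this
  set N := FH.nres (⊤ : Subgroup H)
  have hN : Group.IsNilpotent N := FH.nres_eq_bot_iff.mp h2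
  have hle : N ≤ (S : Subgroup H) ⊔ pPrimeCore p H :=
    (le_fittingSubgroup hN).trans ((fittingSubgroup_le_pCore_sup p).trans
      (sup_le_sup_right (pCore_le_sylow S) _))
  have hq : Group.IsNilpotent (H ⧸ N) := by
    have h3 : FH.nres (⊤ : Subgroup (H ⧸ N)) = ⊥ := by
      rw [← map_top_of_surjective _ (QuotientGroup.mk'_surjective N), ← FH.map_nres,
        map_mk'_eq_bot_iff]
    exact Group.nilpotent_of_mulEquiv (_h := FH.nres_eq_bot_iff.mp h3) topEquiv
  have hn : ((S : Subgroup H) ⊔ N).Normal := by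
    rw [← comap_map_mk']
    have : ((S.mapSurjective (QuotientGroup.mk'_surjective N) : Sylow p (H ⧸ N)) :
        Subgroup (H ⧸ N)).Normal := by
      rw [sylow_eq_pCore_of_isNilpotent]
      infer_instance
    exact this.comap _
  have he : (S : Subgroup H) ⊔ pPrimeCore p H = ((S : Subgroup H) ⊔ N) ⊔ pPrimeCore p H :=
    le_antisymm (sup_le_sup_right le_sup_left _)
      (sup_le (sup_le le_sup_left hle) le_sup_right)
  rw [he]
  infer_instance

theorem le_norm_sup (h : Min q A K) (p : ℕ) [Fact p.Prime] {H : Subgroup G} (hH : Inv A K H)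
    (hs : Group.IsSolvable H) : H ≤ 𝐍((syl A K p ⊓ H) ⊔ Op' p H) := by
  obtain ⟨S, hS⟩ := h.exists_sylow p hH
  haveI := h.normal_sylow_sup hH hs S
  rw [← hS, ← Subgroup.map_sup]
  exact le_normalizer_map_subtype H _

/-- A `p`-element centralizing `O_{p'}(H)` lies in `O_p(H)`. -/
theorem inf_cent_le_op (h : Min q A K) (p : ℕ) [Fact p.Prime] {H : Subgroup G} (hH : Inv A K H)
    (hs : Group.IsSolvable H) : syl A K p ⊓ H ⊓ 𝐂(Op' p H) ≤ Op p H := by
  have hW : (syl A K p ⊓ H) ⊔ Op' p H ≤ H := sup_le inf_le_right (Op'_le p H)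
  refine le_trans (le_map_pCore (M := (syl A K p ⊓ H) ⊔ Op' p H) (inf_le_left.trans le_sup_left)
    (sup_le ?_ ?_) (h.isPGroup_syl p).to_inf_left.to_inf_left)
    (map_pCore_le_map_pCore hW (h.le_norm_sup p hH hs))
  · exact le_normalizer_inf le_normalizer (le_normalizer_centralizer
      (inf_le_right.trans (le_normalizer.trans (normalizer_le_normalizer_map_pPrimeCore H))))
  · exact (le_centralizer_iff.mp inf_le_right).trans (centralizer_le_normalizer _)

theorem hasNPC_of_le (h : Min q A K) {H : Subgroup G} (hH : Inv A K H) (hs : Group.IsSolvable H)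
    (hP : syl A K p ≤ H) (hN : K ⊓ 𝐍(syl A K p) ≤ syl A K p ⊔ 𝐂(syl A K p)) :
    HasNormalPComplement p H := by
  obtain ⟨S, hS⟩ := h.exists_sylow p hH
  rw [inf_eq_left.mpr hP] at hS
  haveI := h.normal_sylow_sup hH hs S
  have hps : IsPSolvable p H := isPSolvable_of_isSolvable p H
  have hC : centralizer ((S : Subgroup H) : Set H) ≤ (S : Subgroup H) ⊔ pPrimeCore p H := by
    refine (IsPSolvable.centralizer_sylow_le hps S).trans ?_
    rw [← pPrimeCore_sup_sylow_inf S, sup_comm]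
    exact sup_le_sup_right inf_le_left _
  have hNS : normalizer ((S : Subgroup H) : Set H) ≤ (S : Subgroup H) ⊔ pPrimeCore p H := by
    intro x hx
    have hx' : (x : G) ∈ 𝐍(syl A K p) := by
      rw [← hS]
      exact map_le_normalizer_map H.subtype le_rfl (mem_map_of_mem _ hx)
    obtain ⟨y, hy, z, hz, hyz⟩ := (mem_sup_of_le_normalizer
      (le_normalizer_centralizer le_normalizer)).mp (hN ⟨hH.le x.2, hx'⟩)
    have hzH : z ∈ H := by
      have : z = y⁻¹ * x := by rw [← hyz]; group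
      rw [this]
      exact mul_mem (inv_mem (hP hy)) x.2
    have : x = ⟨y, hP hy⟩ * ⟨z, hzH⟩ := Subtype.ext hyz.symm
    rw [this]
    refine mul_mem (mem_sup_left ?_) (hC fun w hw => Subtype.ext ?_)
    · exact (mem_map_iff_mem (f := H.subtype) H.subtype_injective).mp (hS.ge hy)
    · exact hz w (hS ▸ mem_map_of_mem _ hw)
  have htop : (S : Subgroup H) ⊔ pPrimeCore p H = ⊤ := by
    have := Sylow.normalizer_sup_eq_top' (N := (S : Subgroup H) ⊔ pPrimeCore p H) S le_sup_left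
    rw [eq_top_iff, ← this]
    exact sup_le hNS le_rfl
  exact hasNPC_of_normal (pPrimeCore p H) (coprime_card_pPrimeCore p H)
    (isPGroup_quotient_of_sup_eq_top _ S.2 (by rw [sup_comm]; exact htop))

theorem not_hasNPC (h : Min q A K) (hne : syl A K p ≠ ⊥) : ¬ HasNormalPComplement p K := by
  intro hnpc
  obtain ⟨P, hP, -⟩ := h.exists_syl p
  have hc := isComplement'_pResidual_of_hasNPC hnpc P
  have hn := normalizer_le_normalizer_map_subtype K (pResidual p K)
  have hb : (pResidual p K).map K.subtype = ⊥ := by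
    refine h.simple _ (map_subtype_le _) (h.norm.trans hn) (le_normalizer.trans hn)
      (h.solv _ (map_subtype_le _) (h.norm.trans hn) fun he => hne ?_)
    have h1 : pResidual p K = ⊤ := by
      apply map_injective K.subtype_injective
      rw [he, ← MonoidHom.range_eq_map, range_subtype]
    have h2 := hc.disjoint
    rw [h1, top_disjoint] at h2
    rw [← hP, h2, Subgroup.map_bot]
  rw [map_eq_bot_iff_of_injective _ K.subtype_injective] at hb
  exact h.nsol (isSolvable_of_isPGroup (isPGroup_iff_pResidual_eq_bot.mpr hb))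

/-- Transfer: an odd or abelian invariant Sylow subgroup has fixed points off one line. -/
theorem exists_line_syl (h : Min q A K) (hne : syl A K p ≠ ⊥)
    (hp2 : p ≠ 2 ∨ syl A K p ≤ 𝐂(syl A K p)) :
    ∃ c ∈ A, c ≠ 1 ∧ ∀ b ∈ A, b ∉ zpowers c → syl A K p ⊓ 𝐂[b] ≠ ⊥ := by
  have hPi := h.inv_syl p
  have hPp := h.isPGroup_syl p
  by_cases hex : ∃ (r : ℕ) (_ : Fact r.Prime), r ≠ p ∧
      ¬ syl A K r ⊓ (K ⊓ 𝐍(syl A K p)) ≤ 𝐂(syl A K p)
  · obtain ⟨r, hr, hrp, hn⟩ := hex
    exact h.exists_line hPi ((h.inv_syl r).inf (h.top.inf_norm hPi))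
      (inf_le_right.trans inf_le_right)
      (IsPGroup.coprime_card_of_ne r p hrp _ _ (h.isPGroup_syl r).to_inf_left hPp) hn
  exfalso
  push Not at hex
  have hN : K ⊓ 𝐍(syl A K p) ≤ syl A K p ⊔ 𝐂(syl A K p) := by
    refine h.le_of_syl (h.top.inf_norm hPi) fun r hr _ => ?_
    by_cases hrp : r = p
    · subst hrp
      exact inf_le_left.trans le_sup_left
    · exact (hex r hr hrp).trans le_sup_right
  refine h.not_hasNPC hne ?_
  obtain ⟨P, hP, -⟩ := h.exists_syl p
  rcases hp2 with hp2 | hab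
  · have key : ∀ (T : Subgroup G) (M : Subgroup K), Inv A K T → IsPGroup p T → T ≠ ⊥ →
        syl A K p ≤ 𝐍(T) → M.map K.subtype ≤ 𝐍(T) → HasNormalPComplement p M := by
      intro T M hT hTp hT1 hPT hM
      have h2 := h.hasNPC_of_le (h.top.inf_norm hT) (h.solv_norm hT hTp hT1)
        (le_inf hPi.le hPT) hN
      have h3 := CL.hasNPC_of_le h2 (le_inf (map_subtype_le M) hM)
      exact hasNPC_of_equiv h3 (M.equivMapOfInjective _ K.subtype_injective).symm
    refine (Cfsg.Agent.S0108.result hp2 P).2 ⟨key (thompsonSubgroupOf p (syl A K p)) _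
      ⟨(Th.thompsonSubgroupOf_le _).trans hPi.le,
        hPi.norm.trans (Th.normalizer_le_normalizer_thompsonSubgroupOf _)⟩
      (hPp.to_le (Th.thompsonSubgroupOf_le _)) (Th.thompsonSubgroupOf_ne_bot_of_isPGroup hPp hne)
      (Th.le_normalizer_thompsonSubgroupOf _) ?_,
      key (syl A K p ⊓ 𝐂(syl A K p)) _ (hPi.inf_cent hPi) hPp.to_inf_left
        (Frob.center_ne_bot_of_isPGroup hPp hne)
        (le_normalizer_inf le_normalizer (le_normalizer_centralizer le_normalizer)) ?_⟩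
    · rw [← hP, ← Th.map_thompsonSubgroupOf _ K.subtype_injective]
      exact map_le_normalizer_map _ le_rfl
    · refine le_trans ?_ (centralizer_le_normalizer _)
      rw [← hP]
      rintro _ ⟨x, hx, rfl⟩ z hz
      obtain ⟨⟨z0, hz0, rfl⟩, hz2⟩ := Subgroup.mem_inf.1 hz
      refine congrArg Subtype.val (hx z0 ⟨hz0, fun y hy => Subtype.ext ?_⟩)
      exact hz2 y ⟨y, hy, rfl⟩
  · refine hasNPC_of_normalizer_le_centralizer P fun x hx y hy => Subtype.ext ?_
    have hx' : (x : G) ∈ 𝐍(syl A K p) := by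
      rw [← hP]
      exact map_le_normalizer_map K.subtype le_rfl (mem_map_of_mem _ hx)
    exact (sup_le hab le_rfl) (hN ⟨x.2, hx'⟩) y (hP ▸ mem_map_of_mem _ hy)

end Syl

end Min

end CL.AbCent
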