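import Mathlib
import Cfsg.Agent.FGS.AbCent
import Cfsg.Agent.SOLV.Hol

/-!
# Coprime action of `C_q × C_q` with abelian centralizers forces solvability
-/

set_option autoImplicit false

namespace CL.AbCent

open Subgroup Cfsg CL CL.Tr
open scoped commutatorElement Pointwise

universe u
variable {G : Type u} [Group G]

local notation "𝐍(" H ")" => Subgroup.normalizer ((H : Subgroup G) : Set G)
local notation "𝐂(" H ")" => Subgroup.centralizer ((H : Subgroup G) : Set G)
local notation "𝐂[" x "]" => Subgroup.centralizer ({x} : Set G)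

/-- `{p, r}`-subgroups. -/
def Two (p r : ℕ) (H : Subgroup G) : Prop := IsPiNum {p, r} (Nat.card H)

/-- Maximal invariant `{p, r}`-subgroups. -/
structure Mx (A K : Subgroup G) (p r : ℕ) (H : Subgroup G) : Prop where
  inv : Inv A K H
  two : Two p r H
  max : ∀ L, Inv A K L → Two p r L → H ≤ L → L ≤ H

variable {q p r : ℕ} {A K H L : Subgroup G}

theorem Two.symm (h : Two p r H) : Two r p H := by
  unfold Two at h ⊢
  rwa [Set.pair_comm]

theorem Mx.symm (h : Mx A K p r H) : Mx A K r p H :=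
  ⟨h.inv, h.two.symm, fun L h1 h2 => h.max L h1 h2.symm⟩

theorem Two.of_le (h : Two p r H) (hL : L ≤ H) : Two p r L := h.of_dvd (card_dvd_of_le hL)

variable [Finite G] [hp : Fact p.Prime] [hr : Fact r.Prime]

omit hr in
theorem Two.left (h : IsPGroup p H) (r : ℕ) : Two p r H :=
  IsPiNum.of_isPGroup h (Set.mem_insert _ _)

omit hp in
theorem Two.right (h : IsPGroup r H) (p : ℕ) : Two p r H := (Two.left h p).symm

omit hp hr in
theorem Two.sup (h : Two p r H) (h' : Two p r L) (hn : H ≤ 𝐍(L)) : Two p r (H ⊔ L) :=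
  (IsPiNum.mul h h').of_dvd (card_sup_dvd_mul_of_le_normalizer hn)

theorem Two.isSolvable (h : Two p r H) : Group.IsSolvable H :=
  Char.isSolvable_of_primes_subset_pair hp.out hr.out fun s hs hd => h s hs hd

theorem Two.op'_eq (h : Two p r H) (hpr : p ≠ r) : Op' p H = Op r H := by
  refine le_antisymm (le_map_pCore (Op'_le p H)
    (le_normalizer.trans (normalizer_le_normalizer_map_pPrimeCore H)) ?_) (Op_le_Op'_of_ne hpr.symm)
  rw [isPGroup_iff_isPiNum]
  intro s hs hd
  rcases h s hs (hd.trans (card_dvd_of_le (Op'_le p H))) with rfl | h1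
  · exact absurd hd ((Nat.Prime.coprime_iff_not_dvd hs).mp (coprime_card_Op' s H).symm)
  · exact h1

omit hp hr in
theorem exists_mx (hL : Inv A K L) (h2 : Two p r L) : ∃ H, Mx A K p r H ∧ L ≤ H := by
  obtain ⟨H, hle, hH⟩ := (Set.toFinite {H | Inv A K H ∧ Two p r H}).exists_le_maximal
    (a := L) ⟨hL, h2⟩
  exact ⟨H, ⟨hH.prop.1, hH.prop.2, fun M h1 h2 h3 => hH.le_of_ge ⟨h1, h2⟩ h3⟩, hle⟩

namespace Min

theorem le_hall (h : Min q A K) (hL : Inv A K L) (h2 : Two p r L) :
    L ≤ (syl A K p ⊓ L) ⊔ (syl A K r ⊓ L) := by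
  refine h.le_of_syl hL fun s hs hd => ?_
  rcases h2 s hs.out hd with rfl | rfl
  · exact le_sup_left
  · exact le_sup_right

theorem two_hall (h : Min q A K) (hL : Inv A K L) (hs : Group.IsSolvable L) :
    Two p r ((syl A K p ⊓ L) ⊔ (syl A K r ⊓ L)) := by
  obtain ⟨H₁, h1, h1', h1''⟩ := exists_invariant_isPiHallOf_ge (π := {p, r}) hL.norm
    (h.coprime hL.le) hs inf_le_right (Two.left (h.isPGroup_syl p).to_inf_left r)
    ((h.inv_syl p).inf hL).norm
  obtain ⟨H₂, h2, h2', h2''⟩ := exists_invariant_isPiHallOf_ge (π := {p, r}) hL.norm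
    (h.coprime hL.le) hs inf_le_right (Two.right (h.isPGroup_syl r).to_inf_left p)
    ((h.inv_syl r).inf hL).norm
  obtain ⟨c, hc, hce⟩ := IsPiHallOf.exists_conj_eq_of_invariant hL.norm (h.coprime hL.le) hs h1 h2
    h1'' h2''
  have hc1 : c = 1 := by
    have : c ∈ K ⊓ 𝐂(A) := ⟨hL.le hc.1, hc.2⟩
    rwa [h.fpf, mem_bot] at this
  rw [hc1, conj_one_smul] at hce
  exact Two.of_le (IsPiHallOf.isPiNum h1) (sup_le h1' (hce ▸ h2'))

/-- Invariant `{p, r}`-subgroups of a local subgroup generate a `{p, r}`-subgroup. -/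
theorem exists_mx_norm (h : Min q A K) {s : ℕ} [Fact s.Prime] {T : Subgroup G} (hT : Inv A K T)
    (hs : IsPGroup s T) (hne : T ≠ ⊥) : ∃ H, Mx A K p r H ∧
      ∀ U, Inv A K U → Two p r U → U ≤ 𝐍(T) → U ≤ H := by
  have hL := h.top.inf_norm hT
  obtain ⟨H, hH, hle⟩ := exists_mx (((h.inv_syl p).inf hL).sup ((h.inv_syl r).inf hL))
    (h.two_hall (p := p) (r := r) hL (h.solv_norm hT hs hne))
  refine ⟨H, hH, fun U hU hU2 hUT => (h.le_hall hU hU2).trans (le_trans ?_ hle)⟩
  exact sup_le_sup (inf_le_inf_left _ (le_inf hU.le hUT)) (inf_le_inf_left _ (le_inf hU.le hUT))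

theorem le_mx_of_norm (h : Min q A K) (hH : Mx A K p r H) {s : ℕ} [Fact s.Prime] {T U : Subgroup G}
    (hT : Inv A K T) (hs : IsPGroup s T) (hne : T ≠ ⊥) (hHT : H ≤ 𝐍(T)) (hU : Inv A K U)
    (hU2 : Two p r U) (hUT : U ≤ 𝐍(T)) : U ≤ H := by
  obtain ⟨M, hM, hle⟩ := h.exists_mx_norm (p := p) (r := r) hT hs hne
  exact (hle U hU hU2 hUT).trans (hH.max M hM.inv hM.two (hle H hH.inv hH.two hHT))

theorem inf_cent_le_op' (h : Min q A K) (hpr : p ≠ r) (hH : Inv A K H) (h2 : Two p r H)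
    {Y : Subgroup G} (hY : Inv A K Y) (hYp : IsPGroup p Y) (hYH : Y ≤ H) (hc : Y ≤ 𝐂(Op r H)) :
    Y ≤ Op p H := by
  have := h.inf_cent_le_op p hH h2.isSolvable
  rw [h2.op'_eq hpr] at this
  exact le_trans (le_inf (le_inf (le_syl hY hYp) hYH) hc) this

/-- The centre of `O_r(H)`. -/
def zo (r : ℕ) (H : Subgroup G) : Subgroup G := Op r H ⊓ 𝐂(Op r H)

omit [Finite G] hp hr in
theorem zo_le (r : ℕ) (H : Subgroup G) : zo r H ≤ Op r H := inf_le_left

omit [Finite G] hp hr in
theorem inv_zo (hH : Inv A K H) (r : ℕ) : Inv A K (zo r H) := (hH.op r).inf_cent (hH.op r)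

omit hp hr in
theorem isPGroup_zo (r : ℕ) (H : Subgroup G) : IsPGroup r (zo r H) := (isPGroup_Op r H).to_inf_left

omit [Finite G] hp hr in
theorem le_norm_zo (r : ℕ) (H : Subgroup G) : H ≤ 𝐍(zo r H) :=
  le_normalizer_inf (le_normalizer_Op r H) (le_normalizer_centralizer (le_normalizer_Op r H))

omit hp in
theorem zo_ne_bot (h : Op r H ≠ ⊥) : zo r H ≠ ⊥ :=
  Frob.center_ne_bot_of_isPGroup (isPGroup_Op r H) h

theorem op_le_cent (hpr : p ≠ r) (H : Subgroup G) : Op p H ≤ 𝐂(Op r H) := by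
  rintro _ ⟨x, hx, rfl⟩ _ ⟨y, hy, rfl⟩
  exact congrArg Subtype.val
    (pCore_le_centralizer_pPrimeCore hx y (pCore_le_pPrimeCore_of_ne hpr.symm hy))

/-- Balance. -/
theorem balance (h : Min q A K) (hpr : p ≠ r) (hH : Mx A K p r H) (hL : Mx A K p r L)
    (hne : Op r H ≠ ⊥) (hZ : zo r H ≤ L) {Y : Subgroup G} (hY : Inv A K Y) (hYH : Y ≤ Op p H)
    (hYL : Y ≤ L) : Y ≤ Op p L := by
  have hYp : IsPGroup p Y := (isPGroup_Op p H).to_le hYH
  refine h.inf_cent_le_op' hpr hL.inv hL.two hY hYp hYL (le_centralizer_iff.mp ?_)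
  have hco : (Nat.card Y).Coprime r := by
    obtain ⟨k, hk⟩ := hYp.exists_card_eq
    rw [hk]
    exact ((Nat.coprime_primes hp.out hr.out).mpr hpr).pow_left k
  refine thompson_p_times_q (p := r) (zo r H) Y (Op r L) (isPGroup_zo r H) hco (isPGroup_Op r L)
    (le_centralizer_iff.mp (hYH.trans ((op_le_cent hpr H).trans
      (centralizer_le (SetLike.coe_subset_coe.mpr (zo_le r H))))))
    (hZ.trans (le_normalizer_Op r L)) (hYL.trans (le_normalizer_Op r L)) ?_
  have hle : Op r L ⊓ 𝐂(zo r H) ≤ H := h.le_mx_of_norm hH (inv_zo hH.inv r) (isPGroup_zo r H)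
    (zo_ne_bot hne) (le_norm_zo r H) ((hL.inv.op r).inf_cent (inv_zo hH.inv r))
    (Two.right (isPGroup_Op r L).to_inf_left p) (inf_le_right.trans (centralizer_le_normalizer _))
  rw [← commutator_eq_bot_iff_le_centralizer, eq_bot_iff,
    ← (IsPGroup.disjoint_of_ne r p hpr.symm _ _ (isPGroup_Op r L) (isPGroup_Op p H)).eq_bot]
  refine le_inf ?_ ?_
  · exact (commutator_mono inf_le_left le_rfl).trans
      (le_normalizer_iff_commutator_le_left.mp (hYL.trans (le_normalizer_Op r L)))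
  · exact (commutator_mono le_rfl hYH).trans
      (le_normalizer_iff_commutator_le_right.mp (hle.trans (le_normalizer_Op p H)))

theorem op_le_of_zo_le (h : Min q A K) (hpr : p ≠ r) (hH : Mx A K p r H) (hL : Mx A K p r L)
    (hp1 : Op p H ≠ ⊥) (hr1 : Op r H ≠ ⊥) (hZp : zo p H ≤ L) (hZr : zo r H ≤ L) :
    zo p H ≤ Op p L ∧ Op r L ≤ H := by
  have h1 := h.balance hpr hH hL hr1 hZr (inv_zo hH.inv p) (zo_le p H) hZp
  refine ⟨h1, h.le_mx_of_norm hH (inv_zo hH.inv p) (isPGroup_zo p H) (zo_ne_bot hp1)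
    (le_norm_zo p H) (hL.inv.op r) (Two.right (isPGroup_Op r L) p) ?_⟩
  exact ((op_le_cent hpr.symm L).trans (centralizer_le (SetLike.coe_subset_coe.mpr h1))).trans
    (centralizer_le_normalizer _)

/-- Bender's uniqueness theorem. -/
theorem unique (h : Min q A K) (hpr : p ≠ r) (hH : Mx A K p r H) (hL : Mx A K p r L)
    (hp1 : Op p H ≠ ⊥) (hr1 : Op r H ≠ ⊥) (hZp : zo p H ≤ L) (hZr : zo r H ≤ L) : L ≤ H := by
  obtain ⟨a1, a2⟩ := h.op_le_of_zo_le hpr hH hL hp1 hr1 hZp hZr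
  obtain ⟨b1, b2⟩ := h.op_le_of_zo_le hpr.symm hH.symm hL.symm hr1 hp1 hZr hZp
  have hp2 : Op p L ≠ ⊥ := fun he => zo_ne_bot hp1 (le_bot_iff.mp (he ▸ a1))
  have hr2 : Op r L ≠ ⊥ := fun he => zo_ne_bot hr1 (le_bot_iff.mp (he ▸ b1))
  have c1 := h.balance hpr hL hH hr2 ((zo_le r L).trans a2) (hL.inv.op p) le_rfl b2
  obtain ⟨-, d2⟩ := h.op_le_of_zo_le hpr.symm hL.symm hH.symm hr2 hp2 ((zo_le r L).trans a2)
    ((zo_le p L).trans b2)
  have c2 := h.balance hpr hH hL hr1 hZr (hH.inv.op p) le_rfl d2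
  exact h.le_mx_of_norm hH (hH.inv.op p) (isPGroup_Op p H) hp1 (le_normalizer_Op p H) hL.inv
    hL.two (le_antisymm c2 c1 ▸ le_normalizer_Op p L)

theorem le_of_le_op (h : Min q A K) (hpr : p ≠ r) (hH : Mx A K p r H)
    (hp1 : Op p H ≠ ⊥) (hr1 : Op r H ≠ ⊥) {T U : Subgroup G} (hT : Inv A K T) (hne : T ≠ ⊥)
    (hTH : T ≤ Op p H) (hU : Inv A K U) (hU2 : Two p r U) (hUT : U ≤ 𝐍(T)) : U ≤ H := by
  obtain ⟨M, hM, hle⟩ := h.exists_mx_norm (p := p) (r := r) hT ((isPGroup_Op p H).to_le hTH) hne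
  refine (hle U hU hU2 hUT).trans (h.unique hpr hH hM hp1 hr1 ?_ ?_)
  · exact hle _ (inv_zo hH.inv p) (Two.left (isPGroup_zo p H) r)
      ((inf_le_right.trans (centralizer_le (SetLike.coe_subset_coe.mpr hTH))).trans
        (centralizer_le_normalizer _))
  · exact hle _ (inv_zo hH.inv r) (Two.right (isPGroup_zo r H) p)
      ((((zo_le r H).trans (op_le_cent hpr.symm H)).trans
        (centralizer_le (SetLike.coe_subset_coe.mpr hTH))).trans (centralizer_le_normalizer _))

omit hr in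
theorem syl_le_of_norm_le (h : Min q A K) (hn : syl A K p ⊓ 𝐍(syl A K p ⊓ H) ≤ H) :
    syl A K p ≤ H := by
  by_contra hcon
  have hlt : syl A K p ⊓ H < syl A K p :=
    lt_of_le_of_ne inf_le_left fun he => hcon (he ▸ inf_le_right)
  exact (lt_inf_normalizer_of_lt (h.isPGroup_syl p) hlt).not_ge (le_inf inf_le_left hn)

theorem syl_le_of_both (h : Min q A K) (hpr : p ≠ r) (hH : Mx A K p r H)
    (hp1 : Op p H ≠ ⊥) (hr1 : Op r H ≠ ⊥) : syl A K p ≤ H := by
  have hPi := h.inv_syl p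
  have hPp := h.isPGroup_syl p
  have hSi := hPi.inf hH.inv
  have hNi := hPi.inf_norm hSi
  refine h.syl_le_of_norm_le (h.gen hNi fun b hb hb1 => ?_)
  have hUi := h.inv_cen hNi hb
  have hU2 : Two p r (syl A K p ⊓ 𝐍(syl A K p ⊓ H) ⊓ 𝐂[b]) :=
    Two.left hPp.to_inf_left.to_inf_left r
  by_cases c1 : Op p H ⊓ 𝐂[b] = ⊥
  swap
  · exact h.le_of_le_op hpr hH hp1 hr1 (h.inv_cen (hH.inv.op p) hb) c1 inf_le_left hUi hU2
      ((h.cen_le_cent hNi.le (hH.inv.op p).le hb hb1).trans (centralizer_le_normalizer _))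
  by_cases c2 : Op r H ⊓ 𝐂[b] = ⊥
  swap
  · exact h.le_of_le_op hpr.symm hH.symm hr1 hp1 (h.inv_cen (hH.inv.op r) hb) c2 inf_le_left hUi
      hU2.symm
      ((h.cen_le_cent hNi.le (hH.inv.op r).le hb hb1).trans (centralizer_le_normalizer _))
  have hbA : zpowers b ≤ A := zpowers_le.mpr hb
  have hOS : Op p H ≤ syl A K p ⊓ H :=
    le_inf (le_syl (hH.inv.op p) (isPGroup_Op p H)) (Op_le p H)
  have hSle : syl A K p ⊓ H ≤ Op p H ⊔ (syl A K p ⊓ H ⊓ 𝐂[b]) := by
    refine h.gen hSi fun e he he1 => ?_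
    by_cases heb : e ∈ zpowers b
    · rw [h.cen_eq_of_mem hb he1 heb]
      exact le_sup_right
    · refine le_trans (h.inf_cent_le_op' hpr hH.inv hH.two (h.inv_cen hSi he)
        hPp.to_inf_left.to_inf_left (inf_le_left.trans inf_le_right) ?_) le_sup_left
      exact h.cen_le_cent_of (hH.inv.op r) hSi (inf_le_right.trans (le_normalizer_Op r H))
        (IsPGroup.coprime_card_of_ne p r hpr _ _ hPp.to_inf_left (isPGroup_Op r H)) he hb hb1 heb c2
  have hcomm : ⁅syl A K p ⊓ H, zpowers b⁆ = Op p H := by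
    refine le_antisymm ?_ ?_
    · refine (commutator_le_of_mul_centralizer (S := Op p H) fun k hk => ?_).trans
        (le_normalizer_iff_commutator_le_left.mp (hbA.trans (hH.inv.op p).norm))
      obtain ⟨y, hy, z, hz, hyz⟩ := (mem_sup_of_le_normalizer'
        ((inf_le_left.trans inf_le_right).trans (le_normalizer_Op p H))).mp (hSle hk)
      exact ⟨y, hy, z, by rw [CS.cen_zpowers]; exact hz.2, hyz.symm⟩
    · have := coprime_commutator_sup_centralizer (zpowers b) (Op p H)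
        (hbA.trans (hH.inv.op p).norm)
        ((h.coprime (hH.inv.op p).le).coprime_dvd_left (card_dvd_of_le hbA)) (Or.inl inferInstance)
      rw [CS.cen_zpowers, c1, sup_bot_eq] at this
      rw [← this]
      exact commutator_mono hOS le_rfl
  refine h.le_mx_of_norm hH (hH.inv.op p) (isPGroup_Op p H) hp1 (le_normalizer_Op p H) hUi hU2 ?_
  rw [← hcomm]
  refine le_normalizer_commutator (inf_le_left.trans inf_le_right)
    (le_trans ?_ (centralizer_le_normalizer _))
  rw [CS.cen_zpowers]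
  exact inf_le_right

theorem syl_le_of_op_eq_bot (h : Min q A K) (hpr : p ≠ r) (hH : Mx A K p r H)
    (hP : syl A K p ≠ ⊥) (hr1 : Op r H = ⊥) : syl A K p ≤ H ∧ H ≤ 𝐍(syl A K p) := by
  have hPi := h.inv_syl p
  have hPp := h.isPGroup_syl p
  have hn := h.le_norm_sup p hH.inv hH.two.isSolvable
  rw [hH.two.op'_eq hpr, hr1, sup_bot_eq] at hn
  have hle : syl A K p ≤ H := by
    by_cases hS : syl A K p ⊓ H = ⊥
    · have hHr : H ≤ syl A K r ⊓ H := by
        have := h.le_hall hH.inv hH.two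
        rwa [hS, bot_sup_eq] at this
      have hH1 : H = ⊥ := by
        rw [eq_bot_iff, ← hr1]
        exact le_map_pCore le_rfl le_normalizer ((h.isPGroup_syl r).to_inf_left.to_le hHr)
      exact hH.max _ hPi (Two.left hPp r) (hH1 ▸ bot_le)
    · exact h.syl_le_of_norm_le (h.le_mx_of_norm hH (hPi.inf hH.inv) hPp.to_inf_left hS hn
        (hPi.inf_norm (hPi.inf hH.inv)) (Two.left hPp.to_inf_left r) inf_le_right)
  exact ⟨hle, by rwa [inf_eq_left.mpr hle] at hn⟩

/-- The two invariant Sylow subgroups do not generate a `{p, r}`-group. -/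
structure Bad (A K : Subgroup G) (p r : ℕ) : Prop where
  ne : p ≠ r
  left : syl A K p ≠ ⊥
  right : syl A K r ≠ ⊥
  not_two : ¬ Two p r (syl A K p ⊔ syl A K r)

omit [Finite G] hp hr in
theorem Bad.symm (h : Bad A K p r) : Bad A K r p :=
  ⟨h.ne.symm, h.right, h.left, fun h2 => h.not_two (by rw [sup_comm]; exact h2.symm)⟩

theorem dichotomy (h : Min q A K) (hb : Bad A K p r) (hH : Mx A K p r H) :
    (Op r H = ⊥ ∧ syl A K p ≤ H ∧ H ≤ 𝐍(syl A K p)) ∨
      (Op p H = ⊥ ∧ syl A K r ≤ H ∧ H ≤ 𝐍(syl A K r)) := by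
  by_cases h1 : Op r H = ⊥
  · exact Or.inl ⟨h1, h.syl_le_of_op_eq_bot hb.ne hH hb.left h1⟩
  by_cases h2 : Op p H = ⊥
  · exact Or.inr ⟨h2, h.syl_le_of_op_eq_bot hb.ne.symm hH.symm hb.right h2⟩
  exact absurd (hH.two.of_le (sup_le (h.syl_le_of_both hb.ne hH h2 h1)
    (h.syl_le_of_both hb.ne.symm hH.symm h1 h2))) hb.not_two

theorem faithful (h : Min q A K) (hb : Bad A K p r) : syl A K r ⊓ 𝐂(syl A K p) = ⊥ := by
  have hPi := h.inv_syl p
  have hRi := h.inv_syl r
  have hXi := hRi.inf_norm hPi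
  obtain ⟨H, hH, hle⟩ := exists_mx (hXi.sup hPi)
    ((Two.right (h.isPGroup_syl r).to_inf_left p).sup (Two.left (h.isPGroup_syl p) r) inf_le_right)
  rcases h.dichotomy hb hH with ⟨h1, h2, h3⟩ | ⟨-, h2, -⟩
  · rw [eq_bot_iff, ← h1]
    refine le_map_pCore ((inf_le_inf_left _ (centralizer_le_normalizer _)).trans
      (le_sup_left.trans hle)) ((h.le_hall hH.inv hH.two).trans (sup_le ?_ ?_))
      (h.isPGroup_syl r).to_inf_left
    · exact inf_le_left.trans ((le_centralizer_iff.mp inf_le_right).trans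
        (centralizer_le_normalizer _))
    · exact le_normalizer_inf (inf_le_left.trans le_normalizer)
        (le_normalizer_centralizer (inf_le_right.trans h3))
  · exact absurd (hH.two.of_le (sup_le (le_sup_right.trans hle) h2)) hb.not_two

theorem line_cases (h : Min q A K) (hb : Bad A K p r) {b : G} (hbA : b ∈ A) (hb1 : b ≠ 1)
    (hP : syl A K p ⊓ 𝐂[b] ≠ ⊥) : syl A K r ⊓ 𝐂[b] ≤ 𝐍(syl A K p) ∨
      syl A K p ⊓ 𝐂(syl A K p ⊓ 𝐂[b]) ≤ 𝐍(syl A K r) := by
  have hPi := h.inv_syl p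
  have hRi := h.inv_syl r
  obtain ⟨H, hH, hle⟩ := h.exists_mx_norm (p := p) (r := r) (h.inv_cen hPi hbA)
    (h.isPGroup_syl p).to_inf_left hP
  rcases h.dichotomy hb hH with ⟨-, -, h3⟩ | ⟨-, -, h3⟩
  · exact Or.inl ((hle _ (h.inv_cen hRi hbA) (Two.right (h.isPGroup_syl r).to_inf_left p)
      ((h.cen_le_cent hRi.le hPi.le hbA hb1).trans (centralizer_le_normalizer _))).trans h3)
  · exact Or.inr ((hle _ (hPi.inf_cent (h.inv_cen hPi hbA))
      (Two.left (h.isPGroup_syl p).to_inf_left r)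
      (inf_le_right.trans (centralizer_le_normalizer _))).trans h3)

omit hp in
theorem one_line (h : Min q A K) (hR : syl A K r ≠ ⊥) {c : G} (hc : c ∈ A) (hc1 : c ≠ 1)
    (hl : ∀ b ∈ A, b ∉ zpowers c → syl A K r ⊓ 𝐂[b] = ⊥) : False := by
  have hRi := h.inv_syl r
  have hle : syl A K r ≤ syl A K r ⊓ 𝐂[c] := by
    refine h.gen hRi fun b hb hb1 => ?_
    by_cases hbc : b ∈ zpowers c
    · rw [h.cen_eq_of_mem hc hb1 hbc]
    · rw [hl b hb hbc]
      exact bot_le
  have hab : syl A K r ≤ 𝐂(syl A K r) := (hle.trans (h.cen_le_cent hRi.le hRi.le hc hc1)).trans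
    (centralizer_le (SetLike.coe_subset_coe.mpr hle))
  obtain ⟨c', hc', hc1', hl'⟩ := h.exists_line_syl hR (Or.inr hab)
  by_cases hcc : c' ∈ zpowers c
  · obtain ⟨b, hb, hbc⟩ := h.exists_not_mem c
    exact hl' b hb (fun hb' => hbc (zpowers_le.mpr hcc hb')) (hl b hb hbc)
  · refine hl' (c * c') (mul_mem hc hc') (fun hm => ?_) (hl _ (mul_mem hc hc') fun hm => ?_)
    · exact h.not_mem_zpowers_symm hc' hc hc1 hcc
        ((mul_mem_cancel_right (mem_zpowers c')).mp hm)
    · exact hcc ((mul_mem_cancel_left (mem_zpowers c)).mp hm)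

theorem norm_eq_bot (h : Min q A K) (hb : Bad A K p r) : syl A K r ⊓ 𝐍(syl A K p) = ⊥ := by
  by_contra hX
  have hPi := h.inv_syl p
  have hRi := h.inv_syl r
  have hPp := h.isPGroup_syl p
  have hRp := h.isPGroup_syl r
  have hXi := hRi.inf_norm hPi
  have hnc : ¬ syl A K r ⊓ 𝐍(syl A K p) ≤ 𝐂(syl A K p) := fun hc =>
    hX (le_bot_iff.mp (h.faithful hb ▸ le_inf inf_le_left hc))
  have hco : (Nat.card (syl A K r ⊓ 𝐍(syl A K p) : Subgroup G)).Coprime (Nat.card (syl A K p)) :=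
    IsPGroup.coprime_card_of_ne r p hb.ne.symm _ _ hRp.to_inf_left hPp
  have key : ∀ b ∈ A, b ≠ 1 → syl A K p ⊓ 𝐂[b] ≠ ⊥ → syl A K r ⊓ 𝐂[b] ≤ 𝐍(syl A K p) := by
    intro b hbA hb1 hP
    refine (h.line_cases hb hbA hb1 hP).resolve_right fun hY => hnc (le_centralizer_iff.mp ?_)
    have hYX : syl A K p ⊓ 𝐍(syl A K r) ≤ 𝐂(syl A K r ⊓ 𝐍(syl A K p)) := by
      rw [← commutator_eq_bot_iff_le_centralizer, eq_bot_iff,
        ← (IsPGroup.disjoint_of_ne p r hb.ne _ _ hPp hRp).eq_bot]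
      refine le_inf ?_ ?_
      · exact (commutator_mono inf_le_left le_rfl).trans
          (le_normalizer_iff_commutator_le_left.mp inf_le_right)
      · exact (commutator_mono le_rfl inf_le_left).trans
          (le_normalizer_iff_commutator_le_right.mp inf_le_right)
    have h1 : syl A K p ⊓ 𝐂(syl A K p ⊓ 𝐂[b]) ≤ 𝐂(syl A K r ⊓ 𝐍(syl A K p)) :=
      (le_inf inf_le_left hY).trans hYX
    have hco' : (Nat.card (syl A K r ⊓ 𝐍(syl A K p) : Subgroup G)).Coprime p := by
      obtain ⟨k, hk⟩ := hRp.to_inf_left.exists_card_eq (G := (syl A K r ⊓ 𝐍(syl A K p) : Subgroup G))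
      rw [hk]
      exact ((Nat.coprime_primes hr.out hp.out).mpr hb.ne.symm).pow_left k
    exact thompson_p_times_q (p := p) (syl A K p ⊓ 𝐂[b]) _ (syl A K p) hPp.to_inf_left hco' hPp
      ((le_inf inf_le_left (h.cen_le_cent hPi.le hPi.le hbA hb1)).trans h1)
      (inf_le_left.trans le_normalizer) inf_le_right h1
  obtain ⟨c, hc, hc1, hl⟩ := h.exists_line hPi hXi inf_le_right hco hnc
  by_cases hPc : syl A K p ⊓ 𝐂[c] = ⊥
  · refine h.one_line hb.right hc hc1 fun b hbA hbc => ?_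
    have hb1 : b ≠ 1 := by
      rintro rfl
      exact hbc (one_mem _)
    have h1 := h.cen_le_cent_of hPi hXi inf_le_right hco hbA hc hc1 hbc hPc
    rw [eq_bot_iff, ← h.faithful hb]
    exact le_inf inf_le_left (le_trans (le_inf (le_inf inf_le_left (key b hbA hb1 (hl b hbA hbc)))
      inf_le_right) h1)
  · refine hb.not_two ?_
    rw [sup_comm]
    refine (Two.right hRp p).sup (Two.left hPp r) (h.gen hRi fun b hbA hb1 => key b hbA hb1 ?_)
    by_cases hbc : b ∈ zpowers c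
    · rwa [h.cen_eq_of_mem hc hb1 hbc]
    · exact hl b hbA hbc

theorem not_bad_of_odd (h : Min q A K) (hb : Bad A K p r) (hp2 : p ≠ 2) : False := by
  obtain ⟨c, hc, hc1, hl⟩ := h.exists_line_syl hb.left (Or.inl hp2)
  refine h.one_line hb.right hc hc1 fun b hbA hbc => ?_
  have hb1 : b ≠ 1 := by
    rintro rfl
    exact hbc (one_mem _)
  rcases h.line_cases hb hbA hb1 (hl b hbA hbc) with h1 | h1
  · exact le_bot_iff.mp (h.norm_eq_bot hb ▸ le_inf inf_le_left h1)
  · refine absurd (le_bot_iff.mp (h.norm_eq_bot hb.symm ▸ le_inf inf_le_left ?_)) (hl b hbA hbc)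
    exact le_trans (le_inf inf_le_left
      (h.cen_le_cent (h.inv_syl p).le (h.inv_syl p).le hbA hb1)) h1

theorem two_sup (h : Min q A K) (hpr : p ≠ r) : Two p r (syl A K p ⊔ syl A K r) := by
  by_cases h1 : syl A K p = ⊥
  · rw [h1, bot_sup_eq]
    exact Two.right (h.isPGroup_syl r) p
  by_cases h2 : syl A K r = ⊥
  · rw [h2, sup_bot_eq]
    exact Two.left (h.isPGroup_syl p) r
  by_contra h3
  have hb : Bad A K p r := ⟨hpr, h1, h2, h3⟩
  by_cases hp2 : p = 2
  · exact h.not_bad_of_odd hb.symm fun hr2 => hpr (hp2.trans hr2.symm)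
  · exact h.not_bad_of_odd hb hp2

theorem permutes (h : Min q A K) : Permutes (syl A K p) (syl A K r) := by
  by_cases hpr : p = r
  · subst hpr
    exact Permutes.self _
  have h2 := h.two_sup hpr
  have hi := (h.inv_syl p).sup (h.inv_syl r)
  refine Permutes.of_coe_eq_mul (coe_mul_coe_eq_of_coprime_relIndex le_sup_left le_sup_right
    (Nat.coprime_of_dvd fun s hs h3 h4 => ?_)).symm
  rcases h2 s hs (h3.trans (relIndex_dvd_card _ _)) with rfl | rfl
  · exact h.not_dvd_relIndex s hi (by rwa [inf_relIndex_right])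
  · exact h.not_dvd_relIndex s hi (by rwa [inf_relIndex_right])

omit hp hr in
theorem false (h : Min q A K) : False := by
  refine h.nsol (isSolvable_of_forall_exists_pComplement fun p hp => ?_)
  haveI := Fact.mk hp
  have key : ∀ s : Finset ℕ, (∀ r ∈ s, r.Prime ∧ r ≠ p) → ∃ L ≤ K, ¬ p ∣ Nat.card L ∧
      (∀ r ∈ s, syl A K r ≤ L) ∧ ∀ (t : ℕ) [Fact t.Prime], Permutes L (syl A K t) := by
    intro s
    induction s using Finset.induction_on with
    | empty =>
      exact fun _ => ⟨⊥, bot_le, by simpa using hp.ne_one, by simp, fun t _ => Permutes.bot_left _⟩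
    | insert r s _ ih =>
      intro hs
      obtain ⟨L, hL, h1, h2, h3⟩ := ih fun t ht => hs t (Finset.mem_insert_of_mem ht)
      obtain ⟨hr, hrp⟩ := hs r (Finset.mem_insert_self r s)
      haveI := Fact.mk hr
      refine ⟨L ⊔ syl A K r, sup_le hL (h.inv_syl r).le, fun hd => ?_, fun t ht => ?_,
        fun t _ => (h3 t).sup_left h.permutes⟩
      · rcases hp.dvd_mul.mp (hd.trans (h3 r).card_sup_dvd) with h4 | h4
        · exact h1 h4
        · obtain ⟨k, hk⟩ := (h.isPGroup_syl r).exists_card_eq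
          exact hrp ((Nat.prime_dvd_prime_iff_eq hp hr).mp (hp.dvd_of_dvd_pow (hk ▸ h4))).symm
      · rcases Finset.mem_insert.mp ht with rfl | ht
        · exact le_sup_right
        · exact (h2 t ht).trans le_sup_left
  obtain ⟨L, hL, h1, h2, -⟩ := key ((Nat.card K).primeFactors.erase p) fun r hr =>
    ⟨Nat.prime_of_mem_primeFactors (Finset.mem_of_mem_erase hr), Finset.ne_of_mem_erase hr⟩
  refine ⟨L.subgroupOf K, by rwa [card_subgroupOf_of_le hL], ?_⟩
  refine (isPiNum_singleton_iff hp index_ne_zero_of_finite).mp fun s hs hd => ?_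
  by_contra hsp
  haveI := Fact.mk hs
  have hm : s ∈ (Nat.card K).primeFactors.erase p := Finset.mem_erase.mpr ⟨hsp,
    Nat.mem_primeFactors.mpr ⟨hs, hd.trans (index_dvd_card _), Nat.card_pos.ne'⟩⟩
  exact h.not_dvd_relIndex s h.top
    (hd.trans (relIndex_dvd_of_le_left K (inf_le_left.trans (h2 s hm))))

end Min

omit hp hr in
theorem Hyp.subgroupOf (h : Hyp q A K) {Y : Subgroup G} (hA : A ≤ Y) (hK : K ≤ Y) :
    Hyp q (A.subgroupOf Y) (K.subgroupOf Y) := by
  refine ⟨h.prime, by rw [card_subgroupOf_of_le hA, h.card], fun hc => h.ncyc ?_, ?_,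
    by rw [card_subgroupOf_of_le hK]; exact h.cop, ?_⟩
  · exact isCyclic_of_surjective _ (subgroupOfEquivOfLe hA).surjective
  · intro a ha
    rw [mem_normalizer_iff]
    exact fun k => mem_normalizer_iff.1 (h.norm ha) k
  · rintro a ha h1 x ⟨hx, hxa⟩ y ⟨hy, hya⟩
    exact Subtype.ext (h.ab a ha (fun he => h1 (Subtype.ext he))
      ⟨hx, mem_centralizer_singleton_iff.2
        (congrArg Subtype.val (mem_centralizer_singleton_iff.1 hxa))⟩ y
      ⟨hy, mem_centralizer_singleton_iff.2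
        (congrArg Subtype.val (mem_centralizer_singleton_iff.1 hya))⟩)

omit hp hr in
theorem Hyp.map (h : Hyp q A K) {G' : Type u} [Group G'] (f : G →* G') (hk : f.ker ≤ K) :
    Hyp q (A.map f) (K.map f) := by
  have hdis : A ⊓ f.ker = ⊥ := (disjoint_of_coprime_natCard (h.coprime hk)).eq_bot
  have hinj : Function.Injective (f.subgroupMap A) := by
    rw [injective_iff_map_eq_one]
    intro x hx
    have : (x : G) ∈ A ⊓ f.ker := ⟨x.2, congrArg Subtype.val hx⟩
    rw [hdis, mem_bot] at this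
    exact Subtype.ext this
  refine ⟨h.prime, ?_, fun hc => h.ncyc (isCyclic_of_injective _ hinj),
    map_le_normalizer_map f h.norm, fun hd => h.cop (hd.trans (card_map_dvd _ _)), ?_⟩
  · rw [← h.card]
    exact (Nat.card_congr (Equiv.ofBijective _ ⟨hinj, f.subgroupMap_surjective A⟩)).symm
  · rintro _ ⟨a, ha, rfl⟩ h1
    have ha1 : a ≠ 1 := by
      rintro rfl
      exact h1 (map_one f)
    have := inf_centralizer_map_of_coprime f (zpowers a) K hk
      ((h.coprime hk).coprime_dvd_left (card_dvd_of_le (zpowers_le.mpr ha))) (Or.inl inferInstance)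
    rw [MonoidHom.map_zpowers, CS.cen_zpowers, CS.cen_zpowers] at this
    rw [this]
    exact map_le_centralizer_map f (h.ab a ha ha1)

theorem isSolvable_aux (n : ℕ) : ∀ (X : Type u) [Group X] [Finite X] (q : ℕ) (A K : Subgroup X),
    Nat.card K = n → Hyp q A K → Group.IsSolvable K := by
  induction n using Nat.strong_induction_on with
  | _ n ih =>
  intro X _ _ q A K hn h
  by_contra hns
  refine Min.false (q := q) (A := A) (K := K) ⟨h, hns, fun H hH hAH hne => ?_, ?_⟩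
  · refine ih _ (hn ▸ CL.card_lt_of_lt (lt_of_le_of_ne hH hne)) X q A H rfl
      ⟨h.prime, h.card, h.ncyc, hAH, fun hd => h.cop (hd.trans (card_dvd_of_le hH)),
        fun a ha h1 => h.cen_le_cent hH hH ha h1⟩
  · intro W hWK hAW hKW hWs
    by_contra hW
    apply hns
    set Y := normalizer (W : Set X) with hY
    set W' := W.subgroupOf Y
    have hW'n : W'.Normal := normal_in_normalizer
    let f := QuotientGroup.mk' W'
    have hk : f.ker ≤ K.subgroupOf Y := by
      rw [QuotientGroup.ker_mk']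
      exact comap_mono hWK
    have hs : Group.IsSolvable ((K.subgroupOf Y).map f) := by
      refine ih _ ?_ _ q _ _ rfl ((h.subgroupOf hAW hKW).map f hk)
      have h1 := card_map_mk'_mul (K.subgroupOf Y) W'
      rw [inf_eq_right.2 (show W' ≤ K.subgroupOf Y from comap_mono hWK), card_subgroupOf_of_le hKW,
        card_subgroupOf_of_le le_normalizer] at h1
      have h2 : 1 < Nat.card W := (one_lt_card_iff_ne_bot W).2 hW
      have h3 : 0 < Nat.card ((K.subgroupOf Y).map f) := Nat.card_pos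
      rw [← hn, ← h1]
      exact lt_mul_of_one_lt_right h3 h2
    have hs' : Group.IsSolvable (K.subgroupOf Y) := by
      refine isSolvable_of_map_of_inf_ker _ f hs ?_
      rw [QuotientGroup.ker_mk']
      refine isSolvable_of_le inf_le_right ?_
      exact isSolvable_of_mulEquiv (subgroupOfEquivOfLe (le_normalizer (H := W))).symm
    exact isSolvable_of_mulEquiv (subgroupOfEquivOfLe hKW)

omit hp hr in
/-- A non-cyclic group of order `q ^ 2` acting coprimely with abelian centralizers forces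
solvability. -/
theorem Hyp.isSolvable (h : Hyp q A K) : Group.IsSolvable K := isSolvable_aux _ G q A K rfl h

end CL.AbCent
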