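import Mathlib
import Cfsg.Agent.FGS.HKK
import Cfsg.Agent.S3781
import Cfsg.Agent.SOLV.Basic
import Cfsg.Agent.Eqns.CL_Krek_glcs

/-! Alperin's bound for `p`-groups with an automorphism of order `p` having few fixed points. -/

set_option autoImplicit false

open scoped TensorProduct

namespace CL.Krek

open CL.GrLie

theorem exists_eigen_family {A L : Type*} [CommRing A] [LieRing L] [LieAlgebra A L] {p : ℕ}
    (hp : p.Prime) (w : A) (hw : ∑ i ∈ Finset.range p, w ^ i = 0) (F : Module.End A L)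
    (hF : ∀ x y, F ⁅x, y⁆ = ⁅F x, F y⁆) (hFp : F ^ p = 1) :
    ∃ M : ZMod p → AddSubgroup L, br M M ≤ M ∧ (∀ x ∈ M 0, F x = x) ∧ ∀ x, p • x ∈ ⨆ a, M a := by
  haveI : Fact p.Prime := ⟨hp⟩
  have hwp : w ^ p = 1 := by
    have := mul_geom_sum w p
    rw [hw, mul_zero] at this
    exact (sub_eq_zero.1 this.symm)
  let M : ZMod p → AddSubgroup L := fun a =>
    { carrier := {x | F x = w ^ a.val • x}
      zero_mem' := by simp
      add_mem' := by
        intro x y hx hy
        change F (x + y) = _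
        rw [map_add, hx, hy, smul_add]
      neg_mem' := by
        intro x hx
        change F (-x) = _
        rw [map_neg, hx, smul_neg] }
  refine ⟨M, fun k => br_le fun a b x y hab hx hy => ?_, fun x hx => ?_, fun x => ?_⟩
  · change F _ = _
    rw [hF, hx, hy, smul_lie, lie_smul, smul_smul, ← hab, pow_val_add hwp]
  · simpa using (show F x = w ^ (0 : ZMod p).val • x from hx)
  · have h1 : ∀ i : ZMod p, ∑ j : ZMod p, w ^ (-(i * j)).val • (F ^ j.val) x ∈ M i := by
      intro i
      change F _ = _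
      rw [map_sum, Finset.smul_sum, ← Equiv.sum_comp (Equiv.addRight (1 : ZMod p))
        (fun j : ZMod p => w ^ i.val • w ^ (-(i * j)).val • (F ^ j.val) x)]
      refine Finset.sum_congr rfl fun j _ => ?_
      simp only [Equiv.coe_addRight]
      rw [smul_smul, ← pow_val_add hwp, map_smul, add_comm j 1,
        pow_val_add hFp, ZMod.val_one, pow_one, Module.End.mul_apply]
      congr 3
      ring
    have h2 : ∑ i : ZMod p, ∑ j : ZMod p, w ^ (-(i * j)).val • (F ^ j.val) x = p • x := by
      rw [Finset.sum_comm, Finset.sum_eq_single (0 : ZMod p)]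
      · simp
      · intro j _ hj
        rw [← Finset.sum_smul]
        have : ∑ i : ZMod p, w ^ (-(i * j)).val = ∑ i : ZMod p, w ^ i.val := by
          rw [← Equiv.sum_comp (Equiv.mulRight₀ (-j) (neg_ne_zero.2 hj))
            (fun i : ZMod p => w ^ i.val)]
          simp
        rw [this, sum_zmod (fun i => w ^ i), hw, zero_smul]
      · simp
    rw [← h2]
    exact sum_mem fun i _ => le_iSup M i (h1 i)

/-- The Higman–Kreknin–Kostrikin number. -/
def hkk (p : ℕ) : ℕ := ∑ i ∈ Finset.range (2 ^ (p - 1) - 1), (p - 1) ^ i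

theorem nsmul_eq_zero_of_family {L : Type*} [LieRing L] {p : ℕ} (hp : p.Prime)
    (M : ZMod p → AddSubgroup L) (hM : br M M ≤ M) {N : ℕ} (h0 : ∀ x ∈ M 0, N • x = 0)
    (htop : ∀ x, p • x ∈ ⨆ a, M a) : ∀ x ∈ lcs L (hkk p), (N * p ^ (hkk p + 1)) • x = 0 := by
  haveI : Fact p.Prime := ⟨hp⟩
  let I : LieIdeal ℤ L :=
    { carrier := {x | N • x = 0}
      zero_mem' := by simp
      add_mem' := fun {x y} hx hy => by
        change N • (x + y) = 0
        rw [nsmul_add, hx, hy, add_zero]
      smul_mem' := fun c x hx => by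
        change N • (c • x) = 0
        rw [smul_comm, hx, smul_zero]
      lie_mem := fun {x y} hy => by
        change N • ⁅x, y⁆ = 0
        rw [← lie_nsmul, hy, lie_zero] }
  let π : L →+ L ⧸ I := (LieSubmodule.Quotient.mk' I).toLinearMap.toAddMonoidHom
  have hπ : ∀ x y, π ⁅x, y⁆ = ⁅π x, π y⁆ := fun x y => rfl
  have hπ0 : ∀ x, π x = 0 ↔ N • x = 0 := fun x => LieSubmodule.Quotient.mk_eq_zero'
  let M' : ZMod p → AddSubgroup (L ⧸ I) := fun a => (M a).map π
  have hM' : br M' M' ≤ M' := fun k => br_le fun u v x y huv hx hy => by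
    obtain ⟨x, hx, rfl⟩ := hx
    obtain ⟨y, hy, rfl⟩ := hy
    exact ⟨_, hM k (mem_br hx hy huv), hπ x y⟩
  have h0' : M' 0 = ⊥ := eq_bot_iff.2 (by
    rintro _ ⟨x, hx, rfl⟩
    exact (hπ0 x).2 (h0 x hx))
  have htop' : ∀ x, π (p • x) ∈ ⨆ a, M' a := fun x => by
    rw [← AddSubgroup.map_iSup]
    exact ⟨_, htop x, rfl⟩
  have key : ∀ k, lcs L k ≤ (⨆ a, glcs M' k a).comap (π.comp (nsmulAddMonoidHom (p ^ (k + 1)))) := by
    intro k
    induction k with
    | zero => intro x _; simpa [glcs] using htop' x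
    | succ k ih =>
      rw [lcs, AddSubgroup.closure_le]
      rintro _ ⟨x, hx, y, rfl⟩
      have := lie_mem_iSup (ih hx) (htop' y)
      rw [SetLike.mem_coe, AddSubgroup.mem_comap, AddMonoidHom.comp_apply, nsmulAddMonoidHom_apply]
      rw [pow_succ, mul_smul, ← lie_nsmul, ← nsmul_lie, hπ]
      exact this
  intro x hx
  have h2 := key _ hx
  rw [show glcs M' (hkk p) = ⊥ from glcs_eq_bot_of_der hp _ M' hM' h0' (kreknin hM' h0')] at h2
  rw [mul_smul, ← hπ0]
  simpa using h2

theorem nsmul_lcs_eq_zero {L : Type*} [LieRing L] {p : ℕ} (hp : p.Prime) (F : L →+ L)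
    (hF : ∀ x y, F ⁅x, y⁆ = ⁅F x, F y⁆) (hFp : F^[p] = id) {N : ℕ}
    (hN : ∀ x, F x = x → N • x = 0) : ∀ x ∈ lcs L (hkk p), (N * p ^ (hkk p + 1)) • x = 0 := by
  haveI : Fact p.Prime := ⟨hp⟩
  let f : Polynomial ℤ := Polynomial.cyclotomic p ℤ
  let A := AdjoinRoot f
  haveI : Module.Free ℤ A := (Polynomial.cyclotomic.monic p ℤ).free_adjoinRoot
  haveI : Nontrivial A := AdjoinRoot.nontrivial f (Polynomial.degree_cyclotomic_pos p ℤ hp.pos).ne'
  have hw : ∑ i ∈ Finset.range p, (AdjoinRoot.root f : A) ^ i = 0 := by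
    have := AdjoinRoot.eval₂_root f
    simpa [f, Polynomial.cyclotomic_prime, Polynomial.eval₂_finsetSum] using this
  let F' : Module.End A (A ⊗[ℤ] L) := LinearMap.baseChange A F.toIntLinearMap
  have hF' : ∀ (a : A) (x : L), F' (a ⊗ₜ x) = a ⊗ₜ F x := fun a x => rfl
  have hpow : ∀ (k : ℕ) (a : A) (x : L), (F' ^ k) (a ⊗ₜ x) = a ⊗ₜ F^[k] x := by
    intro k
    induction k with
    | zero => intro a x; rfl
    | succ k ih => intro a x; rw [pow_succ, Module.End.mul_apply, hF', ih]; rfl
  obtain ⟨M, hM, h0, htop⟩ := exists_eigen_family hp _ hw F' (by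
      intro x y
      induction x with
      | zero => simp
      | add x x' hx hx' => simp [hx, hx']
      | tmul a x =>
        induction y with
        | zero => simp
        | add y y' hy hy' => simp [hy, hy']
        | tmul b y => simp [hF', hF]) (by
      refine LinearMap.ext fun x => ?_
      induction x with
      | zero => simp
      | add x x' hx hx' => rw [map_add, map_add, hx, hx']
      | tmul a x => rw [hpow, hFp]; rfl)
  have h := nsmul_eq_zero_of_family hp M hM (N := N) (fun x hx => by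
    have he := Module.Flat.lTensor_exact A
      (LinearMap.exact_subtype_ker_map (F.toIntLinearMap - LinearMap.id))
    obtain ⟨y, rfl⟩ := (he x).1 (by
      rw [LinearMap.lTensor_sub, LinearMap.lTensor_id, LinearMap.sub_apply, sub_eq_zero]
      exact h0 x hx)
    clear hx
    induction y with
    | zero => simp
    | add y y' hy hy' => rw [map_add, nsmul_add, hy, hy', add_zero]
    | tmul a y =>
      rw [LinearMap.lTensor_tmul, ← natCast_zsmul, ← TensorProduct.tmul_smul, natCast_zsmul,
        Submodule.subtype_apply, hN _ (sub_eq_zero.1 y.2), TensorProduct.tmul_zero]) htop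
  have h1 : ∀ k, lcs L k ≤ (lcs (A ⊗[ℤ] L) k).comap
      ((TensorProduct.mk ℤ A L 1).toAddMonoidHom) := by
    intro k
    induction k with
    | zero => exact fun _ _ => trivial
    | succ k ih =>
      rw [lcs, AddSubgroup.closure_le]
      rintro _ ⟨x, hx, y, rfl⟩
      have := lie_mem_lcs (ih hx) ((1 : A) ⊗ₜ[ℤ] y)
      simpa using this
  intro x hx
  have h2 := h _ (h1 _ hx)
  rw [← map_nsmul] at h2
  generalize (N * p ^ (hkk p + 1)) • x = y at h2
  simpa using h2

section fix
variable {G : Type*} [Group G] [Finite G]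

/-- A quotient has at most as many fixed points as the group. -/
theorem card_fix_quotient_le (φ : G →* G) (N : Subgroup G) [N.Normal] (ψ : G ⧸ N →* G ⧸ N)
    (h : ∀ g : G, ψ g = φ g) : Nat.card {q // ψ q = q} ≤ Nat.card {g // φ g = g} := by
  classical
  let D := (ψ.eqLocus (MonoidHom.id _)).comap (QuotientGroup.mk' N)
  have hD : ∀ d : D, (d : G)⁻¹ * φ d ∈ N := fun d =>
    QuotientGroup.eq.1 ((show ψ d = d from d.2).symm.trans (h d))
  let v : D → N := fun d => ⟨_, hD d⟩
  let s : N → D := Function.invFun v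
  have hs : ∀ d, ((s (v d) : D) : G)⁻¹ * φ (s (v d)) = (d : G)⁻¹ * φ d := fun d =>
    congrArg Subtype.val (Function.invFun_eq (f := v) ⟨d, rfl⟩)
  have h1 := Nat.card_le_card_of_injective
    (fun d : D => ((⟨d * (s (v d) : G)⁻¹, by
      rw [map_mul, map_inv,
        (show φ d = d * ((s (v d) : G)⁻¹ * φ (s (v d))) by rw [hs]; group)]
      group⟩, v d) : {g // φ g = g} × N)) (by
      intro d e hde
      simp only [Prod.mk.injEq, Subtype.mk.injEq] at hde
      rw [hde.2] at hde
      exact Subtype.ext (mul_right_cancel hde.1))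
  rw [Nat.card_prod, CL.card_comap_mk'] at h1
  exact Nat.le_of_mul_le_mul_right h1 Nat.card_pos

theorem card_fix_le_of_injective {H : Type*} [Group H] (φ : G →* G) (ψ : H →* H) (f : H →* G)
    (hf : Function.Injective f) (h : ∀ x, f (ψ x) = φ (f x)) :
    Nat.card {x // ψ x = x} ≤ Nat.card {g // φ g = g} :=
  Nat.card_le_card_of_injective (fun x => ⟨f x, by rw [← h, x.2]⟩) fun _ _ hxy =>
    Subtype.ext (hf (congrArg Subtype.val hxy))

end fix

theorem card_le_pow_of_nilpotent {L : Type*} [AddCommGroup L] [Finite L] (T : Module.End ℤ L)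
    {B : ℕ} (hB : Nat.card {x // T x = 0} ≤ B) (k : ℕ) :
    ∀ W : Submodule ℤ L, (∀ x ∈ W, T x ∈ W) → (∀ x ∈ W, (T ^ k) x = 0) → Nat.card W ≤ B ^ k := by
  induction k with
  | zero =>
    intro W _ h
    rw [(Submodule.eq_bot_iff W).2 h]
    simp
  | succ k ih =>
    intro W hW h
    have h1 := ih (LinearMap.range (T.domRestrict W)) (by
      rintro _ ⟨x, rfl⟩
      exact ⟨⟨_, hW _ x.2⟩, rfl⟩) (by
      rintro _ ⟨x, rfl⟩
      exact h x x.2)
    rw [Submodule.card_eq_card_quotient_mul_card (LinearMap.ker (T.domRestrict W)),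
      Nat.card_congr (LinearMap.quotKerEquivRange _).toEquiv, pow_succ']
    refine Nat.mul_le_mul (le_trans ?_ hB) h1
    exact Nat.card_le_card_of_injective (fun x => ⟨x.1.1, x.2⟩) fun _ _ hxy =>
      Subtype.ext (Subtype.ext (Subtype.mk.inj hxy))

theorem card_le_pow_of_comm {V : Type*} [Group V] [Finite V] [IsMulCommutative V] {p : ℕ}
    (hp : p.Prime) (φ : V →* V) (hφ : φ^[p] = id) {c : ℕ} (hc : ∀ x : V, x ^ p ^ c = 1) :
    Nat.card V ≤ Nat.card {x // φ x = x} ^ (p * c) := by
  letI : CommGroup V := { (inferInstance : Group V) with mul_comm := mul_comm' }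
  let F : Module.End ℤ (Additive V) := (MonoidHom.toAdditive φ).toIntLinearMap
  have hF : F ^ p = 1 := by
    refine LinearMap.ext fun x => ?_
    rw [Module.End.pow_apply]
    exact congrFun hφ x
  obtain ⟨r, hr⟩ := Commute.exists_add_pow_prime_eq hp (Commute.one_right (F - 1))
  rw [sub_add_cancel, hF, one_pow, mul_one] at hr
  have h1 : (F - 1) ^ p = (p : Module.End ℤ (Additive V)) * (-((F - 1) * r)) := by
    rw [mul_neg, eq_neg_iff_add_eq_zero, ← mul_assoc]
    exact add_right_cancel (b := 1) (by rw [zero_add]; rw [add_right_comm]; exact hr.symm)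
  have h2 : (F - 1) ^ (p * c) = 0 := by
    rw [pow_mul, h1, (Nat.cast_commute p _).mul_pow, ← Nat.cast_pow]
    refine LinearMap.ext fun x => ?_
    rw [Module.End.mul_apply, Module.End.natCast_apply]
    exact hc _
  have h3 := card_le_pow_of_nilpotent (F - 1) (B := Nat.card {x // φ x = x})
    (Nat.card_le_card_of_injective (fun x => ⟨x.1.toMul, (sub_eq_zero (a := F x.1)).1 x.2⟩)
      fun _ _ hxy => Subtype.ext (Additive.toMul.injective
        (congrArg (Subtype.val : {x // φ x = x} → V) hxy))) (p * c) ⊤ (fun _ _ => trivial) (fun x _ => by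
      rw [h2, LinearMap.zero_apply])
  rwa [Nat.card_congr (Submodule.topEquiv).toEquiv] at h3

/-- The order of an abelian invariant section of bounded exponent. -/
theorem relIndex_le_pow {G : Type*} [Group G] [Finite G] {p : ℕ} (hp : p.Prime) (φ : G →* G)
    (hφ : φ^[p] = id) (X Y : Subgroup G) [Y.Normal] (hX : ∀ x ∈ X, φ x ∈ X)
    (hY : ∀ x ∈ Y, φ x ∈ Y) (hXY : ⁅X, X⁆ ≤ Y) {c : ℕ} (hc : ∀ x ∈ X, x ^ p ^ c ∈ Y) :
    Y.relIndex X ≤ Nat.card {x // φ x = x} ^ (p * c) := by
  let ψ : G ⧸ Y →* G ⧸ Y := QuotientGroup.map Y Y φ hY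
  have hψ : ψ^[p] = id := by
    funext q
    obtain ⟨g, rfl⟩ := QuotientGroup.mk_surjective q
    rw [← Function.Semiconj.iterate_right (f := QuotientGroup.mk) (ga := φ) (gb := ψ)
      (fun _ => rfl) p g, hφ]
    rfl
  let V := X.map (QuotientGroup.mk' Y)
  let χ : V →* V := (ψ.comp V.subtype).codRestrict V (by
    rintro ⟨_, x, hx, rfl⟩
    exact ⟨_, hX x hx, rfl⟩)
  haveI : IsMulCommutative V := ⟨⟨by
    rintro ⟨_, x, hx, rfl⟩ ⟨_, y, hy, rfl⟩
    refine Subtype.ext ?_
    change ((x * y : G) : G ⧸ Y) = ((y * x : G) : G ⧸ Y)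
    rw [QuotientGroup.eq_iff_div_mem]
    have := hXY (Subgroup.commutator_mem_commutator hx hy)
    rwa [commutatorElement_def, mul_assoc, ← mul_inv_rev, ← div_eq_mul_inv] at this⟩⟩
  rw [← CL.card_map_mk'_eq_relIndex]
  refine (card_le_pow_of_comm hp χ (c := c) ?_ ?_).trans (Nat.pow_le_pow_left ?_ _)
  · funext x
    apply Subtype.ext
    rw [Function.Semiconj.iterate_right (f := Subtype.val) (ga := χ) (gb := ψ)
      (fun _ => rfl) p x, hψ]
    rfl
  · rintro ⟨_, x, hx, rfl⟩
    exact Subtype.ext ((QuotientGroup.eq_one_iff _).2 (hc x hx))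
  · exact (card_fix_le_of_injective ψ χ V.subtype V.subtype_injective fun _ => rfl).trans
      (card_fix_quotient_le φ Y ψ fun _ => rfl)

theorem pow_mem_gam_succ {G : Type*} [Group G] [Finite G] {p : ℕ} (hp : p.Prime)
    (hG : IsPGroup p G) (φ : G →* G) (hφ : φ^[p] = id) {B : ℕ}
    (hB : Nat.card {x // φ x = x} ≤ B) {g : G} (hg : g ∈ gam G (hkk p)) :
    g ^ p ^ (B + (hkk p + 1)) ∈ gam G (hkk p + 1) := by
  classical
  haveI : Fact p.Prime := ⟨hp⟩
  obtain ⟨F, hF1, hF2⟩ := exists_map φ
  have hit : ∀ k n g, g ∈ gam G n → φ^[k] g ∈ gam G n ∧ F^[k] (io n g) = io n (φ^[k] g) := by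
    intro k
    induction k with
    | zero => exact fun n g hg => ⟨hg, rfl⟩
    | succ k ih =>
      intro n g hg
      rw [Function.iterate_succ_apply, Function.iterate_succ_apply, hF1 n g hg]
      exact ih n _ (map_mem_gam φ hg)
  have hfix : ∀ n, ∀ g ∈ gam G n, F (io n g) = io n g → p ^ B • io n g = 0 := by
    intro n g hg h
    let ψ : G ⧸ gam G (n + 1) →* G ⧸ gam G (n + 1) :=
      QuotientGroup.map _ _ φ fun _ hx => map_mem_gam φ hx
    have h1 : (g : G ⧸ gam G (n + 1)) ∈ ψ.eqLocus (MonoidHom.id _) := by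
      refine (QuotientGroup.eq.2 ((io_eq_zero_iff (mul_mem (inv_mem hg) (map_mem_gam φ hg))).1 ?_)).symm
      rw [io_mul (inv_mem hg) (map_mem_gam φ hg), io_inv hg, ← hF1 n g hg, h, neg_add_cancel]
    obtain ⟨j, hj⟩ := IsPGroup.iff_card.1
      ((hG.to_quotient (gam G (n + 1))).to_subgroup (ψ.eqLocus (MonoidHom.id _)))
    have h2 : j ≤ B := by
      refine ((Nat.lt_pow_self hp.one_lt).le.trans ?_).trans
        ((card_fix_quotient_le φ _ ψ fun _ => rfl).trans hB)
      exact hj.ge
    rw [← io_pow hg, io_eq_zero_iff (pow_mem hg _), ← QuotientGroup.eq_one_iff,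
      QuotientGroup.mk_pow]
    exact orderOf_dvd_iff_pow_eq_one.1 ((Subgroup.orderOf_dvd_natCard _ h1).trans
      (hj ▸ pow_dvd_pow p h2))
  have h := nsmul_lcs_eq_zero hp F hF2 (N := p ^ B) (by
    funext x
    induction x using induction_on with
    | h0 => simp
    | hadd x y hx hy => rw [iterate_map_add, hx, hy]; rfl
    | hio n g hg => rw [(hit p n g hg).2, hφ]; rfl) (by
    intro x hx
    let π : ℕ → GrL G →+ GrL G := fun n =>
      (DirectSum.of (fun n => Additive (Fac G n)) n).comp (DFinsupp.evalAddMonoidHom n)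
    have hπ : ∀ n m g, g ∈ gam G m → π n (io m g) = if m = n then io m g else 0 := by
      intro n m g hg
      by_cases hmn : m = n
      · subst hmn
        rw [if_pos rfl, io_of_mem hg]
        exact congrArg (DirectSum.of (fun n => Additive (Fac G n)) m) (DirectSum.of_eq_same _ _)
      · rw [if_neg hmn, io_of_mem hg]
        exact (congrArg (DirectSum.of (fun n => Additive (Fac G n)) n)
          (DirectSum.of_eq_of_ne (β := fun n => Additive (Fac G n)) m n _ (Ne.symm hmn))).trans
          (map_zero (DirectSum.of (fun n => Additive (Fac G n)) n))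
    have hπF : ∀ n, (π n).comp F = F.comp (π n) := fun n => hom_ext fun m g hg => by
      rw [AddMonoidHom.comp_apply, AddMonoidHom.comp_apply, hF1 m g hg, hπ n m g hg,
        hπ n m _ (map_mem_gam φ hg)]
      split_ifs
      · exact (hF1 m g hg).symm
      · exact (map_zero _).symm
    have h1 : ∀ n, π n (p ^ B • x) = 0 := by
      intro n
      obtain ⟨g, hg, h2⟩ := cls_surj (Additive.toMul
        ((show DirectSum ℕ fun n => Additive (Fac G n) from x) n))
      have h3 : π n x = io n g := by rw [io_of_mem hg, h2]; rfl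
      rw [map_nsmul, h3]
      refine hfix n g hg ?_
      rw [← h3, ← AddMonoidHom.comp_apply, ← hπF, AddMonoidHom.comp_apply, hx]
    exact DFinsupp.ext fun n => DirectSum.of_injective (β := fun n => Additive (Fac G n)) n
      ((h1 n).trans (map_zero _).symm))
    _ (io_mem_lcs hg)
  rwa [← pow_add, ← io_pow hg, io_eq_zero_iff (pow_mem hg _)] at h

/-- Alperin's theorem for `p`-groups. -/
theorem exists_derived_bound_pgroup {p : ℕ} (hp : p.Prime) (B : ℕ) :
    ∃ l : ℕ, ∀ (G : Type*) [Group G] [Finite G], IsPGroup p G → ∀ φ : G →* G, φ^[p] = id →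
      Nat.card {x // φ x = x} ≤ B →
      ((⊤ : Subgroup G).lowerCentralSeries l).lowerCentralSeries (hkk p + 1) = ⊥ := by
  haveI : Fact p.Prime := ⟨hp⟩
  refine ⟨B ^ (p * (B + (hkk p + 1))), fun G _ _ hG φ hφ hB => ?_⟩
  set l := B ^ (p * (B + (hkk p + 1)))
  set N := (⊤ : Subgroup G).lowerCentralSeries l
  by_contra hne
  have hh : 1 ≤ hkk p := by
    have : 1 < 2 ^ (p - 1) := Nat.one_lt_two_pow (by have := hp.two_le; omega)
    exact le_trans (by simp) (Finset.single_le_sum (f := fun i => (p - 1) ^ i)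
      (fun _ _ => Nat.zero_le _) (Finset.mem_range.2 (show 0 < 2 ^ (p - 1) - 1 by omega)))
  have h1 := Cfsg.Agent.S3781.result hG (l + 1) (by omega) N le_rfl (hkk p + 1) (by omega) hne
  let χ : N →* N := (φ.comp N.subtype).codRestrict N fun x => map_mem_gam φ x.2
  have hχ : χ^[p] = id := by
    funext x
    apply Subtype.ext
    rw [Function.Semiconj.iterate_right (f := Subtype.val) (ga := χ) (gb := φ)
      (fun _ => rfl) p x, hφ]
    rfl
  have hB' := (card_fix_le_of_injective φ χ N.subtype N.subtype_injective fun _ => rfl).trans hB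
  have h2 := relIndex_le_pow hp χ hχ (gam N (hkk p)) (gam N (hkk p + 1))
    (fun _ hx => map_mem_gam χ hx) (fun _ hx => map_mem_gam χ hx)
    (Subgroup.commutator_mono le_rfl le_top)
    fun x hx => pow_mem_gam_succ hp (hG.to_subgroup N) χ hχ hB' hx
  rw [Nat.add_sub_cancel, ← Subgroup.top_subtype_lowerCentralSeries,
    ← Subgroup.top_subtype_lowerCentralSeries N (hkk p),
    Subgroup.relIndex_map_map_of_injective _ _ N.subtype_injective] at h1
  have h3 := (h1.trans h2).trans (Nat.pow_le_pow_left hB' _)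
  have h4 := Nat.lt_pow_self (n := l + 1) hp.one_lt
  omega

end CL.Krek
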