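import Mathlib
import Cfsg.Agent.CHAR.FTSylow
import Cfsg.Agent.CHAR.Faithful
import Cfsg.Agent.CHAR.Galois
import Cfsg.Agent.CHAR.Primitive
import Cfsg.Agent.SOLV.Hall
import Cfsg.Agent.SOLV.MinNormal
import Cfsg.Agent.PLOC.Fusion
import Cfsg.Agent.FGS.SylowIdx

/-! Blichfeldt's theorem: abelian Hall subgroup for the primes exceeding `n + 1` in a finite
linear group of degree `n`; abelian normal subgroups of index dividing `n!` in nilpotent
linear groups. -/

set_option autoImplicit false
open Cfsg CL.Char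
open scoped commutatorElement

namespace CL.FGS.Blich

universe u

variable {G : Type u} [Group G]

/-- An exponent `k ≡ k₀ (mod p)` that acts trivially on `p`-regular elements. -/
theorem exists_exp [Finite G] {p : ℕ} (hp : p.Prime) {k₀ : ℕ} (hk₀ : k₀.Coprime p) :
    ∃ k : ℕ, k.Coprime (Nat.card G) ∧ k ≡ k₀ [MOD p] ∧
      ∀ g : G, ¬ p ∣ orderOf g → g ^ k = g := by
  have hN : Nat.card G ≠ 0 := Nat.card_pos.ne'
  set m := ordCompl[p] (Nat.card G) with hm
  have hco : p.Coprime m := Nat.coprime_ordCompl hp hN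
  obtain ⟨k, hk1, hk2⟩ := Nat.chineseRemainder hco k₀ 1
  have hkp : k.Coprime p := by
    have := hk1.gcd_eq
    rw [Nat.Coprime, this]; exact hk₀
  have hkm : k.Coprime m := by
    have := hk2.gcd_eq
    rw [Nat.Coprime, this]; simp
  have hfac : ordProj[p] (Nat.card G) * m = Nat.card G := Nat.ordProj_mul_ordCompl_eq_self _ _
  refine ⟨k, ?_, hk1, fun g hg => ?_⟩
  · rw [← hfac]
    exact Nat.Coprime.mul_right (hkp.pow_right _) hkm
  · have h1 : orderOf g ∣ m := by
      have h2 : orderOf g ∣ ordProj[p] (Nat.card G) * m := by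
        rw [hfac]; exact orderOf_dvd_natCard g
      exact Nat.Coprime.dvd_of_dvd_mul_left
        (((Nat.Prime.coprime_iff_not_dvd hp).2 hg).symm.pow_right _) h2
    have h3 : k ≡ 1 [MOD orderOf g] := hk2.of_dvd h1
    simpa using (pow_eq_pow_iff_modEq (x := g)).2 h3

/-- Burnside–Brauer: if no element has order divisible by `p q`, an irreducible character of
small degree kills all elements of order `p` or all elements of order `q`. -/
theorem irr_kills [Finite G] {ψ : G → ℂ} (hψ : IsIrrCharacter G ψ) {p q : ℕ} (hp : p.Prime)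
    (hq : q.Prime) (hlp : charDegree ψ + 1 < p) (hlq : charDegree ψ + 1 < q)
    (hno : ∀ g : G, p ∣ orderOf g → ¬ q ∣ orderOf g) {x y : G} (hx : orderOf x = p)
    (hy : orderOf y = q) : x ∈ charKer ψ ∨ y ∈ charKer ψ := by
  classical
  let _ := Fintype.ofFinite G
  by_contra hcon
  rw [not_or, hψ.mem_charKer, hψ.mem_charKer] at hcon
  obtain ⟨hcx, hcy⟩ := hcon
  have h1 : ∃ k₀ : ℕ, k₀.Coprime p ∧ ψ (x ^ k₀) ≠ ψ x := by
    by_contra h
    push Not at h
    exact hcx (hψ.isCharacter.apply_eq_of_pow_invariant hp hx h hlp)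
  have h2 : ∃ l₀ : ℕ, l₀.Coprime q ∧ ψ (y ^ l₀) ≠ ψ y := by
    by_contra h
    push Not at h
    exact hcy (hψ.isCharacter.apply_eq_of_pow_invariant hq hy h hlq)
  obtain ⟨k₀, hk₀, hkx⟩ := h1
  obtain ⟨l₀, hl₀, hly⟩ := h2
  obtain ⟨k, hk, hkk, hkg⟩ := exists_exp (G := G) hp hk₀
  obtain ⟨l, hl, hll, hlg⟩ := exists_exp (G := G) hq hl₀
  have hxk : x ^ k = x ^ k₀ := (pow_eq_pow_iff_modEq (x := x)).2 (hx ▸ hkk)
  have hyl : y ^ l = y ^ l₀ := (pow_eq_pow_iff_modEq (x := y)).2 (hy ▸ hll)
  set a : G → ℂ := fun g => ψ (g ^ k) with ha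
  set b : G → ℂ := fun g => ψ (g ^ l) with hb
  have hai : IsIrrCharacter G a := hψ.pow_coprime hk
  have hbi : IsIrrCharacter G b := hψ.pow_coprime hl
  have hane : a ≠ ψ := fun h => hkx (by rw [← hxk]; exact congrFun h x)
  have hbne : b ≠ ψ := fun h => hly (by rw [← hyl]; exact congrFun h y)
  have hzero : classInner (a - ψ) (b - ψ) = 0 := by
    rw [classInner_def, Finset.sum_eq_zero, mul_zero]
    intro g _
    by_cases hg : p ∣ orderOf g
    · have : (b - ψ) g = 0 := by
        simp only [Pi.sub_apply, hb, hlg g (hno g hg), sub_self]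
      rw [this]; simp
    · have : (a - ψ) g = 0 := by
        simp only [Pi.sub_apply, ha, hkg g hg, sub_self]
      rw [this]; simp
  rw [classInner_sub_left, classInner_sub_right, classInner_sub_right, hai.inner_of_ne hψ hane,
    hψ.inner_of_ne hbi hbne.symm, hψ.inner_self, hai.inner hbi] at hzero
  split_ifs at hzero <;> norm_num at hzero

/-- In a linear group of degree `n`, primes `p`, `q` above `n + 1` dividing the order come with
commuting elements of these orders. -/
theorem exists_commute [Finite G] {χ : G → ℂ} (hχ : IsCharacter G χ) (hker : charKer χ = ⊥)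
    {p q : ℕ} (hp : p.Prime) (hq : q.Prime) (hlp : charDegree χ + 1 < p)
    (hlq : charDegree χ + 1 < q) (hpG : p ∣ Nat.card G) (hqG : q ∣ Nat.card G) :
    ∃ x y : G, orderOf x = p ∧ orderOf y = q ∧ Commute x y := by
  classical
  let _ := Fintype.ofFinite G
  have := Fact.mk hp
  have := Fact.mk hq
  by_cases hno : ∀ g : G, p ∣ orderOf g → ¬ q ∣ orderOf g
  · obtain ⟨x, hx⟩ := exists_prime_orderOf_dvd_card' p hpG
    obtain ⟨y, hy⟩ := exists_prime_orderOf_dvd_card' q hqG
    refine ⟨x, y, hx, hy, ?_⟩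
    rw [← commutatorElement_eq_one_iff_commute, ← Subgroup.mem_bot, ← hker,
      hχ.mem_charKer_iff_constituents]
    intro ψ hψ hin
    have hd := hχ.charDegree_le_of_inner_ne_zero hψ hin
    have := hψ.charKer_normal
    rcases irr_kills hψ hp hq (by omega) (by omega) hno hx hy with h | h
    · have h2 : y * x⁻¹ * y⁻¹ ∈ charKer ψ := Subgroup.Normal.conj_mem inferInstance _ (inv_mem h) y
      have := mul_mem h h2
      simpa [commutatorElement_def, mul_assoc] using this
    · have h2 : x * y * x⁻¹ ∈ charKer ψ := Subgroup.Normal.conj_mem inferInstance _ h x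
      have := mul_mem h2 (inv_mem h)
      simpa [commutatorElement_def, mul_assoc] using this
  · push Not at hno
    obtain ⟨g, hgp, hgq⟩ := hno
    have h0 : orderOf g ≠ 0 := (orderOf_pos g).ne'
    exact ⟨g ^ (orderOf g / p), g ^ (orderOf g / q), orderOf_pow_orderOf_div h0 hgp,
      orderOf_pow_orderOf_div h0 hgq, (Commute.refl g).pow_pow _ _⟩

theorem comm_of_isPiNum [Finite G] {χ : G → ℂ} (hχ : IsCharacter G χ) (hker : charKer χ = ⊥)
    {S : Subgroup G} (hS : IsPiNum {q | charDegree χ + 1 < q} (Nat.card S)) :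
    ∀ a ∈ S, ∀ b ∈ S, a * b = b * a := by
  intro a ha b hb
  have h := (hχ.res S).mul_comm_of_faithful_of_lt
    (by rw [hχ.charKer_res, hker, Subgroup.bot_subgroupOf])
    (fun p hp hpS => by
      rw [charDegree_res]
      have : charDegree χ + 1 < p := hS p hp hpS
      omega) ⟨a, ha⟩ ⟨b, hb⟩
  exact congrArg Subtype.val h

/-- A commutative Hall subgroup of a normal subgroup is normal when no proper subgroup has
`π'`-index. -/
theorem normal_of_hall [Finite G] {π : Set ℕ} {H M : Subgroup G} [M.Normal]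
    (hH : IsPiHallOf π H M) (hc : ∀ a ∈ H, ∀ b ∈ H, a * b = b * a)
    (hno : ∀ K : Subgroup G, IsPiNum πᶜ K.index → K = ⊤) : H.Normal := by
  have hHM : H ≤ M := (isPiHallOf_iff.1 hH).1
  suffices h : H ≤ H.normalCore by
    rw [le_antisymm h H.normalCore_le]; infer_instance
  rw [← Subgroup.relIndex_eq_one]
  by_contra hne
  obtain ⟨s, hs, hsd⟩ := Nat.exists_prime_and_dvd hne
  have := Fact.mk hs
  have hsπ : s ∈ π := (CL.IsPiHallOf.isPiNum hH) s hs (hsd.trans (Subgroup.index_dvd_card _))
  obtain ⟨Q, -, hQH, hQp, hQi⟩ := CL.Tr.exists_sylowIn_ge (p := s) (Q := ⊥) (H := H)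
    IsPGroup.of_bot bot_le
  have hQM : ¬ s ∣ Q.relIndex M := by
    rw [← Subgroup.relIndex_mul_relIndex Q H M hQH hHM]
    intro h
    rcases (Nat.Prime.dvd_mul hs).1 h with h | h
    · exact hQi h
    · exact (CL.IsPiHallOf.relIndex hH) s hs h hsπ
  have hHN : H ≤ Subgroup.normalizer (Q : Set G) := fun h hh =>
    CL.Tr.mem_normalizer_of_conj_mem fun x hx => by
      rw [hc h hh x (hQH hx), mul_inv_cancel_right]; exact hx
  have hsup : Subgroup.normalizer (Q : Set G) ⊔ M = ⊤ := by
    rw [eq_top_iff]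
    intro g _
    obtain ⟨m, hm, hmg⟩ := CL.Tr.frattini_argument hQp (hQH.trans hHM) hQM (g := g)
      (by rw [Subgroup.normalizer_eq_top]; trivial)
    have : g = m⁻¹ * (m * g) := by group
    rw [this]
    exact mul_mem (Subgroup.mem_sup_right (inv_mem hm)) (Subgroup.mem_sup_left hmg)
  have hN : Subgroup.normalizer (Q : Set G) = ⊤ := by
    apply hno
    rw [← relIndex_eq_index_of_sup_normal_eq_top hsup]
    exact (CL.IsPiHallOf.relIndex hH).of_dvd (Subgroup.relIndex_dvd_of_le_left M hHN)
  have hQn : Q.Normal := Subgroup.normalizer_eq_top_iff.1 hN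
  have hQc : Q ≤ H.normalCore := Subgroup.normal_le_normalCore.2 hQH
  exact hQi (hsd.trans (Subgroup.relIndex_dvd_of_le_left H hQc))

/-- Blichfeldt's theorem. -/
theorem exists_abelian_hall [Finite G] {χ : G → ℂ} (hχ : IsCharacter G χ) (hker : charKer χ = ⊥) :
    ∃ H : Subgroup G, IsPiHall {q | charDegree χ + 1 < q} H ∧
      ∀ a ∈ H, ∀ b ∈ H, a * b = b * a := by
  generalize hn : charDegree χ = n
  revert χ
  refine CL.card_induction (P := fun G _ _ => ∀ {χ : G → ℂ}, IsCharacter G χ → charKer χ = ⊥ →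
    charDegree χ = n → ∃ H : Subgroup G, IsPiHall {q | n + 1 < q} H ∧
      ∀ a ∈ H, ∀ b ∈ H, a * b = b * a) ?_ G
  intro G _ _ ih χ hχ hker hn
  classical
  set π : Set ℕ := {q | n + 1 < q} with hπ
  have hcomm : ∀ S : Subgroup G, IsPiNum π (Nat.card S) → ∀ a ∈ S, ∀ b ∈ S, a * b = b * a :=
    fun S hS => comm_of_isPiNum hχ hker (hn ▸ hS)
  suffices h : ∃ H : Subgroup G, IsPiHall π H by
    obtain ⟨H, hH⟩ := h
    exact ⟨H, hH, hcomm H (isPiHall_iff.1 hH).1⟩
  have ih' : ∀ K : Subgroup G, K ≠ ⊤ → ∃ H : Subgroup G, IsPiHallOf π H K := by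
    intro K hK
    obtain ⟨H, hH, -⟩ := ih K (by
      rw [← Subgroup.card_top (G := G)]; exact CL.Tr.card_lt_of_lt hK.lt_top) (hχ.res K)
      (by rw [hχ.charKer_res, hker, Subgroup.bot_subgroupOf]) (by rw [charDegree_res, hn])
    rw [isPiHall_iff] at hH
    refine ⟨H.map K.subtype, isPiHallOf_iff.2 ⟨Subgroup.map_subtype_le H, ?_, ?_⟩⟩
    · rw [Subgroup.card_map_of_injective K.subtype_injective]; exact hH.1
    · rw [Subgroup.relIndex, Subgroup.subgroupOf, Subgroup.comap_map_eq_self_of_injective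
        K.subtype_injective]
      exact hH.2
  by_cases hno : ∃ K : Subgroup G, K ≠ ⊤ ∧ IsPiNum πᶜ K.index
  · obtain ⟨K, hK, hKi⟩ := hno
    obtain ⟨H, hH⟩ := ih' K hK
    exact ⟨H, (CL.IsPiHallOf.isPiHall hH) hKi⟩
  have hno' : ∀ K : Subgroup G, IsPiNum πᶜ K.index → K = ⊤ := fun K hK => by
    by_contra h; exact hno ⟨K, h, hK⟩
  by_cases hperf : commutator G = ⊤
  · -- perfect case
    have hcent : ∀ {p : ℕ} {x : G}, p.Prime → p ∈ π → orderOf x = p →
        Subgroup.centralizer {x} ≠ ⊤ := by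
      intro p x hp hpπ hx hC
      have := Fact.mk hp
      obtain ⟨P⟩ : Nonempty (Sylow p G) := inferInstance
      have hPc : IsMulCommutative (P : Subgroup G) :=
        ⟨⟨fun a b => Subtype.ext
          (hcomm P (IsPiNum.of_isPGroup P.isPGroup' hpπ) a a.2 b b.2)⟩⟩
      have hz : x ∈ Subgroup.center G := by
        rw [Subgroup.mem_center_iff]
        intro g
        have : g ∈ Subgroup.centralizer {x} := hC ▸ Subgroup.mem_top g
        exact (Subgroup.mem_centralizer_singleton_iff.1 this)
      have h1 := CL.Tr.pow_index_eq_one_of_mem_center_commutator hPc hz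
        (hperf ▸ Subgroup.mem_top x)
      have h2 := orderOf_dvd_of_pow_eq_one h1
      rw [hx] at h2
      exact P.not_dvd_index h2
    obtain ⟨H, hH, hmax⟩ := Set.exists_max_image {H : Subgroup G | IsPiNum π (Nat.card H)}
      (fun H => Nat.card H) (Set.toFinite _) ⟨⊥, by simpa using IsPiNum.one π⟩
    have hHc := hcomm H hH
    have key : ∀ {p : ℕ} {x : G}, p.Prime → p ∈ π → orderOf x = p → x ∈ H →
        IsPiHallOf π H (Subgroup.centralizer {x}) := by
      intro p x hp hpπ hx hxH
      obtain ⟨H₁, hH₁⟩ := ih' _ (hcent hp hpπ hx)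
      have hle : H ≤ Subgroup.centralizer {x} := fun h hh =>
        Subgroup.mem_centralizer_singleton_iff.2 (hHc h hh x hxH)
      have hdvd := (CL.IsPiHallOf.card_dvd hH₁) hle hH
      have hcard : Nat.card H = Nat.card H₁ :=
        le_antisymm (Nat.le_of_dvd Nat.card_pos hdvd) (hmax H₁ (CL.IsPiHallOf.isPiNum hH₁))
      refine isPiHallOf_iff.2 ⟨hle, hH, ?_⟩
      have e1 := Subgroup.card_mul_index (H.subgroupOf (Subgroup.centralizer {x}))
      have e2 := Subgroup.card_mul_index (H₁.subgroupOf (Subgroup.centralizer {x}))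
      rw [Nat.card_congr (Subgroup.subgroupOfEquivOfLe hle).toEquiv] at e1
      rw [Nat.card_congr (Subgroup.subgroupOfEquivOfLe (isPiHallOf_iff.1 hH₁).1).toEquiv,
        ← hcard, ← e1] at e2
      have e3 := Nat.eq_of_mul_eq_mul_left Nat.card_pos e2
      have := (CL.IsPiHallOf.relIndex hH₁)
      rw [Subgroup.relIndex, e3] at this
      exact this
    have claim : ∀ {p : ℕ}, p.Prime → p ∣ Nat.card H → ¬ p ∣ H.index := by
      intro p hp hpH hpi
      have := Fact.mk hp
      have hpπ : p ∈ π := hH p hp hpH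
      obtain ⟨x', hx'⟩ := exists_prime_orderOf_dvd_card' p hpH
      have hx : orderOf (x' : G) = p := by rw [Subgroup.orderOf_coe, hx']
      have hK := key hp hpπ hx x'.2
      have hxp : IsPGroup p (Subgroup.zpowers (x' : G)) :=
        IsPGroup.of_card (n := 1) (by rw [Nat.card_zpowers, hx, pow_one])
      obtain ⟨P, hP⟩ := hxp.exists_le_sylow
      have hPC : (P : Subgroup G) ≤ Subgroup.centralizer {(x' : G)} := fun a ha =>
        Subgroup.mem_centralizer_singleton_iff.2
          (hcomm P (IsPiNum.of_isPGroup P.isPGroup' hpπ) a ha _ (hP (Subgroup.mem_zpowers _)))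
      rw [← Subgroup.relIndex_mul_index (isPiHallOf_iff.1 hK).1] at hpi
      rcases (Nat.Prime.dvd_mul hp).1 hpi with h | h
      · exact (CL.IsPiHallOf.relIndex hK) p hp h hpπ
      · exact P.not_dvd_index (h.trans (Subgroup.index_dvd_of_le hPC))
    refine ⟨H, isPiHall_iff.2 ⟨hH, isPiNum_compl_iff.2 fun q hq hqπ hqi => ?_⟩⟩
    have hqH : ¬ q ∣ Nat.card H := fun h => claim hq h hqi
    have hqG : q ∣ Nat.card G := hqi.trans H.index_dvd_card
    have := Fact.mk hq
    have hH1 : Nat.card H ≠ 1 := by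
      obtain ⟨y, hy⟩ := exists_prime_orderOf_dvd_card' q hqG
      have h1 := hmax (Subgroup.zpowers y) (by
        change IsPiNum π _
        rw [Nat.card_zpowers, hy]; simpa using isPiNum_of_mem hq hqπ 1)
      simp only [Nat.card_zpowers, hy] at h1
      have := hq.two_le
      omega
    obtain ⟨p, hp, hpH⟩ := Nat.exists_prime_and_dvd hH1
    have := Fact.mk hp
    have hpπ : p ∈ π := hH p hp hpH
    obtain ⟨x, y, hx, hy, hxy⟩ := exists_commute hχ hker hp hq (hn ▸ hpπ) (hn ▸ hqπ)
      (hpH.trans H.card_subgroup_dvd_card) hqG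
    obtain ⟨Q, -, hQH, hQp, hQi⟩ := CL.Tr.exists_sylowIn_ge (p := p) (Q := ⊥) (H := H)
      IsPGroup.of_bot bot_le
    have hQG : ¬ p ∣ Q.relIndex ⊤ := by
      rw [Subgroup.relIndex_top_right, ← Subgroup.relIndex_mul_index hQH]
      intro h
      rcases (Nat.Prime.dvd_mul hp).1 h with h | h
      · exact hQi h
      · exact claim hp hpH h
    have hxp : IsPGroup p (Subgroup.zpowers x) :=
      IsPGroup.of_card (n := 1) (by rw [Nat.card_zpowers, hx, pow_one])
    obtain ⟨g, -, hg⟩ := CL.Tr.exists_conj_le_sylowIn hQp hQG hxp le_top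
    have hx' : orderOf (g * x * g⁻¹) = p := by
      rw [← hx]; exact ((MulAut.conj g).orderOf_eq x)
    have hy' : orderOf (g * y * g⁻¹) = q := by
      rw [← hy]; exact ((MulAut.conj g).orderOf_eq y)
    have hK := key hp hpπ hx' (hQH (hg x (Subgroup.mem_zpowers x)))
    have hyC : Subgroup.zpowers (g * y * g⁻¹) ≤ Subgroup.centralizer {g * x * g⁻¹} := by
      rw [Subgroup.zpowers_le, Subgroup.mem_centralizer_singleton_iff]
      have := hxy.eq
      calc g * y * g⁻¹ * (g * x * g⁻¹) = g * (y * x) * g⁻¹ := by group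
        _ = g * (x * y) * g⁻¹ := by rw [this]
        _ = _ := by group
    have := (CL.IsPiHallOf.card_dvd hK) hyC (by
      rw [Nat.card_zpowers, hy']; simpa using isPiNum_of_mem hq hqπ 1)
    rw [Nat.card_zpowers, hy'] at this
    exact hqH this
  · -- a normal subgroup of prime index
    have hnt : Nontrivial (Abelianization G) := by
      rw [← Subgroup.index_eq_one] at hperf
      exact Finite.one_lt_card_iff_nontrivial.1 (by
        have : Nat.card (Abelianization G) = (commutator G).index := rfl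
        have h0 : (commutator G).index ≠ 0 := Subgroup.index_ne_zero_of_finite
        omega)
    obtain ⟨M', hM'n, hM'⟩ := CL.exists_normal_index_prime (Abelianization G)
    set M := M'.comap (Abelianization.of : G →* Abelianization G) with hM
    have hMi : M.index = M'.index :=
      Subgroup.index_comap_of_surjective _ (QuotientGroup.mk'_surjective _)
    have hMn : M.Normal := hM'n.comap _
    set r := M'.index with hr
    have := Fact.mk hM'
    have hMt : M ≠ ⊤ := fun h => by
      rw [h, Subgroup.index_top] at hMi; exact hM'.ne_one hMi.symm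
    have hrπ : r ∈ π := by
      by_contra h
      exact hMt (hno' M (by rw [hMi]; simpa using isPiNum_of_mem (π := πᶜ) hM' h 1))
    obtain ⟨H, hH⟩ := ih' M hMt
    have hHn : H.Normal := normal_of_hall hH (hcomm H (CL.IsPiHallOf.isPiNum hH)) hno'
    obtain ⟨P⟩ : Nonempty (Sylow r G) := inferInstance
    have htop : (P : Subgroup G) ⊔ H = ⊤ := by
      refine hno' _ fun t ht htd => ?_
      have h1 : t ∣ H.index := htd.trans (Subgroup.index_dvd_of_le le_sup_right)
      have h2 : t ∣ (P : Subgroup G).index := htd.trans (Subgroup.index_dvd_of_le le_sup_left)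
      rw [← Subgroup.relIndex_mul_index (isPiHallOf_iff.1 hH).1, hMi] at h1
      rcases (Nat.Prime.dvd_mul ht).1 h1 with h | h
      · exact (CL.IsPiHallOf.relIndex hH) t ht h
      · rw [(Nat.prime_dvd_prime_iff_eq ht hM').1 h] at h2
        exact absurd h2 P.not_dvd_index
    refine ⟨⊤, isPiHall_iff.2 ⟨?_, by rw [Subgroup.index_top]; exact IsPiNum.one _⟩⟩
    rw [← htop]
    exact ((IsPiNum.of_isPGroup P.isPGroup' hrπ).mul (CL.IsPiHallOf.isPiNum hH)).of_dvd (card_sup_dvd_mul _ _)

theorem index_normalCore_dvd_factorial [Finite G] (H : Subgroup G) :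
    H.normalCore.index ∣ H.index.factorial := by
  rw [Subgroup.normalCore_eq_ker, Subgroup.index_ker, Subgroup.index_eq_card, ← Nat.card_perm]
  exact Subgroup.card_subgroup_dvd_card _

/-- A nilpotent linear group of degree `n` has an abelian normal subgroup of index dividing
`n!` (modulo the kernel). -/
theorem exists_normal_index_dvd_factorial [Finite G] [Group.IsNilpotent G] {χ : G → ℂ}
    (hχ : IsCharacter G χ) :
    ∃ B : Subgroup G, B.Normal ∧ ⁅B, B⁆ ≤ charKer χ ∧ B.index ∣ (charDegree χ).factorial := by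
  classical
  let _ := Fintype.ofFinite G
  refine hχ.induction_on (P := fun χ => ∃ B : Subgroup G, B.Normal ∧ ⁅B, B⁆ ≤ charKer χ ∧
    B.index ∣ (charDegree χ).factorial) ?_ ?_ ?_
  · refine ⟨⊤, inferInstance, ?_, by simp⟩
    have : charKer (0 : G → ℂ) = ⊤ := charKer_const 0
    rw [this]; exact le_top
  · intro ψ hψ
    obtain ⟨H, lam, rfl⟩ := exists_monomial_of_isNilpotent hψ
    have hlam := (isIrrCharacter_hom lam).isCharacter
    have hle : ⁅H.normalCore, H.normalCore⁆ ≤ lam.ker.map H.subtype := by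
      rw [Subgroup.commutator_le]
      intro a ha b hb
      refine ⟨⁅(⟨a, H.normalCore_le ha⟩ : H), ⟨b, H.normalCore_le hb⟩⁆, ?_, rfl⟩
      rw [SetLike.mem_coe, MonoidHom.mem_ker, map_commutatorElement,
        commutatorElement_eq_one_iff_mul_comm, mul_comm]
    refine ⟨H.normalCore, inferInstance, ?_, ?_⟩
    · refine le_charKer_indFun (hle.trans (Subgroup.map_subtype_le _)) hlam fun x hx => ?_
      obtain ⟨y, hy, rfl⟩ := hle hx
      have hy' : lam y = 1 := hy
      change ((lam y : ℂˣ) : ℂ) = _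
      rw [hy', map_one]
    · rw [charDegree_indFun H hlam, hlam.charDegree_eq_one_iff.2 (by simp), mul_one]
      exact index_normalCore_dvd_factorial H
  · rintro a b ha hb ⟨B₁, hB₁, h₁, d₁⟩ ⟨B₂, hB₂, h₂, d₂⟩
    refine ⟨B₁ ⊓ B₂, inferInstance, ?_, ?_⟩
    · rw [ha.charKer_add hb]
      exact le_inf ((Subgroup.commutator_mono inf_le_left inf_le_left).trans h₁)
        ((Subgroup.commutator_mono inf_le_right inf_le_right).trans h₂)
    · rw [charDegree_add ha hb, ← Subgroup.relIndex_mul_index (inf_le_right : B₁ ⊓ B₂ ≤ B₂),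
        Subgroup.inf_relIndex_right]
      exact (Nat.mul_dvd_mul ((Subgroup.relIndex_dvd_index_of_normal _ _).trans d₁) d₂).trans
        (Nat.factorial_mul_factorial_dvd_factorial_add _ _)

theorem dvd_relIndex_of_coprime [Finite G] {A H : Subgroup G} [A.Normal] {a : ℕ}
    (ha : a ∣ A.index) (hco : a.Coprime H.index) : a ∣ A.relIndex H := by
  rw [← Subgroup.relIndex_mul_index (le_sup_right : A ≤ H ⊔ A), Subgroup.relIndex_sup_right] at ha
  exact Nat.Coprime.dvd_of_dvd_mul_right
    (hco.coprime_dvd_right (Subgroup.index_dvd_of_le le_sup_left)) ha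

/-- The index bound for an abelian normal subgroup meeting all abelian subgroups in index at
most `c`. -/
theorem index_le_of_relIndex_le [Finite G] {χ : G → ℂ} (hχ : IsCharacter G χ)
    (hker : charKer χ = ⊥) {A : Subgroup G} [A.Normal] {c : ℕ}
    (hA : ∀ H : Subgroup G, (∀ x ∈ H, ∀ y ∈ H, x * y = y * x) → A.relIndex H ≤ c) :
    A.index ≤ (charDegree χ).factorial * c ^ (Nat.primeCounting (charDegree χ + 1) + 1) := by
  classical
  set n := charDegree χ with hn
  have hc : 1 ≤ c := by simpa using hA ⊥ (by simp)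
  obtain ⟨a, b, hab, ha, hb⟩ := exists_pi_mul_pi_compl {q | n + 1 < q}
    (Subgroup.index_ne_zero_of_finite (H := A))
  obtain ⟨H, hH, hHc⟩ := exists_abelian_hall hχ hker
  have h1 : a ≤ c := by
    refine (Nat.le_of_dvd ?_ (dvd_relIndex_of_coprime (A := A) (H := H) ⟨b, hab⟩
      (ha.coprime (isPiHall_iff.1 hH).2))).trans (hA H hHc)
    exact Nat.pos_of_ne_zero Subgroup.index_ne_zero_of_finite
  have hb0 : b ≠ 0 := fun h => Subgroup.index_ne_zero_of_finite (H := A) (by rw [hab, h, mul_zero])
  have h2 : ∀ p ∈ b.primeFactors, p ^ b.factorization p ≤ c * ordProj[p] n.factorial := by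
    intro p hp
    have hp' := Nat.prime_of_mem_primeFactors hp
    have := Fact.mk hp'
    obtain ⟨P⟩ : Nonempty (Sylow p G) := inferInstance
    have := P.isPGroup'.isNilpotent
    obtain ⟨B, -, hBB, hBi⟩ := exists_normal_index_dvd_factorial (hχ.res (P : Subgroup G))
    rw [charDegree_res, ← hn] at hBi
    rw [hχ.charKer_res, hker, Subgroup.bot_subgroupOf, le_bot_iff,
      Subgroup.commutator_eq_bot_iff_le_centralizer] at hBB
    set B' := B.map (P : Subgroup G).subtype with hB'
    have hB'P : B' ≤ P := Subgroup.map_subtype_le B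
    have hB'c : ∀ x ∈ B', ∀ y ∈ B', x * y = y * x := by
      rintro _ ⟨x, hx, rfl⟩ _ ⟨y, hy, rfl⟩
      exact congrArg Subtype.val (hBB hy x hx)
    have hrel : B'.relIndex P = B.index := by
      rw [Subgroup.relIndex, Subgroup.subgroupOf, hB', Subgroup.comap_map_eq_self_of_injective
        (Subgroup.subtype_injective _)]
    obtain ⟨k, hk⟩ := P.isPGroup'.index B
    have hBi' : B.index ∣ ordProj[p] n.factorial := by
      rw [hk] at hBi ⊢
      exact pow_dvd_pow p ((hp'.pow_dvd_iff_le_factorization (Nat.factorial_ne_zero n)).1 hBi)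
    have hd : p ^ b.factorization p ∣ A.relIndex P :=
      dvd_relIndex_of_coprime ((Nat.ordProj_dvd b p).trans ⟨a, by rw [hab, mul_comm]⟩)
        (((Nat.Prime.coprime_iff_not_dvd hp').2 P.not_dvd_index).pow_left _)
    have hd2 : A.relIndex P ∣ A.relIndex B' * B.index := by
      rw [← hrel, ← Subgroup.inf_relIndex_right A B',
        Subgroup.relIndex_mul_relIndex _ _ _ inf_le_right hB'P]
      exact Subgroup.relIndex_dvd_of_le_left _ inf_le_left
    refine (Nat.le_of_dvd ?_ (hd.trans hd2)).trans (Nat.mul_le_mul (hA B' hB'c)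
      (Nat.le_of_dvd (Nat.ordProj_pos _ _) hBi'))
    exact Nat.pos_of_ne_zero (mul_ne_zero Subgroup.index_ne_zero_of_finite
      Subgroup.index_ne_zero_of_finite)
  have h3 : b.primeFactors.card ≤ Nat.primeCounting (n + 1) := by
    rw [Nat.primeCounting, ← Nat.primesBelow_card_eq_primeCounting']
    refine Finset.card_le_card fun p hp => ?_
    have hp' := Nat.prime_of_mem_primeFactors hp
    have : ¬ n + 1 < p := hb p hp' (Nat.dvd_of_mem_primeFactors hp)
    exact Nat.mem_primesBelow.2 ⟨by omega, hp'⟩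
  have h4 : ∏ p ∈ b.primeFactors, ordProj[p] n.factorial ≤ n.factorial := by
    refine Nat.le_of_dvd (Nat.factorial_pos n) (Finset.prod_dvd_of_isRelPrime ?_
      fun p _ => Nat.ordProj_dvd _ _)
    intro p hp q hq hpq
    exact Nat.coprime_iff_isRelPrime.1 (Nat.coprime_pow_primes _ _
      (Nat.prime_of_mem_primeFactors hp) (Nat.prime_of_mem_primeFactors hq) hpq)
  have h5 : b ≤ c ^ Nat.primeCounting (n + 1) * n.factorial := by
    calc b = ∏ p ∈ b.primeFactors, p ^ b.factorization p :=
          (Nat.prod_factorization_pow_eq_self hb0).symm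
      _ ≤ ∏ p ∈ b.primeFactors, c * ordProj[p] n.factorial :=
          Finset.prod_le_prod' h2
      _ = c ^ b.primeFactors.card * ∏ p ∈ b.primeFactors, ordProj[p] n.factorial := by
          rw [Finset.prod_mul_distrib, Finset.prod_const]
      _ ≤ _ := Nat.mul_le_mul (Nat.pow_le_pow_right hc h3) h4
  calc A.index = a * b := hab
    _ ≤ c * (c ^ Nat.primeCounting (n + 1) * n.factorial) := Nat.mul_le_mul h1 h5
    _ = _ := by ring

end CL.FGS.Blich
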