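import Mathlib
import Cfsg.Agent.TECH.Conj

/-!
Counting conjugates of a subgroup.
-/

set_option autoImplicit false

namespace CL.SN

open Subgroup CL.MSS

variable {G : Type*} [Group G]

/-- The number of `L`-conjugates of `H` is `[L : N_L(H)]`. -/
theorem card_conj_in_eq_relIndex (H L : Subgroup G) :
    Nat.card {K : Subgroup G // ∃ g ∈ L, g •ᶜ H = K} = (normalizer (H : Set G)).relIndex L := by
  rw [relIndex, index_eq_card]
  symm
  refine Nat.card_eq_of_bijective (fun q => Quotient.liftOn' q
    (fun g : L => (⟨(g : G) •ᶜ H, g, g.2, rfl⟩ : {K : Subgroup G // ∃ g ∈ L, g •ᶜ H = K})) ?_)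
    ⟨?_, ?_⟩
  · intro a b hab
    rw [QuotientGroup.leftRel_apply, mem_subgroupOf, mem_normalizer_iff_cj] at hab
    apply Subtype.ext
    change (a : G) •ᶜ H = (b : G) •ᶜ H
    conv_lhs => rw [← hab]
    rw [← cj_mul]
    simp
  · intro a b
    induction a using QuotientGroup.induction_on with | H a => ?_
    induction b using QuotientGroup.induction_on with | H b => ?_
    intro h
    have h1 : (a : G) •ᶜ H = (b : G) •ᶜ H := congrArg Subtype.val h
    rw [QuotientGroup.eq, mem_subgroupOf, mem_normalizer_iff_cj]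
    change ((a : G)⁻¹ * b) •ᶜ H = H
    rw [cj_mul, ← h1, inv_cj_cj]
  · rintro ⟨K, g, hg, rfl⟩
    exact ⟨((⟨g, hg⟩ : L) : L ⧸ _), rfl⟩

/-- The number of conjugates of `H` is the index of its normalizer. -/
theorem card_conj_eq_index (H : Subgroup G) :
    Nat.card {K : Subgroup G // ∃ g : G, g •ᶜ H = K} = (normalizer (H : Set G)).index := by
  rw [← relIndex_top_right, ← card_conj_in_eq_relIndex]
  simp

theorem card_eq_index_of_conj {P : Subgroup G → Prop} {H : Subgroup G}
    (h : ∀ K, P K ↔ ∃ g : G, g •ᶜ H = K) :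
    Nat.card {K : Subgroup G // P K} = (normalizer (H : Set G)).index := by
  rw [← card_conj_eq_index]
  exact Nat.card_congr (Equiv.subtypeEquivRight h)

theorem centralizer_sup (A B : Subgroup G) :
    centralizer ((A ⊔ B : Subgroup G) : Set G) =
      centralizer (A : Set G) ⊓ centralizer (B : Set G) := by
  refine le_antisymm (le_inf (centralizer_le (SetLike.coe_subset_coe.2 le_sup_left))
    (centralizer_le (SetLike.coe_subset_coe.2 le_sup_right))) ?_
  rw [le_centralizer_iff]
  exact sup_le (le_centralizer_iff.1 inf_le_left) (le_centralizer_iff.1 inf_le_right)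

end CL.SN
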