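import Mathlib
import Cfsg.Agent.FGS.ShumNil
import Cfsg.Agent.FGS.OddInv
import Cfsg.Agent.SOLV.CoprimeSylow
import Cfsg.Agent.SOLV.Hol
import Cfsg.Agent.SIG.PumpSize
import Cfsg.Agent.PLOC.PRank

/-! The index of an invariant subgroup under a coprime elementary abelian group of operators, and a bound
for the derived subgroup. -/

set_option autoImplicit false

open scoped commutatorElement

namespace CL.Shum

open Subgroup Cfsg

variable {X A : Type*} [Group X] [Group A] [Finite X]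

theorem relIndex_dvd_prod_nilp {p : ℕ} (hp : p.Prime) (φ : A →* X) (hc : ∀ a b : A, a * b = b * a)
    (hA : ∀ a : A, a ^ p = 1) [Fintype {B : Subgroup A // B.index ≤ p}] {Q : Subgroup X} (P : Subgroup X) :
    Group.IsNilpotent P → φ.range ≤ normalizer (P : Set X) → φ.range ≤ normalizer (Q : Set X) →
    (Nat.card A).Coprime (Nat.card P) → Q ≤ P →
    Q.relIndex P ∣ ∏ B : {B : Subgroup A // B.index ≤ p}, Q.relIndex (P ⊓ cB φ B) := by
  induction P using WellFoundedLT.induction with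
  | ind P ih =>
  intro hn hP hQ hcop hQP
  rcases hQP.eq_or_lt with rfl | hlt
  · simp
  obtain ⟨M, h1, h2, h3, h4⟩ := exists_maximal_invariant φ.range P Q hlt hQ
  have h5 : P ≤ normalizer (M : Set X) := by
    have h6 := lt_inf_normalizer_of_isNilpotent hn h2
    refine ((h4 _ h6.le inf_le_left ((le_inf hP ?_).trans inf_normalizer_le_normalizer_inf)).resolve_left
      h6.ne').ge.trans inf_le_right
    exact h3.trans le_normalizer
  obtain ⟨B₀, hB, h6⟩ : ∃ B : Subgroup A, B.index ≤ p ∧ ¬ P ⊓ cB φ B ≤ M := by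
    by_contra! h
    exact h2.not_ge (le_of_hyp hp φ hc hA hP hcop h)
  have h7 : P ⊓ cB φ B₀ ⊔ M = P := (h4 _ le_sup_right (sup_le inf_le_left h2.le)
    (le_normalizer_sup (range_le_norm_inf φ hc hP B₀) h3)).resolve_left fun e => h6 (le_sup_left.trans e.le)
  have h8 : M.relIndex P = M.relIndex (P ⊓ cB φ B₀) := by
    rw [← Comp.relIndex_sup_of_normalizes (inf_le_left.trans h5 : P ⊓ cB φ B₀ ≤ _), h7]
  have h9 : ∀ B : {B : Subgroup A // B.index ≤ p}, Q.relIndex (P ⊓ cB φ B) =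
      Q.relIndex (M ⊓ cB φ B) * M.relIndex (P ⊓ cB φ B) := fun B => by
    have := relIndex_inf_mul_relIndex Q M (P ⊓ cB φ B)
    rwa [inf_of_le_left h1, ← inf_assoc, inf_of_le_left h2.le, eq_comm] at this
  rw [← relIndex_mul_relIndex Q M P h1 h2.le, h8, Finset.prod_congr rfl fun B _ => h9 B, Finset.prod_mul_distrib]
  have k := Finset.dvd_prod_of_mem (fun B : {B : Subgroup A // B.index ≤ p} => M.relIndex (P ⊓ cB φ B))
    (Finset.mem_univ ⟨B₀, hB⟩)
  exact mul_dvd_mul (ih M h2 (isNilpotent_of_le hn h2.le) h3 hQ (hcop.coprime_dvd_right (card_dvd_of_le h2.le)) h1) k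

theorem cop_relIndex_sylow {l : ℕ} [h : Fact l.Prime] {K : Subgroup X} (P : Sylow l K) :
    l.Coprime (((P : Subgroup K).map K.subtype).relIndex K) := by
  rw [relIndex, subgroupOf, comap_map_eq_self_of_injective K.subtype_injective]
  exact h.out.coprime_iff_not_dvd.2 P.not_dvd_index

/-- The index of an invariant subgroup divides the product of the indices in the centralizers of hyperplanes. -/
theorem relIndex_dvd_prod {p : ℕ} (hp : p.Prime) (φ : A →* X) (hc : ∀ a b : A, a * b = b * a)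
    (hA : ∀ a : A, a ^ p = 1) [Fintype {B : Subgroup A // B.index ≤ p}] {H G : Subgroup X}
    (hG : φ.range ≤ normalizer (G : Set X)) (hH : φ.range ≤ normalizer (H : Set X))
    (hcop : (Nat.card A).Coprime (Nat.card G)) (hHG : H ≤ G) :
    H.relIndex G ∣ ∏ B : {B : Subgroup A // B.index ≤ p}, H.relIndex (G ⊓ cB φ B) := by
  refine (Nat.dvd_iff_prime_pow_dvd_dvd _ _).2 fun l k hl h => ?_
  have := Fact.mk hl
  have hcH := hcop.coprime_dvd_right (card_dvd_of_le hHG)
  have hs : Group.IsSolvable φ.range := φ.range_eq_map ▸ solv_map φ hc ⊤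
  obtain ⟨Q, hQ⟩ := coprime_exists_invariant_sylow φ.range H hH (φ.range_eq_map ▸ cop_map φ hcH ⊤) (Or.inl hs) l
  have hQH : (Q : Subgroup H).map H.subtype ≤ H := map_subtype_le _
  obtain ⟨P, hQP, hP⟩ := coprime_exists_invariant_sylow_ge φ.range G hG (φ.range_eq_map ▸ cop_map φ hcop ⊤)
    (Or.inl hs) l _ (hQH.trans hHG) (Q.isPGroup'.map _) hQ
  have hPG : (P : Subgroup G).map G.subtype ≤ G := map_subtype_le _
  have hPl := P.isPGroup'.map G.subtype
  have h1 := h.trans (relIndex_dvd_of_le_left G hQH)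
  rw [← relIndex_mul_relIndex _ _ _ hQP hPG] at h1
  refine (((cop_relIndex_sylow P).pow_left k).dvd_of_dvd_mul_right h1).trans ((relIndex_dvd_prod_nilp hp φ hc hA _
    hPl.isNilpotent hP hQ (hcop.coprime_dvd_right (card_dvd_of_le hPG)) hQP).trans
      (Finset.prod_dvd_prod_of_dvd _ _ fun B _ => ?_))
  obtain ⟨R, hR⟩ := coprime_invariant_sylow_inf_centralizer (B.1.map φ) H ((map_le_range φ _).trans hH)
    (cop_map φ hcH _) (Or.inl (solv_map φ hc _)) l Q ((map_le_range φ _).trans hQ)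
  have h2 := cop_relIndex_sylow R
  obtain ⟨i, hi⟩ := (Nat.dvd_prime_pow hl).1 ((relIndex_dvd_card ((Q : Subgroup H).map H.subtype) _).trans
    (hPl.to_le (inf_le_left : _ ⊓ cB φ B ≤ _)).exists_card_eq.choose_spec.dvd)
  rw [hi.2]
  refine (h2.pow_left i).dvd_of_dvd_mul_left ?_
  rw [hR, ← hi.2, ← inf_relIndex_right H, ← inf_assoc, inf_of_le_left hHG,
    relIndex_mul_relIndex _ _ _ (inf_le_inf_right _ hQH) (inf_le_inf_right _ hHG), ← inf_relIndex_right,
    ← inf_assoc, inf_of_le_left hQP,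
    ← relIndex_mul_relIndex _ _ _ (inf_le_inf_right _ hQP) (inf_le_inf_right (cB φ B) hPG)]
  exact dvd_mul_right _ _

omit [Finite X] in
theorem card_subgroup_le [Finite A] : Nat.card (Subgroup A) ≤ 2 ^ Nat.card A := by
  refine (Nat.card_le_card_of_injective (fun B : Subgroup A => fun a => a ∈ B)
    fun B C e => Subgroup.ext fun a => (congrFun e a).to_iff).trans ?_
  rw [Nat.card_fun]
  simp

omit [Finite X] in
theorem exists_ne_one_mem [Finite A] {p : ℕ} (hp : p.Prime) (hj : Nat.card A = p ^ 3) {B C : Subgroup A}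
    (hB : B.index ≤ p) (hC : C.index ≤ p) : ∃ a : A, a ≠ 1 ∧ ∀ {Y : Type _} [Group Y] (φ : A →* Y),
      cB φ B ≤ centralizer {φ a} ∧ cB φ C ≤ centralizer {(φ a : Y)} := by
  have h4 : B ⊓ C ≠ ⊥ := fun e => by
    have h5 := (index_inf_le (H := B) (K := C)).trans (Nat.mul_le_mul hB hC)
    rw [e, index_bot, hj, ← pow_two, pow_le_pow_iff_right₀ hp.one_lt] at h5
    omega
  obtain ⟨⟨a, ha⟩, h5⟩ := (ne_bot_iff_exists_ne_one).1 h4
  exact ⟨a, fun e => h5 (Subtype.ext e), fun φ => ⟨centralizer_le (Set.singleton_subset_iff.2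
    (mem_map_of_mem φ ha.1)), centralizer_le (Set.singleton_subset_iff.2 (mem_map_of_mem φ ha.2))⟩⟩

theorem relIndex_cent_le [Finite A] {p m : ℕ} (hp : p.Prime) (φ : A →* X) (hc : ∀ a b : A, a * b = b * a)
    (hA : ∀ a : A, a ^ p = 1) (hj : Nat.card A = p ^ 3) {G : Subgroup X}
    (hG : φ.range ≤ normalizer (G : Set X)) (hcop : (Nat.card A).Coprime (Nat.card G)) (hm : 0 < m)
    (h : ∀ a : A, a ≠ 1 → Nat.card (⁅G ⊓ centralizer {φ a}, G ⊓ centralizer {φ a}⁆ : Subgroup X) ≤ m)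
    {C : Subgroup A} (hC : C.index ≤ p) {x : X} (hx : x ∈ G ⊓ cB φ C) :
    (centralizer {x}).relIndex G ≤ (m ^ p ^ 3) ^ 2 ^ p ^ 3 := by
  have := Fintype.ofFinite A
  have := Fintype.ofFinite {B : Subgroup A // B.index ≤ p}
  set H := ⨅ a : A, centralizer {φ a * x * (φ a)⁻¹} with hH
  have h1 : φ.range ≤ normalizer (H : Set X) := le_normalizer_iff.2 (by
    rintro _ ⟨b, rfl⟩ g hg
    refine mem_iInf.2 fun a => mem_centralizer_singleton_iff.2 ?_
    have := mem_centralizer_singleton_iff.1 (mem_iInf.1 hg (b⁻¹ * a))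
    rw [map_mul, map_inv] at this
    calc _ = φ b * (g * ((φ b)⁻¹ * φ a * x * ((φ b)⁻¹ * φ a)⁻¹)) * (φ b)⁻¹ := by group
      _ = _ := by rw [this]; group)
  have h2 : H ≤ centralizer {x} := (iInf_le _ 1).trans (by simp)
  refine (relIndex_le_of_le_left h2 index_ne_zero_of_finite).trans ?_
  rw [← inf_relIndex_right]
  refine (Nat.le_of_dvd (Finset.prod_pos fun B _ => Nat.pos_of_ne_zero index_ne_zero_of_finite)
    (relIndex_dvd_prod hp φ hc hA hG ((le_inf h1 hG).trans inf_normalizer_le_normalizer_inf) hcop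
      inf_le_right)).trans ((Finset.prod_le_pow_card _ _ (m ^ p ^ 3) fun B _ => ?_).trans
        (Nat.pow_le_pow_right (by positivity) ?_))
  · change relIndex _ _ ≤ _
    rw [← inf_relIndex_right, inf_assoc, ← inf_assoc G, inf_idem, inf_relIndex_right]
    refine (relIndex_iInf_le _).trans ((Finset.prod_le_pow_card _ _ m fun a _ => ?_).trans
      (by rw [Finset.card_univ, ← Nat.card_eq_fintype_card, hj]))
    obtain ⟨b, hb, h3⟩ := exists_ne_one_mem hp hj B.2 hC
    refine (PG.relIndex_centralizer_le_card _ _ _ fun g hg => commutator_mem_commutator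
      (inf_le_inf_left G (h3 φ).1 hg) (inf_le_inf_left G (h3 φ).2 ?_)).trans (h b hb)
    exact (mem_normalizer_iff.1 (range_le_norm_inf φ hc hG C ⟨a, rfl⟩) x).1 hx
  · rw [Finset.card_univ, ← Nat.card_eq_fintype_card, ← hj]
    exact (Finite.card_subtype_le _).trans card_subgroup_le

theorem commutator_le_iSup {p : ℕ} (hp : p.Prime) (φ : A →* X) (hc : ∀ a b : A, a * b = b * a)
    (hA : ∀ a : A, a ^ p = 1) {G : Subgroup X} (hG : φ.range ≤ normalizer (G : Set X))
    (hcop : (Nat.card A).Coprime (Nat.card G)) {D : Subgroup X} (hD : ∀ B C E : Subgroup A, B.index ≤ p →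
      C.index ≤ p → E.index ≤ p → ⁅G ⊓ cB φ B, G ⊓ cB φ C⁆ ⊓ cB φ E ≤ D) : ⁅G, G⁆ ≤ D := by
  let T := {B : Subgroup A // B.index ≤ p}
  have hGG : ⁅G, G⁆ ≤ G := le_normalizer_iff_commutator_le_left.1 le_normalizer
  set D' := ⨆ t : T × T × T, ⁅G ⊓ cB φ t.1, G ⊓ cB φ t.2.1⁆ ⊓ cB φ t.2.2
  have h0 : G ≤ ⨆ B : T, G ⊓ cB φ B := le_of_hyp hp φ hc hA hG hcop fun B hB =>
    le_iSup (fun B : T => G ⊓ cB φ B) ⟨B, hB⟩
  have h1 : ∀ B C : T, ⁅G ⊓ cB φ B, G ⊓ cB φ C⁆ ≤ D' := fun B C =>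
    le_of_hyp hp φ hc hA (le_normalizer_commutator (range_le_norm_inf φ hc hG _) (range_le_norm_inf φ hc hG _))
      (hcop.coprime_dvd_right (card_dvd_of_le ((commutator_mono inf_le_left inf_le_left).trans hGG)))
      fun E hE => le_iSup_of_le (B, C, ⟨E, hE⟩) le_rfl
  have h2 : ∀ B : T, G ⊓ cB φ B ≤ normalizer (D' : Set X) := fun B =>
    le_normalizer_iff_commutator_le_right.2 (Comp.commutator_iSup_le
      (fun t => (le_iSup (fun t : T × T × T => ⁅G ⊓ cB φ t.1, G ⊓ cB φ t.2.1⁆ ⊓ cB φ t.2.2) t).trans le_normalizer)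
      fun t => (commutator_mono le_rfl (inf_le_inf_right _
        ((commutator_mono inf_le_left inf_le_left).trans hGG))).trans (h1 B t.2.2))
  refine (commutator_mono h0 h0).trans (le_trans ?_ (iSup_le fun t : T × T × T => hD _ _ _ t.1.2 t.2.1.2 t.2.2.2))
  refine Comp.commutator_iSup_le h2 fun B => ?_
  rw [commutator_comm]
  exact Comp.commutator_iSup_le h2 (h1 B)

theorem card_commutator_le [Finite A] {p m : ℕ} (hp : p.Prime) (φ : A →* X) (hc : ∀ a b : A, a * b = b * a)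
    (hA : ∀ a : A, a ^ p = 1) (hj : Nat.card A = p ^ 3) {G : Subgroup X} (hi : G.index = p ^ 3)
    (hG : φ.range ≤ normalizer (G : Set X)) (hcop : (Nat.card A).Coprime (Nat.card G))
    (h : ∀ a : A, a ≠ 1 → Nat.card (⁅G ⊓ centralizer {φ a}, G ⊓ centralizer {φ a}⁆ : Subgroup X) ≤ m) :
    Nat.card (⁅G, G⁆ : Subgroup X) ≤ OddInv.B (m * (2 ^ p ^ 3) ^ 3) m.factorial
      ((m ^ p ^ 3) ^ 2 ^ p ^ 3 * p ^ 3) := by
  let T := {B : Subgroup A // B.index ≤ p}
  let J : T × T × T → Subgroup X := fun t => ⁅G ⊓ cB φ t.1, G ⊓ cB φ t.2.1⁆ ⊓ cB φ t.2.2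
  have := Fintype.ofFinite T
  have hGG : ⁅G, G⁆ ≤ G := le_normalizer_iff_commutator_le_left.1 le_normalizer
  have h1 : ∀ t, Nat.card (J t) ≤ m := fun t => by
    obtain ⟨b, hb, h3⟩ := exists_ne_one_mem hp hj t.1.2 t.2.1.2
    exact (card_le_of_le (inf_le_left.trans (commutator_mono (inf_le_inf_left G (h3 φ).1)
      (inf_le_inf_left G (h3 φ).2)))).trans (h b hb)
  have t0 : T := ⟨⊤, by rw [index_top]; exact hp.one_le⟩
  have hm : 0 < m := Nat.card_pos.trans_le (h1 (t0, t0, t0))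
  have hT : Fintype.card T ≤ 2 ^ p ^ 3 := by
    rw [← Nat.card_eq_fintype_card, ← hj]
    exact (Finite.card_subtype_le _).trans card_subgroup_le
  refine (card_le_of_le (commutator_le_iSup hp φ hc hA hG hcop (D := closure (⋃ t ∈ Finset.univ, (J t : Set X)))
    fun B C E hB hC hE x hx => subset_closure (Set.mem_biUnion (Finset.mem_univ
      ((⟨B, hB⟩, ⟨C, hC⟩, ⟨E, hE⟩) : T × T × T)) hx))).trans (OddInv.card_closure_le_B
        ((Finset.set_ncard_biUnion_le _ _).trans ((Finset.sum_le_card_nsmul _ _ m fun t _ => h1 t).trans ?_))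
        m.factorial_pos (by have := hp.pos; positivity) (fun s hs => ?_) fun s hs => ?_)
  · rw [Finset.card_univ, Fintype.card_prod, Fintype.card_prod, smul_eq_mul, mul_comm, pow_three]
    gcongr
  · obtain ⟨t, -, ht⟩ := Set.mem_iUnion₂.1 hs
    exact orderOf_dvd_iff_pow_eq_one.1 ((orderOf_dvd_natCard _ ht).trans (Nat.dvd_factorial Nat.card_pos (h1 t)))
  · obtain ⟨t, -, ht⟩ := Set.mem_iUnion₂.1 hs
    refine (index_antitone (inf_le_left : _ ⊓ G ≤ _)).trans ?_
    rw [← relIndex_mul_index inf_le_right, hi, inf_relIndex_right]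
    exact Nat.mul_le_mul_right _ (relIndex_cent_le hp φ hc hA hj hG hcop hm h t.2.2.2
      ⟨hGG (commutator_mono inf_le_left inf_le_left ht.1), ht.2⟩)

theorem card_commutator_le_act {A G : Type*} [Group A] [Finite A] [Group G] [Finite G] [MulDistribMulAction A G]
    {p m : ℕ} (hp : p.Prime) (hj : Nat.card A = p ^ 3) (hc : ∀ a b : A, a * b = b * a) (hA : ∀ a : A, a ^ p = 1)
    (hG : ¬ p ∣ Nat.card G)
    (h : ∀ a : A, a ≠ 1 → Nat.card ↥(_root_.commutator ↥(FixedPoints.subgroup (zpowers a) G)) ≤ m) :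
    Nat.card ↥(_root_.commutator G) ≤ OddInv.B (m * (2 ^ p ^ 3) ^ 3) m.factorial
      ((m ^ p ^ 3) ^ 2 ^ p ^ 3 * p ^ 3) := by
  have k := card_commutator_le (m := m) hp (Hol.inr : A →* Hol A G) hc hA hj (G := (⊤ : Subgroup G).map Hol.inl)
    (by rw [Hol.isComplement'.symm.index_eq_card, Hol.card_map_inr, card_top, hj]) le_normalizer_of_normal
    (by rw [Hol.card_map_inl, card_top, hj]; exact (hp.coprime_iff_not_dvd.2 hG).pow_left 3) fun a ha => by
      rw [Hol.map_inl_inf_centralizer_singleton, ← map_commutator, Hol.card_map_inl, top_inf_eq,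
        actFix_eq_fixedPoints, ← map_subtype_commutator, card_subtype]
      exact h a ha
  rwa [← map_commutator, Hol.card_map_inl] at k

end CL.Shum
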