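import Mathlib
import Cfsg.Agent.FGS.FpfTwo

/-!
Theorem B of Hall and Higman on an invariant subspace; fixed-point-free actions of the symmetric
group of degree three.
-/

set_option autoImplicit false
open Module Polynomial Subgroup Cfsg
open scoped commutatorElement

namespace CL.HH

section rep
variable {F G V : Type*} [Field F] [Group G] [AddCommGroup V] [Module F V]
variable {ρ : Representation F G V} {Q L : Subgroup G} {W : Submodule F V}

theorem ker_sub (h : Inv ρ L W) : (sub h).ker = (triv ρ W).subgroupOf L := by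
  ext g
  rw [MonoidHom.mem_ker, mem_subgroupOf, mem_triv]
  exact ⟨fun e v hv => congrArg Subtype.val (LinearMap.congr_fun e ⟨v, hv⟩),
    fun e => LinearMap.ext fun v => Subtype.ext (e v v.2)⟩

theorem ann_sub_iff (h : Inv ρ L W) (x : L) (N : ℕ) : Ann (sub h x) ⊤ N ↔ Ann (ρ x) W N := by
  have e : ∀ (f : F[X]) (v : W), (aeval (sub h x) f v : V) = aeval (ρ x) f v :=
    fun f v => aeval_restrict_apply (ρ x) W (h x x.2) f v
  exact ⟨fun ⟨f, h0, h1, h2⟩ => ⟨f, h0, h1, fun v hv => by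
      rw [← e f ⟨v, hv⟩, h2 _ Submodule.mem_top]; rfl⟩,
    fun ⟨f, h0, h1, h2⟩ => ⟨f, h0, h1, fun v _ => Subtype.ext ((e f v).trans (h2 v v.2))⟩⟩

/-- Theorem B on an invariant subspace. -/
theorem hall_higman_rel [IsAlgClosed F] [FiniteDimensional F V] [Finite Q] {q : ℕ} [Fact q.Prime]
    (hQq : IsPGroup q Q) (hQ : (Nat.card Q : F) ≠ 0) {p : ℕ} (hp : p.Prime)
    (hpQ : (Nat.card Q).Coprime p) {x : G} (hx : x ∈ normalizer (Q : Set G)) (hW : Inv ρ Q W)
    (hxW : x ∈ stab ρ W) {m n : ℕ} (hxm : x ^ p ^ m = 1) (hxn : x ^ p ^ (n + 1) ∈ triv ρ W)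
    (hy : ¬ ⁅Q, zpowers (x ^ p ^ n)⁆ ≤ triv ρ W) (hs : Ann (ρ x) W (p ^ (n + 1))) :
    ∃ k l a, k + l = n ∧ 0 < a ∧ p ^ (l + 1) = q ^ a + 1 ∧ ¬ ⁅Q, Q⁆ ≤ triv ρ W ∧
      ¬ Ann (ρ x) W (p ^ k * (p ^ (l + 1) - 1)) := by
  have hQL : Q ≤ stab ρ W := hW.le_stab
  set x' : stab ρ W := ⟨x, hxW⟩
  obtain ⟨k, l, a, h1, h2, h3, h4, h5⟩ := hall_higman (ρ := sub (inv_stab (ρ := ρ) (U := W)))
    (FH.isPGroup_subgroupOf hQq) (by rwa [card_subgroupOf_of_le hQL]) hp
    (by rwa [card_subgroupOf_of_le hQL]) (FH.mem_normalizer_subgroupOf (x := x') hx) (m := m)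
    (n := n) (Subtype.ext hxm) (by rw [ker_sub]; exact hxn) (by
      have hz : zpowers (x ^ p ^ n) ≤ stab ρ W := zpowers_le.2 (x' ^ p ^ n).2
      rw [ker_sub, FH.zpowers_eq_subgroupOf]
      erw [FH.commutator_subgroupOf_eq hQL hz]
      rwa [FH.subgroupOf_le_iff (FH.commutator_le_of_le hQL hz)])
    ((ann_sub_iff _ x' _).2 hs)
  refine ⟨k, l, a, h1, h2, h3, fun e => h4 ?_, fun e => h5 ((ann_sub_iff _ x' _).2 e)⟩
  rw [ker_sub, FH.commutator_subgroupOf_eq hQL hQL]
  exact subgroupOf_mono _ e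

end rep

theorem commutator_le_of_s3 {Q : Type*} [Group Q] (κ η : MulAut Q) (N : Subgroup Q) [N.Normal]
    (h3 : κ * κ * κ = 1) (h2 : η * η = 1) (hηκ : η * κ = κ⁻¹ * η) (hη : ∀ u, u * (η u)⁻¹ ∈ N)
    (hf : ∀ M : Subgroup Q, M.Normal → (∀ u ∈ M, κ u ∈ M) → (∀ u ∈ M, η u ∈ M) →
      ∀ u, u * (κ u)⁻¹ ∈ M → u * (η u)⁻¹ ∈ M → u ∈ M) : ⁅(⊤ : Subgroup Q), ⊤⁆ ≤ N := by
  set f := QuotientGroup.mk' N
  have hfN : ∀ u, u ∈ N ↔ f u = 1 := fun u => (QuotientGroup.eq_one_iff u).symm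
  have e1 : ∀ u, f (η u) = f u := fun u => by
    have := (hfN _).1 (hη u)
    rw [map_mul, map_inv, mul_inv_eq_one] at this
    exact this.symm
  have k2 : ∀ u, κ (κ u) = κ⁻¹ u := fun u => by
    rw [← MulAut.mul_apply, eq_inv_of_mul_eq_one_left h3]
  have k3 : ∀ u, κ⁻¹ (κ⁻¹ u) = κ u := fun u => by
    rw [← k2, MulAut.apply_inv_self]
  have k4 : ∀ u, η (κ u) = κ⁻¹ (η u) := fun u => by
    rw [← MulAut.mul_apply, hηκ, MulAut.mul_apply]
  have k5 : ∀ u, η (η u) = u := fun u => by rw [← MulAut.mul_apply, h2, MulAut.one_apply]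
  have k6 : ∀ u, η (κ⁻¹ u) = κ (η u) := fun u => by
    conv_lhs => rw [← k5 u, ← k4, k5]
  have e2 : ∀ u, f (κ⁻¹ (η u)) = f (κ u) := fun u => by rw [← k4, e1]
  have e3 : ∀ u, f (κ (η u)) = f (κ⁻¹ u) := fun u => by rw [← k6, e1]
  have hgen : ∀ α : MulAut Q, (α = κ ∨ α = κ⁻¹) → N ⊔ N.comap α.toMonoidHom = ⊤ := by
    intro α hα
    set M := N ⊔ N.comap α.toMonoidHom
    have hM : M.Normal := inferInstance
    have g1 : ∀ u, u * (η u)⁻¹ ∈ M := fun u => mem_sup_left (hη u)
    have g2 : ∀ u, u * (α⁻¹ (η (α u)))⁻¹ ∈ M := fun u => mem_sup_right (by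
      simpa using hη (α u))
    have g3 : ∀ u, u * (α u)⁻¹ ∈ M := fun u => by
      have := mul_mem (g1 u) (g2 (η u))
      rcases hα with rfl | rfl
      · rwa [k4, k5, k3, mul_assoc, inv_mul_cancel_left] at this
      · rwa [k6, k5, inv_inv, k2, mul_assoc, inv_mul_cancel_left] at this
    have g4 : ∀ u, u * (κ u)⁻¹ ∈ M := fun u => by
      rcases hα with rfl | rfl
      · exact g3 u
      · simpa using inv_mem (g3 (κ u))
    exact eq_top_iff.2 fun u _ => hf M hM (fun v hv => by simpa using mul_mem (inv_mem (g4 v)) hv)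
      (fun v hv => by simpa using mul_mem (inv_mem (g1 v)) hv) u (g4 u) (g1 u)
  set N2 := N.comap κ⁻¹.toMonoidHom
  set N3 := N.comap κ.toMonoidHom
  have m2 : ∀ u, u ∈ N2 ↔ f (κ⁻¹ u) = 1 := fun u => hfN _
  have m3 : ∀ u, u ∈ N3 ↔ f (κ u) = 1 := fun u => hfN _
  have key : N2 ⊓ N3 ≤ N := by
    intro x hx
    have x2 := (m2 x).1 hx.1
    have x3 := (m3 x).1 hx.2
    have := hf (N ⊓ N2 ⊓ N3) inferInstance (fun u hu => by
        simp only [mem_inf, hfN, m2, m3, k2, MulAut.inv_apply_self] at hu ⊢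
        tauto) (fun u hu => by
        simp only [mem_inf, hfN, m2, m3, e1, e2, e3] at hu ⊢
        tauto)
      (x * κ x * κ⁻¹ x) (by
        simp only [mem_inf, hfN, m2, m3, map_mul, map_inv, k2, k3, MulAut.apply_inv_self,
          MulAut.inv_apply_self, x2, x3, mul_one, one_mul, mul_inv_cancel, and_self]) (by
        simp only [mem_inf, hfN, m2, m3, map_mul, map_inv, k2, k3, k4, k6, e1, e2, e3,
          MulAut.apply_inv_self, MulAut.inv_apply_self, x2, x3, mul_one, one_mul, mul_inv_cancel,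
          and_self])
    have h := (hfN _).1 this.1.1
    rwa [map_mul, map_mul, x2, x3, mul_one, mul_one, ← hfN] at h
  calc ⁅(⊤ : Subgroup Q), ⊤⁆ = ⁅N ⊔ N2, N ⊔ N3⁆ := by rw [hgen κ (Or.inl rfl), hgen κ⁻¹ (Or.inr rfl)]
    _ ≤ N := MSS.sup_commutator_le_of_normalizes le_normalizer_of_normal le_normalizer_of_normal
      (commutator_le_left _ _) (MSS.commutator_sup_le_of_normalizes le_normalizer_of_normal
        le_normalizer_of_normal (commutator_le_right _ _) ((commutator_le_inf _ _).trans key))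

theorem s3_cases : ∀ a : Equiv.Perm (Fin 3), a ≠ 1 →
    ∃ h k : Equiv.Perm (Fin 3), (a = h ∨ a = k) ∧ h * h = 1 ∧ k * k * k = 1 ∧ h * k = k⁻¹ * h ∧
      ∀ b : Equiv.Perm (Fin 3), ∃ i : Fin 2, ∃ j : Fin 3, b = h ^ (i : ℕ) * k ^ (j : ℕ) := by
  decide

/-- A fixed-point-free symmetric group of degree three on a tower of height two. -/
theorem commutator_le_ker_of_s3 {F G V : Type*} [Field F] [Group G] [AddCommGroup V] [Module F V]
    [IsAlgClosed F] [FiniteDimensional F V] [Finite G] {ρ : Representation F G V}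
    {φ : Equiv.Perm (Fin 3) →* G} (hφ : Function.Injective φ) {A : Subgroup G} [Fintype A]
    (hA : A = map φ ⊤) {Q : Subgroup G} {q : ℕ} [hq : Fact q.Prime] (hQ : IsPGroup q Q)
    (hAQ : A ≤ normalizer (Q : Set G)) (hc : (Nat.card Q).Coprime 6)
    (hC : Q ⊓ centralizer (A : Set G) = ⊥) (hQF : (Nat.card Q : F) ≠ 0)
    (hAF : (Nat.card A : F) ≠ 0) (h0 : ∀ v, ∑ a : A, ρ a v = 0) :
    ⁅Q, Q⁆ ≤ ρ.ker := by
  by_contra hne
  have hA6 : Nat.card A = 2 * 3 := by
    rw [hA, card_map_of_injective hφ, card_top, Nat.card_eq_fintype_card, Fintype.card_perm]; rfl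
  have hcA : (Nat.card A).Coprime (Nat.card Q) := hA6 ▸ hc.symm
  have hAd := depthTwo_of_card Nat.prime_two Nat.prime_three hA6
  obtain ⟨U, -, hU, hUQ⟩ := exists_irr_not_le_triv hQF inv_top (triv_top (ρ := ρ) ▸ hne)
  obtain ⟨B, hB, hBA, hBt⟩ := hAd.exists_classStab_eq (T := ⊥) hQ.isNilpotent
    (isSolvable_of_le bot_le (isSolvable_of_isPGroup hQ)) hQF hAF
    hAQ le_normalizer_of_normal bot_le hcA (by rw [card_bot]; exact Nat.coprime_one_right _) hC h0 hU
    (fun e => hUQ ((commutator_le_self Q).trans e))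
  obtain ⟨p, x, hp, hx, rfl⟩ := hAd.exists_eq_zpowers hB hBA
  replace hBt := hBt 1 (one_mem _)
  rw [map_rho_one] at hBt
  have hxA : x ∈ A := hBA.le (mem_zpowers x)
  have hpA : p ∣ 2 * 3 := hA6 ▸ hx ▸ A.orderOf_dvd_natCard hxA
  have hxp : x ^ p = 1 := hx ▸ pow_orderOf_eq_one x
  have hxc : x ∈ classStab ρ Q U := (hBt.ge (mem_zpowers x)).2
  have hxU : ⁅Q, zpowers x⁆ ≤ triv ρ U := by
    by_contra hn
    obtain ⟨k, l, a, h1, h2, h3, -⟩ := hall_higman_rel hQ hQF hp (hc.coprime_dvd_right hpA)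
      (hAQ hxA) hU.2.1.comp (inv_classStab_comp.le_stab hxc) (m := 1) (n := 0)
      (by rwa [pow_one]) (by rw [zero_add, pow_one, hxp]; exact one_mem _)
      (by rw [pow_zero, pow_one]; exact fun e => hn (e.trans (triv_anti le_comp))) (by
        rw [zero_add, pow_one]
        exact exists_ann_of_classStab_eq hQF hAF hAQ h0 hU hp.pos hxp hBt)
    obtain rfl : l = 0 := by omega
    have h4 : q ≤ q ^ a := Nat.le_self_pow h2.ne' q
    have h5 : p ≤ 3 := by
      rcases (Nat.Prime.dvd_mul hp).1 hpA with e | e <;> have := Nat.le_of_dvd (by decide) e <;> omega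
    have := hq.out.two_le
    rw [zero_add, pow_one] at h3
    obtain rfl : q = 2 := by omega
    rw [FH.eq_bot_of_isPGroup_of_coprime hQ (hc.coprime_dvd_right (by decide)),
      commutator_bot_left] at hne
    exact hne bot_le
  obtain ⟨a, -, rfl⟩ := hA.le hxA
  obtain ⟨h, k, hahk, h2, h3, hhk, hall⟩ := s3_cases a (by
    rintro rfl
    rw [map_one, orderOf_one] at hx
    exact hp.one_lt.ne hx)
  have hm : ∀ b, φ b ∈ normalizer (Q : Set G) := fun b => hAQ (hA.ge ⟨b, mem_top b, rfl⟩)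
  have hgen : ∀ L : Subgroup G, φ h ∈ L → φ k ∈ L → A ≤ L := by
    rw [hA]
    rintro L l1 l2 _ ⟨b, -, rfl⟩
    obtain ⟨i, j, rfl⟩ := hall b
    rw [map_mul, map_pow, map_pow]
    exact mul_mem (pow_mem l1 _) (pow_mem l2 _)
  have hQN : Q ≤ normalizer (triv ρ U : Set G) := hU.2.1.le_stab.trans stab_le_normalizer_triv
  rcases hahk with rfl | rfl
  · set ψ : Equiv.Perm (Fin 3) →* MulAut Q := Q.normalizerMonoidHom.comp (φ.codRestrict _ hm)
    have hψ : ∀ b (u : Q), ((ψ b u : Q) : G) = φ b * u * (φ b)⁻¹ := fun _ _ => rfl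
    have hψ' : ∀ b (u : Q), ((u * (ψ b u)⁻¹ : Q) : G) = ⁅(u : G), φ b⁆ := fun b u => by
      rw [Subgroup.coe_mul, Subgroup.coe_inv, hψ, commutatorElement_def]; group
    have := normal_subgroupOf_of_le_normalizer hQN
    have key := commutator_le_of_s3 (ψ k) (ψ a) ((triv ρ U).subgroupOf Q)
      (by rw [← map_mul, ← map_mul, h3, map_one]) (by rw [← map_mul, h2, map_one])
      (by rw [← map_mul, hhk, map_mul, map_inv])
      (fun u => by
        rw [mem_subgroupOf, hψ']; exact hxU (commutator_mem_commutator u.2 (mem_zpowers _)))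
      (fun M hM m1 m2 u u1 u2 => by
        have hn : ∀ b, (∀ u ∈ M, ψ b u ∈ M) → φ b ∈ normalizer ((M.map Q.subtype : Subgroup G) : Set G) :=
          fun b hb => mem_normalizer_fintype (by
            rintro _ ⟨v, hv, rfl⟩
            exact ⟨_, hb v hv, rfl⟩)
        have hMQ : M.map Q.subtype ≤ Q := map_subtype_le _
        have h1 := FH.mem_of_fpf hMQ (hgen _ (hn a m2) (hn k m1))
          (FH.coprime_of_le hMQ hcA.symm).symm
          (Or.inr (isSolvable_of_le hMQ (isSolvable_of_isPGroup hQ))) hC u.2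
          (le_normalizer_map_subtype Q M u.2) fun b hb => commutatorElement_mem_of_mem_cmod
            (hgen _ (mem_cmod_symm (hn a m2) ⟨_, u2, hψ' a u⟩)
              (mem_cmod_symm (hn k m1) ⟨_, u1, hψ' k u⟩) hb)
        obtain ⟨v, hv, e⟩ := h1
        rwa [← Subtype.ext e])
    refine hUQ ?_
    have := map_mono (f := Q.subtype) key
    rw [map_commutator, ← MonoidHom.range_eq_map, range_subtype, subgroupOf_map_subtype] at this
    exact this.trans inf_le_left
  · set C := Q ⊓ centralizer (zpowers (φ a) : Set G)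
    have hhC : φ h ∈ normalizer (C : Set G) := le_normalizer_inf (zpowers_le.2 (hm h))
      (le_normalizer_centralizer (zpowers_le.2 (mem_normalizer_fintype (by
        rintro _ ⟨n, rfl⟩
        refine ⟨-n, ?_⟩
        simp only
        rw [← conj_zpow, ← map_mul, hhk, map_mul, mul_inv_cancel_right, map_inv, inv_zpow,
          zpow_neg])))) (mem_zpowers _)
    have hCC : ⁅C, C⁆ = ⊥ := FH.commutator_eq_bot_of_fpf_involution hhC
      (by rw [sq, ← map_mul, h2, map_one]; exact one_mem _) fun u hu hc => hC.le ⟨hu.1,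
        le_centralizer_iff.1 (hgen (centralizer (zpowers u : Set G))
          (by rw [MSS.centralizer_zpowers]; exact mem_centralizer_singleton_iff.2 hc.symm)
          (by rw [MSS.centralizer_zpowers]
              exact mem_centralizer_singleton_iff.2 (hu.2 _ (mem_zpowers _)))) (mem_zpowers u)⟩
    have hz : zpowers (φ a) ≤ normalizer (Q : Set G) := zpowers_le.2 (hm a)
    have hsup := coprime_commutator_sup_centralizer _ Q hz (FH.coprime_of_le hBA.le hcA)
      (Or.inl (isSolvable_zpowers _))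
    have hE : ⁅Q, zpowers (φ a)⁆ ≤ Q := le_normalizer_iff_commutator_le_left.1 hz
    refine hUQ ?_
    conv_lhs => rw [← hsup]
    have hT : ∀ X ≤ Q, ⁅⁅Q, zpowers (φ a)⁆, X⁆ ≤ triv ρ U := fun X hX =>
      (commutator_mono hxU le_rfl).trans (le_normalizer_iff_commutator_le_left.1 (hX.trans hQN))
    exact MSS.sup_commutator_le_of_normalizes (hE.trans hQN) (inf_le_left.trans hQN)
      (hT _ hsup.le) (MSS.commutator_sup_le_of_normalizes (hE.trans hQN) (inf_le_left.trans hQN)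
        (by rw [commutator_comm]; exact hT _ inf_le_left) (hCC.le.trans bot_le))

end CL.HH

namespace CL.FH

variable {G : Type*} [Group G] [Finite G]

theorem commutator_eq_bot_of_forall_pCore {H : Subgroup G} [H.Normal] (hH : Group.IsNilpotent H)
    (h : ∀ q : ℕ, q.Prime → ⁅pCore q G ⊓ H, pCore q G ⊓ H⁆ = ⊥) : ⁅H, H⁆ = ⊥ := by
  have hF : H ≤ fittingSubgroup G ⊓ H := le_inf (le_fittingSubgroup hH) le_rfl
  rw [commutator_eq_bot_iff_le_centralizer]
  refine hF.trans (le_of_forall_pCore_inf_le fun q hq _ => le_centralizer_iff.1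
    (hF.trans (le_of_forall_pCore_inf_le fun r hr _ => ?_)))
  rw [← commutator_eq_bot_iff_le_centralizer]
  by_cases e : r = q
  · exact e ▸ h r hr
  · have := Fact.mk hq
    have := Fact.mk hr
    refine eq_bot_iff.2 ((commutator_le_inf _ _).trans (le_of_eq ?_))
    exact inf_eq_bot_of_isPGroup_of_coprime ((isPGroup_pCore r G).to_le inf_le_left)
      (coprime_of_isPGroup_of_ne hr e ((isPGroup_pCore q G).to_le inf_le_left))

theorem commutator_le_fitting_of_s3 {H : Subgroup G} [H.Normal] (hH : Group.IsSolvable H)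
    {φ : Equiv.Perm (Fin 3) →* G} (hφ : Function.Injective φ) (hc : (Nat.card H).Coprime 6)
    (hf : H ⊓ centralizer ((map φ ⊤ : Subgroup G) : Set G) = ⊥) :
    ⁅H, H⁆ ≤ fittingSubgroup G ⊓ H := by
  set A := map φ ⊤ with hA
  have hA6 : Nat.card A = 2 * 3 := by
    rw [card_map_of_injective hφ, card_top, Nat.card_eq_fintype_card, Fintype.card_perm]; rfl
  have hcop : (Nat.card A).Coprime (Nat.card H) := hA6 ▸ hc.symm
  have h2 := res_two_eq_bot_of_depthTwo hH
    (HH.depthTwo_of_card Nat.prime_two Nat.prime_three hA6) hcop hf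
  have h1 : nres H ≤ fittingSubgroup G ⊓ H :=
    le_inf (le_fittingSubgroup (nres_eq_bot_iff.1 h2)) (nres_le H)
  rw [← map_mk'_eq_bot_iff, map_nres, nres_eq_bot_iff] at h1
  rw [← map_mk'_eq_bot_iff, map_commutator]
  refine commutator_eq_bot_of_forall_pCore h1 fun q hq => ?_
  have := Fact.mk hq
  obtain ⟨Q, hQH, hQq, hAQ, hQf, -⟩ := exists_invariant_over_fitting hH hcop q
  rw [← hQf, ← map_commutator]
  by_contra hne
  obtain ⟨s, hs, hsq, hQ⟩ := exists_prime_not_le_frattini hQH hQq (hQf.le.trans inf_le_left)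
    (commutator_le_self Q) hne
  have := Fact.mk hs
  have := Fintype.ofFinite A
  have hAs := coprime_of_not_commutator_le hcop hQ
  have hE : IsPGroup s ↥(pCore s G ⊓ H) := (isPGroup_pCore s G).to_le inf_le_left
  have hsec := HH.isSec_frattini hE
  set E := pCore s G ⊓ H
  set M := (frattini E).map E.subtype
  have hMH : M ≤ H := (map_subtype_le _).trans inf_le_right
  rw [← hsec.le_ker_rep] at hQ
  exact hQ (HH.commutator_le_ker_of_s3 hφ hA hQq hAQ (coprime_of_le hQH hc)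
    (eq_bot_iff.2 ((inf_le_inf_right _ hQH).trans hf.le))
    (HH.natCast_ne_zero_of_coprime (coprime_of_isPGroup_of_ne hs hsq hQq))
    (HH.natCast_ne_zero_of_coprime hAs) (hsec.sum_rep_eq_zero fun e he hc =>
      mem_of_fpf hMH le_normalizer_of_normal (coprime_of_le hMH hcop.symm).symm
        (Or.inr (isSolvable_of_le hMH hH)) hf he.2 (le_normalizer_of_normal (mem_top e)) hc))

end CL.FH
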