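import Cfsg.Agent.FGS.HHScal
import Cfsg.Agent.SOLV.MinNormal

/-!
Degrees of irreducible representations of solvable groups in coprime characteristic, Fourier
inversion in `End V`, and the critical case of the Hall-Higman theorem for a general normal
subgroup.
-/

set_option autoImplicit false
open Module Polynomial

namespace CL.HH

variable {F G V : Type*} [Field F] [Group G] [AddCommGroup V] [Module F V]

/-- The degree of an irreducible representation of a solvable group in coprime characteristic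
divides the order. -/
theorem Irr.finrank_dvd [IsAlgClosed F] [FiniteDimensional F V] [Finite G]
    (ρ : Representation F G V) (Q : Subgroup G) : Group.IsSolvable Q → (Nat.card Q : F) ≠ 0 →
      ∀ U, Irr ρ Q U → finrank F U ∣ Nat.card Q := by
  classical
  refine subgroup_induction (P := fun Q => Group.IsSolvable Q → (Nat.card Q : F) ≠ 0 →
    ∀ U, Irr ρ Q U → finrank F U ∣ Nat.card Q) (fun Q ih hs hQ U hU => ?_) Q
  rcases Q.bot_or_nontrivial with rfl | hn
  · obtain ⟨v, hv, h0⟩ := Submodule.exists_mem_ne_zero_of_ne_bot hU.1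
    rw [← (hU.2.2 (Submodule.span F {v}) ((Submodule.span_singleton_le_iff_mem _ _).2 hv)
      (by rintro _ rfl w hw; simpa using hw)).resolve_left (by simpa using h0),
      finrank_span_singleton h0]
    exact one_dvd _
  obtain ⟨M0, hM0, hp⟩ := exists_normal_index_prime Q
  have hMQ : M0.map Q.subtype ≤ Q := Subgroup.map_subtype_le M0
  have hmem : ∀ g : Q, (g : G) ∈ M0.map Q.subtype ↔ g ∈ M0 := fun g =>
    Subgroup.mem_map_iff_mem Q.subtype_injective
  have hcM : Nat.card (M0.map Q.subtype) = Nat.card M0 :=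
    Subgroup.card_map_of_injective Q.subtype_injective
  have hM := card_cast_ne_zero_of_le hQ hMQ
  have hN := le_normalizer_map_subtype Q M0
  have ih' := ih (M0.map Q.subtype) (lt_of_le_of_ne hMQ fun e => hp.ne_one (Subgroup.index_eq_one.2
    (eq_top_iff.2 fun g _ => (hmem g).1 (e.symm ▸ g.2)))) (isSolvable_map _ _) hM
  obtain ⟨U0, h1, h2⟩ := exists_irr_le (hU.2.1.mono hMQ) hU.1
  by_cases h : ∃ g : Q, g ∉ M0 ∧ Iso ρ (M0.map Q.subtype) U0 (U0.map (ρ g))
  · obtain ⟨g, g1, g2⟩ := h
    obtain ⟨U', h3, h4, -, h5⟩ := exists_iso_map_eq hM h2 (hN g.2) g2 h1 (hU.2.1 g g.2)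
    have h6 : (stab ρ U').subgroupOf Q = ⊤ := by
      have h7 : M0 ≤ (stab ρ U').subgroupOf Q := fun u hu => h4.2.1.le_stab ((hmem u).2 hu)
      rcases hp.eq_one_or_self_of_dvd _ (Subgroup.index_dvd_of_le h7) with e | e
      · exact Subgroup.index_eq_one.1 e
      · refine absurd ?_ g1
        rw [Subgroup.eq_of_le_of_card_ge h7 (le_of_eq (Nat.eq_of_mul_eq_mul_right hp.pos
          (by rw [M0.card_mul_index, ← e, Subgroup.card_mul_index])))]
        exact h5
    obtain rfl := (hU.2.2 U' h3 (inv_iff_le_stab.2 (Subgroup.subgroupOf_eq_top.1 h6))).resolve_left h4.1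
    exact (ih' _ h4).trans (Subgroup.card_dvd_of_le hMQ)
  push Not at h
  have := Fintype.ofFinite (Q ⧸ M0)
  let L : ((Q ⧸ M0) → U0) →ₗ[F] V :=
    ∑ c : Q ⧸ M0, ρ (c.out : Q) ∘ₗ U0.subtype ∘ₗ LinearMap.proj c
  have hL : ∀ u, L u = ∑ c : Q ⧸ M0, ρ (c.out : Q) (u c) := fun u => by simp [L]
  have hinj : Function.Injective L := by
    rw [injective_iff_map_eq_zero]
    intro u hu
    funext c
    have := eq_zero_of_sum_eq_zero hM Finset.univ (X := fun c : Q ⧸ M0 => U0.map (ρ (c.out : Q)))
      (fun c _ => h2.map_normalizer (hN c.out.2)) (fun c _ c' _ hne hi => by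
        refine h (c.out⁻¹ * c'.out) (fun e => hne ?_) ((mem_classStab hM h2).1
          (inv_mul_mem_classStab hM h2 (hN c.out.2) (hN c'.out.2) hi)).2
        rw [← c.out_eq', ← c'.out_eq', QuotientGroup.eq]
        exact e) (fun c => ρ (c.out : Q) (u c)) (fun c _ => le_comp ⟨u c, (u c).2, rfl⟩)
      (hL u ▸ hu) c (Finset.mem_univ c)
    exact Subtype.ext (rho_injective ρ _ (this.trans (map_zero _).symm))
  have hr : LinearMap.range L = U := by
    refine le_antisymm ?_ ?_
    · rintro _ ⟨u, rfl⟩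
      rw [hL]
      exact Submodule.sum_mem _ fun c _ => hU.2.1 _ c.out.2 _ (h1 (u c).2)
    · rw [← (hU.2.2 (⨆ g : Q, U0.map (ρ g)) (iSup_le fun g => by
        rintro _ ⟨v, hv, rfl⟩; exact hU.2.1 _ g.2 _ (h1 hv)) (inv_iff_le_comap.2 fun u hu =>
          iSup_le fun g => by
            rintro _ ⟨v, hv, rfl⟩
            exact Submodule.mem_iSup_of_mem (⟨u, hu⟩ * g : Q) ⟨v, hv, rho_mul ρ _ _ _⟩)).resolve_left
        fun e => map_rho_ne_bot ((1 : Q) : G) h2.1 (le_bot_iff.1 (e ▸ le_iSup (fun g : Q => U0.map (ρ g)) 1))]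
      refine iSup_le fun g => ?_
      rintro _ ⟨v, hv, rfl⟩
      obtain ⟨m, hm⟩ := QuotientGroup.mk_out_eq_mul M0 g
      refine ⟨Pi.single (g : Q ⧸ M0) ⟨ρ ((m⁻¹ : M0) : Q) v, h2.2.1 _ ((hmem _).2 m⁻¹.2) v hv⟩, ?_⟩
      rw [hL, Finset.sum_eq_single (g : Q ⧸ M0) (fun c _ hc => by simp [hc]) (by simp),
        Pi.single_eq_same, hm, ← rho_mul]
      simp
  rw [← hr, LinearMap.finrank_range_of_inj hinj, Module.finrank_pi_fintype, Finset.sum_const,
    smul_eq_mul, Finset.card_univ, ← Nat.card_eq_fintype_card, ← M0.index_mul_card]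
  exact Nat.mul_dvd_mul_left _ (hcM ▸ ih' _ h2)

theorem avg_smulRight [IsAlgClosed F] [FiniteDimensional F V] [Fintype G] (σ : Representation F G V)
    [σ.IsIrreducible] (f : Module.Dual F V) (w : V) : ∃ c : F,
      c * finrank F V = Fintype.card G * f w ∧ ∀ v, ∑ u, f (σ u⁻¹ v) • σ u w = c • v := by
  obtain ⟨c, hc⟩ := exists_eq_smul_of_commute σ (∑ u, σ u * f.smulRight w * σ u⁻¹) fun g => by
    rw [Finset.sum_mul, Finset.mul_sum]
    refine Fintype.sum_equiv (Equiv.mulLeft g⁻¹) _ _ fun u => ?_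
    simp [mul_assoc, ← mul_assoc (σ g), ← map_mul]
  refine ⟨c, ?_, fun v => by simpa using LinearMap.congr_fun hc v⟩
  have := congrArg (LinearMap.trace F V) hc
  simp only [map_sum, map_smul, LinearMap.trace_one, smul_eq_mul] at this
  rw [← this, Finset.sum_congr rfl fun u _ => by
    rw [LinearMap.trace_mul_cycle, ← map_mul, inv_mul_cancel, map_one, one_mul,
      LinearMap.trace_smulRight]]
  simp

/-- Fourier inversion. -/
theorem fourier [IsAlgClosed F] [FiniteDimensional F V] [Fintype G] (σ : Representation F G V)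
    [σ.IsIrreducible] (φ : Module.End F V) :
    (finrank F V : F) • ∑ u, LinearMap.trace F V (σ u⁻¹ * φ) • σ u = (Fintype.card G : F) • φ := by
  classical
  let b := Module.finBasis F V
  ext w
  choose c hc1 hc2 using fun i => avg_smulRight σ (b.coord i) w
  simp only [LinearMap.trace_eq_matrix_trace F b, Matrix.trace, Matrix.diag, LinearMap.toMatrix_apply,
    LinearMap.smul_apply, LinearMap.sum_apply, Finset.sum_smul, Module.End.mul_apply]
  rw [Finset.sum_comm, Finset.smul_sum, ← b.sum_repr w, map_sum, Finset.smul_sum, b.sum_repr w]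
  refine Finset.sum_congr rfl fun i _ => ?_
  rw [show ∑ u, b.repr (σ u⁻¹ (φ (b i))) i • σ u w = _ from hc2 i (φ (b i)), smul_smul, mul_comm, hc1,
    map_smul, smul_smul]
  rfl

theorem finrank_cast_ne_zero' [IsAlgClosed F] [FiniteDimensional F V] [Fintype G]
    (σ : Representation F G V) [σ.IsIrreducible] (hG : (Fintype.card G : F) ≠ 0) :
    (finrank F V : F) ≠ 0 := fun h => by
  have := nontrivial_of_isIrreducible σ
  have h1 := fourier σ 1
  rw [h, zero_smul, eq_comm, smul_eq_zero] at h1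
  exact h1.elim hG one_ne_zero

theorem mul_finrank_range_pow_le [FiniteDimensional F V] (n : Module.End F V) {m : ℕ}
    (hn : n ^ (m + 1) = 0) : (m + 1) * finrank F (LinearMap.range (n ^ m)) ≤ finrank F V := by
  have key : ∀ k ≤ m + 1, finrank F (LinearMap.range (n ^ k)) +
      k * finrank F (LinearMap.range (n ^ m)) ≤ finrank F V := by
    intro k
    induction k with
    | zero => intro _; simpa using Submodule.finrank_le _
    | succ k ih =>
      intro hk
      have h1 := (n.domRestrict (LinearMap.range (n ^ k))).finrank_range_add_finrank_ker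
      rw [LinearMap.range_domRestrict, ← LinearMap.range_comp, ← Module.End.mul_eq_comp, ← pow_succ',
        ← Submodule.finrank_map_subtype_eq] at h1
      have h2 : finrank F (LinearMap.range (n ^ m)) ≤ _ := Submodule.finrank_mono
        (show _ ≤ (LinearMap.ker (n.domRestrict (LinearMap.range (n ^ k)))).map
          (LinearMap.range (n ^ k)).subtype by
        rintro _ ⟨v, rfl⟩
        refine ⟨⟨_, (n ^ (m - k)) v, ?_⟩, ?_, rfl⟩
        · rw [← Module.End.mul_apply, ← pow_add, Nat.add_sub_cancel' (by omega)]; rfl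
        · change n ((n ^ m) v) = 0
          rw [← Module.End.mul_apply, ← pow_succ', hn, LinearMap.zero_apply])
      have := ih (by omega)
      nlinarith
  exact le_trans (Nat.le_add_left _ _) (key _ le_rfl)

theorem geom_eq_pow {A : Type*} [Ring A] [Algebra F A] {p : ℕ} [Fact p.Prime] [CharP F p] (a : A)
    {n m : ℕ} (h : p ^ n = m + 1) : ∑ i ∈ Finset.range (m + 1), a ^ i = (a - 1) ^ m ∧
      (a - 1) ^ (m + 1) = a ^ (m + 1) - 1 := by
  have h1 : (X - 1 : F[X]) ^ (m + 1) = X ^ (m + 1) - 1 := by rw [← h, sub_pow_char_pow, one_pow]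
  have h2 : ∑ i ∈ Finset.range (m + 1), (X : F[X]) ^ i = (X - 1) ^ m :=
    mul_right_cancel₀ (X_sub_C_ne_zero 1) (by
      rw [C_1, geom_sum_mul, ← pow_succ, h1])
  exact ⟨by simpa using congrArg (aeval a) h2, by simpa using congrArg (aeval a) h1⟩

theorem sum_mem_of_cycles {X M : Type*} [Fintype X] [DecidableEq X] [AddCommGroup M] [Module F M]
    (π : Equiv.Perm X) {m : ℕ} (hm : π ^ (m + 1) = 1) (f : X → M) (R : Submodule F M)
    (h : ∀ u, ∑ y ∈ (Finset.range (m + 1)).image (fun i => (π ^ i) u), f y ∈ R) : ∑ u, f u ∈ R := by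
  classical
  rw [Finset.sum_partition (Equiv.Perm.SameCycle.setoid π)]
  refine R.sum_mem fun c _ => ?_
  obtain ⟨u, rfl⟩ := Quotient.exists_rep c
  convert h u using 2
  ext y
  simp only [Finset.mem_filter, Finset.mem_univ, true_and, Finset.mem_image, Finset.mem_range,
    Quotient.eq]
  refine ⟨fun e => ?_, ?_⟩
  · obtain ⟨i, hi, e⟩ := Equiv.Perm.SameCycle.exists_pow_eq' (Equiv.Perm.SameCycle.symm e)
    exact ⟨i, hi.trans_le (orderOf_le_of_pow_eq_one m.succ_pos hm), e⟩
  · rintro ⟨i, -, rfl⟩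
    exact Equiv.Perm.SameCycle.symm ⟨i, by simp⟩

/-- The commutant of a `p`-element acting semiregularly outside the scalars. -/
theorem mul_finrank_commutant_le_char [IsAlgClosed F] [FiniteDimensional F V] [Finite G] {p : ℕ}
    [Fact p.Prime] [CharP F p] (σ : Representation F G V) [σ.IsIrreducible]
    (hG : (Nat.card G : F) ≠ 0) (α : MulAut G) (T : (Module.End F V)ˣ)
    (hT : ∀ u, (T : Module.End F V) * σ u = σ (α u) * T) {n m : ℕ} (hm : p ^ n = m + 1) (hm0 : m ≠ 0)
    (hα : α ^ (m + 1) = 1) (hTm : T ^ (m + 1) = 1)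
    (hN : ∀ u ∉ scalars σ, ∀ k, 0 < k → k < m + 1 → (α ^ k) u ≠ u) :
    (m + 1) * finrank F (commutant (T : Module.End F V)) + 1 ≤ m + 1 + finrank F V ^ 2 := by
  classical
  have := Fintype.ofFinite G
  rw [Nat.card_eq_fintype_card] at hG
  refine Nat.succ_le_of_lt (lt_of_le_of_ne ?_ fun e => finrank_cast_ne_zero' σ hG ?_)
  swap
  · have h1 : m + 1 ∣ finrank F V ^ 2 := (Nat.dvd_add_right dvd_rfl).1 (e ▸ dvd_mul_right _ _)
    have h2 : p ∣ m + 1 := hm ▸ dvd_pow_self p (by rintro rfl; simp at hm; exact hm0 hm)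
    exact (CharP.cast_eq_zero_iff F p _).2 ((Fact.out : p.Prime).dvd_of_dvd_pow (h2.trans h1))
  let a : Module.End F (Module.End F V) :=
    LinearMap.mulLeft F (T : Module.End F V) ∘ₗ LinearMap.mulRight F (T⁻¹ : (Module.End F V)ˣ)
  have ha : ∀ φ, a φ = T * φ * (T⁻¹ : (Module.End F V)ˣ) := fun φ => (mul_assoc _ _ _).symm
  have hak : ∀ k φ, (a ^ k) φ = (T ^ k : (Module.End F V)ˣ) * φ * ((T ^ k)⁻¹ : (Module.End F V)ˣ) := by
    intro k
    induction k with
    | zero => simp
    | succ k ih =>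
      intro φ
      rw [pow_succ', Module.End.mul_apply, ih, ha, pow_succ', mul_inv_rev, Units.val_mul, Units.val_mul]
      simp only [mul_assoc]
  have haσ : ∀ u, a (σ u) = σ (α u) := fun u => by rw [ha, hT, Units.mul_inv_cancel_right]
  obtain ⟨g1, g2⟩ := geom_eq_pow (F := F) a hm
  have h0 : (a - 1) ^ (m + 1) = 0 := by
    rw [g2, sub_eq_zero]; ext1 φ; rw [hak, hTm]; simp
  have h1 := mul_finrank_range_pow_le _ h0
  have h2 : commutant (T : Module.End F V) ≤
      Submodule.span F {1} ⊔ LinearMap.range ((a - 1) ^ m) := fun φ hφ => by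
    refine (Submodule.smul_mem_iff _ hG).1 (fourier σ φ ▸ Submodule.smul_mem _ _ ?_)
    refine sum_mem_of_cycles (MulAut.toPerm G α) (by rw [← map_pow, hα, map_one]) _ _ fun u => ?_
    have e1 : ∀ k u, (MulAut.toPerm G α ^ k) u = (α ^ k) u := fun k u => by rw [← map_pow]; rfl
    have e2 : ∀ u, LinearMap.trace F V (σ (α u)⁻¹ * φ) = LinearMap.trace F V (σ u⁻¹ * φ) := fun u => by
      rw [← map_inv, ← haσ, ha, mul_assoc, mul_assoc, LinearMap.trace_mul_comm, mul_assoc, mul_assoc,
        ← mem_commutant.1 hφ, Units.inv_mul_cancel_left]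
    have e3 : ∀ k, LinearMap.trace F V (σ ((α ^ k) u)⁻¹ * φ) • σ ((α ^ k) u) =
        (a ^ k) (LinearMap.trace F V (σ u⁻¹ * φ) • σ u) ∧ ((α ^ k) u ∈ scalars σ ↔ u ∈ scalars σ) := by
      intro k
      induction k with
      | zero => simp
      | succ k ih =>
        rw [pow_succ', pow_succ', MulAut.mul_apply, Module.End.mul_apply, ← ih.1, map_smul, haσ, e2,
          map_scalars_of_intertwine σ α T hT]
        exact ⟨rfl, ih.2⟩
    by_cases hu : u ∈ scalars σ
    · refine Submodule.sum_mem _ fun y hy => Submodule.mem_sup_left (Submodule.smul_mem _ _ ?_)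
      obtain ⟨k, -, rfl⟩ := Finset.mem_image.1 hy
      obtain ⟨c, -, hc⟩ := (e3 k).2.2 hu
      rw [e1, hc]
      exact Submodule.smul_mem _ _ (Submodule.mem_span_singleton_self _)
    · have key : ∀ i j, i < j → j < m + 1 → (α ^ i) u ≠ (α ^ j) u := fun i j hij hj e =>
        hN u hu (j - i) (by omega) (by omega) ((α ^ i).injective (by
          rw [← MulAut.mul_apply, ← pow_add, Nat.add_sub_cancel' hij.le, e]))
      rw [Finset.sum_image fun i hi j hj e => by
        rw [e1, e1] at e
        rcases lt_trichotomy i j with h | h | h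
        · exact absurd e (key i j h (Finset.mem_range.1 hj))
        · exact h
        · exact absurd e.symm (key j i h (Finset.mem_range.1 hi))]
      refine Submodule.mem_sup_right ⟨LinearMap.trace F V (σ u⁻¹ * φ) • σ u, ?_⟩
      rw [← g1, LinearMap.sum_apply]
      exact Finset.sum_congr rfl fun k _ => by rw [e1, (e3 k).1]
  have h3 := (Submodule.finrank_mono h2).trans (Submodule.finrank_add_le_finrank_add_finrank _ _)
  have h4 : finrank F (Submodule.span F {(1 : Module.End F V)}) ≤ 1 := by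
    simpa using finrank_span_le_card (R := F) ({1} : Set (Module.End F V))
  rw [Module.finrank_linearMap, ← sq] at h1
  nlinarith

end CL.HH
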