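import Mathlib

/-! Frobenius' proof of Jordan's theorem: a finite group acting faithfully by isometries on an
`n`-dimensional complex inner product space has an abelian normal subgroup `A` with
`[H : H ∩ A] ≤ 12 ^ n` for all abelian subgroups `H`. -/

set_option autoImplicit false

open scoped InnerProductSpace

namespace CL.FGS.Jordan

variable {W : Type*} [NormedAddCommGroup W] [InnerProductSpace ℂ W]
variable {G : Type*} [Group G]

theorem mul_app (a b : W ≃ₗᵢ[ℂ] W) (v : W) : (a * b) v = a (b v) := rfl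

theorem inner_eq_zero_of_eigen (a : W ≃ₗᵢ[ℂ] W) {w u : W} {ν μ : ℂ} (hw : a w = ν • w)
    (hu : a u = μ • u) (h : ν ≠ μ) : ⟪w, u⟫_ℂ = 0 := by
  by_cases hw0 : w = 0
  · simp [hw0]
  have h1 : ‖ν‖ = 1 := by
    have := a.norm_map w
    rw [hw, norm_smul] at this
    exact mul_right_cancel₀ (norm_ne_zero_iff.2 hw0) (by rw [this, one_mul])
  have h2 := a.inner_map_map w u
  rw [hw, hu, inner_smul_left, inner_smul_right] at h2
  by_contra h3
  apply h
  have h4 : (starRingEnd ℂ) ν * μ = 1 := by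
    apply mul_right_cancel₀ h3
    rw [mul_assoc, h2, one_mul]
  have h5 : ν * (starRingEnd ℂ) ν = 1 := by
    rw [Complex.mul_conj, Complex.normSq_eq_norm_sq, h1]; simp
  calc ν = ν * ((starRingEnd ℂ) ν * μ) := by rw [h4, mul_one]
    _ = μ := by rw [← mul_assoc, h5, one_mul]

/-- The joint eigenspace of a family of group elements. -/
def wt (ρ : G →* (W ≃ₗᵢ[ℂ] W)) {ι : Type*} (x : ι → G) (χ : ι → ℂ) : Submodule ℂ W :=
  ⨅ i, Module.End.eigenspace ((ρ (x i)).toLinearEquiv : W →ₗ[ℂ] W) (χ i)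

theorem mem_wt {ρ : G →* (W ≃ₗᵢ[ℂ] W)} {ι : Type*} {x : ι → G} {χ : ι → ℂ} {v : W} :
    v ∈ wt ρ x χ ↔ ∀ i, ρ (x i) v = χ i • v := by
  simp [wt]

theorem iSup_wt [Finite G] [FiniteDimensional ℂ W] (ρ : G →* (W ≃ₗᵢ[ℂ] W)) {ι : Type*}
    (x : ι → G) (hx : ∀ i j, Commute (x i) (x j)) : ⨆ χ, wt ρ x χ = ⊤ := by
  let F : G →* Module.End ℂ W :=
    { toFun := fun g => ((ρ g).toLinearEquiv : W →ₗ[ℂ] W)
      map_one' := by ext; simp
      map_mul' := fun a b => by ext; simp }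
  have hss : ∀ g, (F g).IsSemisimple := by
    intro g
    refine Module.End.isSemisimple_of_squarefree_aeval_eq_zero
      (p := Polynomial.X ^ Nat.card G - Polynomial.C 1)
      (Polynomial.separable_X_pow_sub_C (1 : ℂ) (by exact_mod_cast Nat.card_pos.ne')
        one_ne_zero).squarefree ?_
    rw [map_sub, map_pow, Polynomial.aeval_X, ← map_pow, pow_card_eq_one', map_one]
    simp
  have := Module.End.iSup_iInf_maxGenEigenspace_eq_top_of_iSup_maxGenEigenspace_eq_top_of_commute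
    (fun i => F (x i)) (fun i j _ => (hx i j).map F)
    (fun i => Module.End.iSup_maxGenEigenspace_eq_top _)
  simp only [(hss _).isFinitelySemisimple.maxGenEigenspace_eq_eigenspace] at this
  exact this

theorem orthogonalFamily_wt (ρ : G →* (W ≃ₗᵢ[ℂ] W)) {ι : Type*} (x : ι → G) :
    OrthogonalFamily ℂ (fun χ : ι → ℂ => wt ρ x χ) (fun χ => (wt ρ x χ).subtypeₗᵢ) := by
  intro χ ψ h v w
  obtain ⟨i, hi⟩ := Function.ne_iff.1 h
  exact inner_eq_zero_of_eigen (ρ (x i)) (mem_wt.1 v.2 i) (mem_wt.1 w.2 i) hi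

/-- If `a` commutes with `b a b⁻¹` and `0` is not in the numerical range of `b`, then `a` and
`b` commute. -/
theorem commute_of_commute_conj [Finite G] [FiniteDimensional ℂ W] {ρ : G →* (W ≃ₗᵢ[ℂ] W)}
    (hρ : Function.Injective ρ) {a b : G} (hb : ∀ v : W, ⟪ρ b v, v⟫_ℂ = 0 → v = 0)
    (h : Commute a (b * a * b⁻¹)) : Commute a b := by
  have key : ρ a = ρ (b * a * b⁻¹) := by
    let x : Bool → G := fun t => if t then a else b * a * b⁻¹
    have htop := iSup_wt ρ x (by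
      intro i j
      cases i <;> cases j <;> simp only [x, if_true, Bool.false_eq_true, if_false]
      · exact Commute.refl _
      · exact h.symm
      · exact h
      · exact Commute.refl _)
    ext v
    have hv : v ∈ ⨆ χ, wt ρ x χ := htop ▸ Submodule.mem_top
    induction hv using Submodule.iSup_induction' with
    | mem χ w hw =>
      have h1 : ρ a w = χ true • w := mem_wt.1 hw true
      have h2 : ρ (b * a * b⁻¹) w = χ false • w := mem_wt.1 hw false
      by_cases e : χ true = χ false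
      · rw [h1, h2, e]
      · have h3 : ρ a (ρ b⁻¹ w) = χ false • ρ b⁻¹ w := by
          rw [← map_smul, ← h2, ← mul_app, ← mul_app,
            ← map_mul, ← map_mul]
          congr 2; group
        have h4 : ρ b (ρ b⁻¹ w) = w := by
          rw [← mul_app, ← map_mul]; simp
        have h5 := hb (ρ b⁻¹ w) (by rw [h4]; exact inner_eq_zero_of_eigen (ρ a) h1 h3 e)
        have h6 : w = 0 := by rw [← h4, h5, map_zero]
        simp [h6]
    | zero => simp
    | add v w _ _ hv hw => simp only [map_add, hv, hw]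
  have := hρ key
  rw [eq_mul_inv_iff_mul_eq] at this
  exact this

/-- `g` is within distance `< 1/2` of the scalar `√3 / 2`. -/
def Near (ρ : G →* (W ≃ₗᵢ[ℂ] W)) (g : G) : Prop :=
  ∃ c : ℝ, 0 ≤ c ∧ c < 1 / 2 ∧ ∀ v : W, ‖ρ g v - ((√3 / 2 : ℝ) : ℂ) • v‖ ≤ c * ‖v‖

theorem Near.conj {ρ : G →* (W ≃ₗᵢ[ℂ] W)} {g : G} (h : Near ρ g) (y : G) :
    Near ρ (y * g * y⁻¹) := by
  obtain ⟨c, h0, h1, h2⟩ := h
  refine ⟨c, h0, h1, fun v => ?_⟩
  have := h2 (ρ y⁻¹ v)
  rw [← (ρ y).norm_map, map_sub, map_smul, (ρ y⁻¹).norm_map] at this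
  simpa using this

theorem Near.inv {ρ : G →* (W ≃ₗᵢ[ℂ] W)} {g : G} (h : Near ρ g) : Near ρ g⁻¹ := by
  obtain ⟨c, h0, h1, h2⟩ := h
  refine ⟨c, h0, h1, fun v => ?_⟩
  refine le_of_eq_of_le ?_ (h2 v)
  rw [← (ρ g).norm_map, map_sub, map_smul]
  have e : ρ g (ρ g⁻¹ v) = v := by
    rw [← mul_app, ← map_mul]; simp
  rw [e, ← sq_eq_sq₀ (norm_nonneg _) (norm_nonneg _), @norm_sub_sq ℂ, @norm_sub_sq ℂ,
    inner_smul_right, inner_smul_right, norm_smul, norm_smul, (ρ g).norm_map]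
  simp only [RCLike.re_to_complex, Complex.re_ofReal_mul]
  rw [← inner_conj_symm, Complex.conj_re]

theorem Near.eq_zero {ρ : G →* (W ≃ₗᵢ[ℂ] W)} {g : G} (h : Near ρ g) (v : W)
    (hv : ⟪ρ g v, v⟫_ℂ = 0) : v = 0 := by
  obtain ⟨c, h0, h1, h2⟩ := h
  have h3 := pow_le_pow_left₀ (norm_nonneg _) (h2 v) 2
  rw [@norm_sub_sq ℂ, inner_smul_right, hv, (ρ g).norm_map] at h3
  simp only [mul_zero, map_zero, sub_zero] at h3
  by_contra h4
  have h5 : 0 < ‖v‖ := norm_pos_iff.2 h4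
  have h6 : c ^ 2 < 1 := by nlinarith
  nlinarith [sq_nonneg ‖((√3 / 2 : ℝ) : ℂ) • v‖, mul_pos h5 h5]

theorem Near.eq_zero_mul {ρ : G →* (W ≃ₗᵢ[ℂ] W)} {a b : G} (ha : Near ρ a) (hb : Near ρ b)
    (v : W) (hv : ⟪ρ (a * b) v, v⟫_ℂ = 0) : v = 0 := by
  obtain ⟨c, h0, h1, h2⟩ := ha.inv
  obtain ⟨d, k0, k1, k2⟩ := hb
  have e : ⟪ρ b v, ρ a⁻¹ v⟫_ℂ = 0 := by
    rw [← (ρ a).inner_map_map, ← hv]
    simp
  have h3 : ‖ρ b v - ρ a⁻¹ v‖ ≤ (d + c) * ‖v‖ := by
    have := norm_sub_le (ρ b v - ((√3 / 2 : ℝ) : ℂ) • v) (ρ a⁻¹ v - ((√3 / 2 : ℝ) : ℂ) • v)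
    rw [sub_sub_sub_cancel_right] at this
    nlinarith [h2 v, k2 v]
  have h4 := pow_le_pow_left₀ (norm_nonneg _) h3 2
  rw [@norm_sub_sq ℂ, e, (ρ b).norm_map, (ρ a⁻¹).norm_map] at h4
  simp only [map_zero, mul_zero, sub_zero] at h4
  by_contra h5
  have h6 : 0 < ‖v‖ := norm_pos_iff.2 h5
  have h7 : (d + c) ^ 2 < 1 := by nlinarith
  nlinarith [mul_pos h6 h6]

theorem Near.commute [Finite G] [FiniteDimensional ℂ W] {ρ : G →* (W ≃ₗᵢ[ℂ] W)}
    (hρ : Function.Injective ρ) {a : G} (ha : Near ρ a) (b : G)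
    (hb : ∀ v : W, ⟪ρ b v, v⟫_ℂ = 0 → v = 0) : Commute a b := by
  let T : G → (W →L[ℂ] W) := fun g => (ρ g).toContinuousLinearEquiv - ContinuousLinearMap.id ℂ W
  have hT : ∀ g v, T g v = ρ g v - v := fun g v => rfl
  let D : G → ℝ := fun g => ‖T g‖
  have hwf : WellFounded (fun x y : G => D x < D y) := by
    have : IsTrans G (fun x y : G => D x < D y) := ⟨fun _ _ _ => lt_trans⟩
    have : Std.Irrefl (fun x y : G => D x < D y) := ⟨fun _ => lt_irrefl _⟩
    exact Finite.wellFounded_of_trans_of_irrefl _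
  induction b using hwf.induction with
  | _ b ih =>
  by_cases hD : D b = 0
  · have : b = 1 := by
      apply hρ
      ext v
      have h1 : T b = 0 := norm_eq_zero.1 hD
      have := hT b v
      rw [h1] at this
      simpa using (sub_eq_zero.1 this.symm)
    rw [this]; exact Commute.one_right a
  have hDpos : 0 < D b := lt_of_le_of_ne (norm_nonneg _) (Ne.symm hD)
  obtain ⟨c, h0, h1, h2⟩ := ha
  have hlt : D (a * (b * a⁻¹ * b⁻¹)) < D b := by
    have : D (a * (b * a⁻¹ * b⁻¹)) ≤ 2 * c * D b := by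
      refine ContinuousLinearMap.opNorm_le_bound _ (by positivity) fun v => ?_
      set u := ρ (a⁻¹ * b⁻¹) v with hu
      have hn : ‖u‖ = ‖v‖ := (ρ _).norm_map v
      have e : T (a * (b * a⁻¹ * b⁻¹)) v = (ρ a (T b u) - ((√3 / 2 : ℝ) : ℂ) • T b u) -
          T b (ρ a u - ((√3 / 2 : ℝ) : ℂ) • u) := by
        simp only [hT, map_sub, map_smul, smul_sub, hu, map_mul, map_inv,
          mul_app]
        simp only [LinearIsometryEquiv.inv_def, LinearIsometryEquiv.apply_symm_apply]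
        abel
      rw [e]
      have e1 := h2 (T b u)
      have e2 := (T b).le_opNorm u
      have e3 := (T b).le_opNorm (ρ a u - ((√3 / 2 : ℝ) : ℂ) • u)
      have e4 := h2 u
      have e5 := norm_sub_le (ρ a (T b u) - ((√3 / 2 : ℝ) : ℂ) • T b u)
        (T b (ρ a u - ((√3 / 2 : ℝ) : ℂ) • u))
      rw [hn] at e2 e4
      have e6 := mul_le_mul_of_nonneg_left e2 h0
      have e7 := mul_le_mul_of_nonneg_left e4 hDpos.le
      change ‖T b‖ * _ ≤ ‖T b‖ * _ at e7
      change _ ≤ 2 * c * ‖T b‖ * ‖v‖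
      nlinarith
    nlinarith
  have ha : Near ρ a := ⟨c, h0, h1, h2⟩
  have h3 := ih _ hlt (ha.eq_zero_mul (ha.inv.conj b))
  refine commute_of_commute_conj hρ hb ?_
  have h4 : Commute a (b * a⁻¹ * b⁻¹) := by
    have := (Commute.refl a).inv_right.mul_right h3
    simpa using this
  have := h4.inv_right
  simpa [mul_assoc] using this

theorem exists_arc : ∃ f : ℂ → Fin 12, ∀ z w : ℂ, ‖z‖ = 1 → ‖w‖ = 1 → f z = f w →
    ‖z⁻¹ * w - ((√3 / 2 : ℝ) : ℂ)‖ < 1 / 2 := by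
  have hπ := Real.pi_pos
  have hb : ∀ z : ℂ, 1 ≤ ⌈(z.arg + Real.pi) / (Real.pi / 6)⌉₊ ∧
      ⌈(z.arg + Real.pi) / (Real.pi / 6)⌉₊ ≤ 12 := by
    intro z
    have h1 := Complex.neg_pi_lt_arg z
    have h2 := Complex.arg_le_pi z
    constructor
    · rw [Nat.one_le_ceil_iff]
      apply div_pos <;> linarith
    · rw [Nat.ceil_le, div_le_iff₀ (by linarith)]
      push_cast
      linarith
  refine ⟨fun z => ⟨⌈(z.arg + Real.pi) / (Real.pi / 6)⌉₊ - 1, by have := hb z; omega⟩, ?_⟩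
  intro z w hz hw h
  have h1 : ⌈(z.arg + Real.pi) / (Real.pi / 6)⌉₊ = ⌈(w.arg + Real.pi) / (Real.pi / 6)⌉₊ := by
    have := congrArg Fin.val h
    have := hb z
    have := hb w
    simp only at *
    omega
  have h2 : |w.arg - z.arg| < Real.pi / 6 := by
    have z0 : 0 ≤ (z.arg + Real.pi) / (Real.pi / 6) := by
      have := Complex.neg_pi_lt_arg z
      apply div_nonneg <;> linarith
    have w0 : 0 ≤ (w.arg + Real.pi) / (Real.pi / 6) := by
      have := Complex.neg_pi_lt_arg w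
      apply div_nonneg <;> linarith
    have a1 := Nat.le_ceil ((z.arg + Real.pi) / (Real.pi / 6))
    have a2 := Nat.ceil_lt_add_one z0
    have b1 := Nat.le_ceil ((w.arg + Real.pi) / (Real.pi / 6))
    have b2 := Nat.ceil_lt_add_one w0
    rw [h1] at a1 a2
    have c1 : (z.arg + Real.pi) / (Real.pi / 6) < (w.arg + Real.pi) / (Real.pi / 6) + 1 := by
      linarith
    have c2 : (w.arg + Real.pi) / (Real.pi / 6) < (z.arg + Real.pi) / (Real.pi / 6) + 1 := by
      linarith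
    rw [div_add_one (by linarith), div_lt_div_iff_of_pos_right (by linarith)] at c1 c2
    rw [abs_lt]
    constructor <;> linarith
  have h3 : z⁻¹ * w = Complex.exp (((w.arg - z.arg : ℝ) : ℂ) * Complex.I) := by
    have ez := Complex.norm_mul_exp_arg_mul_I z
    have ew := Complex.norm_mul_exp_arg_mul_I w
    rw [hz] at ez
    rw [hw] at ew
    simp only [Complex.ofReal_one, one_mul] at ez ew
    rw [Complex.ofReal_sub, sub_mul, Complex.exp_sub, ez, ew]
    field_simp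
  have h4 : √3 / 2 < Real.cos (w.arg - z.arg) := by
    rw [← Real.cos_pi_div_six, ← Real.cos_abs (w.arg - z.arg)]
    exact Real.cos_lt_cos_of_nonneg_of_le_pi (abs_nonneg _) (by linarith) h2
  rw [h3, ← sq_lt_sq₀ (norm_nonneg _) (by norm_num), Complex.sq_norm, Complex.normSq_apply]
  simp only [Complex.sub_re, Complex.exp_ofReal_mul_I_re, Complex.ofReal_re, Complex.sub_im,
    Complex.exp_ofReal_mul_I_im, Complex.ofReal_im, sub_zero]
  have h5 := Real.sin_sq_add_cos_sq (w.arg - z.arg)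
  have h6 : √3 ^ 2 = 3 := Real.sq_sqrt (by norm_num)
  have h7 : 0 < √3 := Real.sqrt_pos.2 (by norm_num)
  nlinarith

theorem near_of_wt [Finite G] [FiniteDimensional ℂ W] (ρ : G →* (W ≃ₗᵢ[ℂ] W)) {ι : Type*}
    (x : ι → G) (hx : ∀ i j, Commute (x i) (x j)) (i : ι)
    (h : ∀ χ, wt ρ x χ ≠ ⊥ → ‖χ i - ((√3 / 2 : ℝ) : ℂ)‖ < 1 / 2) : Near ρ (x i) := by
  classical
  have hfin : Finite {χ // wt ρ x χ ≠ ⊥} :=
    Submodule.finite_ne_bot_of_iSupIndep (orthogonalFamily_wt ρ x).independent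
  obtain ⟨c, h0, h1, h2⟩ : ∃ c : ℝ, 0 ≤ c ∧ c < 1 / 2 ∧
      ∀ χ, wt ρ x χ ≠ ⊥ → ‖χ i - ((√3 / 2 : ℝ) : ℂ)‖ ≤ c := by
    rcases isEmpty_or_nonempty {χ // wt ρ x χ ≠ ⊥} with he | he
    · exact ⟨0, le_rfl, by norm_num, fun χ hχ => (he.false ⟨χ, hχ⟩).elim⟩
    · obtain ⟨χ0, hχ0⟩ := Finite.exists_max
        (fun χ : {χ // wt ρ x χ ≠ ⊥} => ‖χ.1 i - ((√3 / 2 : ℝ) : ℂ)‖)
      exact ⟨_, norm_nonneg _, h _ χ0.2, fun χ hχ => hχ0 ⟨χ, hχ⟩⟩
  refine ⟨c, h0, h1, fun v => ?_⟩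
  have hv : v ∈ ⨆ χ, wt ρ x χ := iSup_wt ρ x hx ▸ Submodule.mem_top
  obtain ⟨f, hf, rfl⟩ := (Submodule.mem_iSup_iff_exists_finsupp _ _).1 hv
  have n1 := (orthogonalFamily_wt ρ x).norm_sum (fun χ => ⟨f χ, hf χ⟩) f.support
  have n2 := (orthogonalFamily_wt ρ x).norm_sum
    (fun χ => (χ i - ((√3 / 2 : ℝ) : ℂ)) • ⟨f χ, hf χ⟩) f.support
  have e : ρ (x i) (f.sum fun _ w => w) - ((√3 / 2 : ℝ) : ℂ) • (f.sum fun _ w => w) =
      ∑ χ ∈ f.support, (χ i - ((√3 / 2 : ℝ) : ℂ)) • f χ := by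
    rw [Finsupp.sum, map_sum, Finset.smul_sum, ← Finset.sum_sub_distrib]
    refine Finset.sum_congr rfl fun χ _ => ?_
    rw [mem_wt.1 (hf χ) i, sub_smul]
  rw [e, ← sq_le_sq₀ (norm_nonneg _) (by positivity), mul_pow]
  simp only [Submodule.coe_subtypeₗᵢ, Submodule.coe_subtype, SetLike.mk_smul_mk,
    Submodule.coe_norm] at n1 n2
  rw [n2, Finsupp.sum, n1, Finset.mul_sum]
  refine Finset.sum_le_sum fun χ hχ => ?_
  rw [norm_smul, mul_pow]
  refine mul_le_mul_of_nonneg_right (pow_le_pow_left₀ (norm_nonneg _) (h2 χ ?_) 2) (by positivity)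
  intro hb
  have := hf χ
  rw [hb, Submodule.mem_bot] at this
  exact Finsupp.mem_support_iff.1 hχ this

theorem exists_abelian_normal_of_isometry [Finite G] [FiniteDimensional ℂ W]
    {ρ : G →* (W ≃ₗᵢ[ℂ] W)} (hρ : Function.Injective ρ) :
    ∃ A : Subgroup G, A.Normal ∧ (∀ x ∈ A, ∀ y ∈ A, x * y = y * x) ∧
      ∀ H : Subgroup G, (∀ x ∈ H, ∀ y ∈ H, x * y = y * x) →
        (A.subgroupOf H).index ≤ 12 ^ Module.finrank ℂ W := by
  classical
  refine ⟨Subgroup.closure {g | Near ρ g}, ?_, ?_, ?_⟩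
  · refine ⟨fun n hn g => ?_⟩
    have : (Subgroup.closure {g | Near ρ g}).map (MulAut.conj g).toMonoidHom ≤
        Subgroup.closure {g | Near ρ g} := by
      rw [MonoidHom.map_closure]
      apply Subgroup.closure_mono
      rintro _ ⟨a, ha, rfl⟩
      exact Near.conj ha g
    exact this ⟨n, hn, rfl⟩
  · have := Subgroup.isMulCommutative_closure (k := {g | Near ρ g})
      (fun a ha b hb => (Near.commute hρ ha b hb.eq_zero).eq)
    intro x hx y hy
    exact setLike_mul_comm hx hy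
  · intro H hH
    let x : H → G := Subtype.val
    have hx : ∀ i j, Commute (x i) (x j) := fun i j => hH _ i.2 _ j.2
    have hind := (orthogonalFamily_wt ρ x).independent
    have hfin : Finite {χ // wt ρ x χ ≠ ⊥} := Submodule.finite_ne_bot_of_iSupIndep hind
    have := Fintype.ofFinite {χ // wt ρ x χ ≠ ⊥}
    have hcard := hind.subtype_ne_bot_le_finrank
    obtain ⟨f, hf⟩ := exists_arc
    let pat : H → ({χ // wt ρ x χ ≠ ⊥} → Fin 12) := fun h χ => f (χ.1 h)
    have hpat : ∀ a b : H, pat a = pat b →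
        a⁻¹ * b ∈ (Subgroup.closure {g | Near ρ g}).subgroupOf H := by
      intro a b hab
      refine Subgroup.subset_closure (near_of_wt ρ x hx (a⁻¹ * b) fun χ hχ => ?_)
      obtain ⟨w, hw, hw0⟩ := Submodule.exists_mem_ne_zero_of_ne_bot hχ
      have hn : ∀ h : H, ‖χ h‖ = 1 := by
        intro h
        have := (ρ (x h)).norm_map w
        rw [mem_wt.1 hw h, norm_smul] at this
        exact mul_right_cancel₀ (norm_ne_zero_iff.2 hw0) (by rw [this, one_mul])
      have hm : χ (a⁻¹ * b) = (χ a)⁻¹ * χ b := by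
        have ha0 : χ a ≠ 0 := by rw [← norm_ne_zero_iff, hn]; exact one_ne_zero
        have e1 : ρ (x a) (ρ (x (a⁻¹ * b)) w) = ρ (x b) w := by
          rw [← mul_app, ← map_mul]; simp [x]
        rw [mem_wt.1 hw, map_smul, mem_wt.1 hw, mem_wt.1 hw, smul_smul] at e1
        have := smul_left_injective ℂ hw0 e1
        rw [← this]; field_simp
      rw [hm]
      exact hf _ _ (hn a) (hn b) (congrFun hab ⟨χ, hχ⟩)
    calc _ ≤ Nat.card ({χ // wt ρ x χ ≠ ⊥} → Fin 12) := by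
          refine Nat.card_le_card_of_injective (fun q => pat (Quotient.out q)) ?_
          intro q r h
          rw [← Quotient.out_eq q, ← Quotient.out_eq r]
          exact QuotientGroup.eq.2 (hpat _ _ h)
      _ = 12 ^ Fintype.card {χ // wt ρ x χ ≠ ⊥} := by simp
      _ ≤ _ := Nat.pow_le_pow_right (by norm_num) hcard

/-- Unitarisation of a finite-dimensional complex representation of a finite group. -/
theorem exists_isometry_rep [Finite G] {m : ℕ} (ρ : Representation ℂ G (Fin m → ℂ)) :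
    ∃ (N : ℕ) (W : Submodule ℂ (EuclideanSpace ℂ (Fin N))) (e : (Fin m → ℂ) ≃ₗ[ℂ] W)
      (σ : G →* (W ≃ₗᵢ[ℂ] W)), ∀ g v, σ g (e v) = e (ρ g v) := by
  classical
  have := Fintype.ofFinite G
  let N := Fintype.card (G × Fin m)
  let t : Fin N ≃ G × Fin m := (Fintype.equivFin _).symm
  let ι : (Fin m → ℂ) →ₗ[ℂ] EuclideanSpace ℂ (Fin N) :=
    (WithLp.linearEquiv 2 ℂ (Fin N → ℂ)).symm.toLinearMap ∘ₗ
      LinearMap.pi fun k => LinearMap.proj (t k).2 ∘ₗ ρ (t k).1
  have hι : ∀ v k, ι v k = ρ (t k).1 v (t k).2 := fun v k => rfl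
  have hinj : Function.Injective ι := by
    rw [injective_iff_map_eq_zero]
    intro v hv
    ext i
    have := hι v (t.symm (1, i))
    rw [hv] at this
    simpa using this.symm
  let e := LinearEquiv.ofInjective ι hinj
  have hn : ∀ g v, ‖e (ρ g v)‖ = ‖e v‖ := by
    intro g v
    change ‖ι (ρ g v)‖ = ‖ι v‖
    rw [EuclideanSpace.norm_eq, EuclideanSpace.norm_eq]
    congr 1
    simp only [hι]
    rw [t.sum_comp (fun k => ‖ρ k.1 (ρ g v) k.2‖ ^ 2), t.sum_comp (fun k => ‖ρ k.1 v k.2‖ ^ 2)]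
    refine Fintype.sum_equiv ((Equiv.mulRight g).prodCongr (Equiv.refl _)) _ _ ?_
    intro k
    simp
  let σ0 : G → (LinearMap.range ι ≃ₗᵢ[ℂ] LinearMap.range ι) := fun g =>
    { toLinearEquiv := e.symm ≪≫ₗ LinearEquiv.ofLinearMap (ρ g) (ρ g⁻¹)
        (by rw [← Module.End.mul_eq_comp, ← map_mul]; simp; rfl)
        (by rw [← Module.End.mul_eq_comp, ← map_mul]; simp; rfl) ≪≫ₗ e
      norm_map' := by
        intro w
        obtain ⟨v, rfl⟩ := e.surjective w
        simpa using hn g v }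
  have hσ0 : ∀ g v, σ0 g (e v) = e (ρ g v) := by
    intro g v
    change e (ρ g (e.symm (e v))) = _
    rw [e.symm_apply_apply]
  refine ⟨N, _, e, MonoidHom.mk' σ0 ?_, hσ0⟩
  intro a b
  ext1 w
  obtain ⟨v, rfl⟩ := e.surjective w
  change _ = σ0 a (σ0 b (e v))
  rw [hσ0, hσ0, hσ0, map_mul, Module.End.mul_apply]

theorem exists_abelian_normal_of_rep [Finite G] {m : ℕ} (ρ : Representation ℂ G (Fin m → ℂ))
    (hρ : ∀ g, ρ g = 1 → g = 1) :
    ∃ A : Subgroup G, A.Normal ∧ (∀ x ∈ A, ∀ y ∈ A, x * y = y * x) ∧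
      ∀ H : Subgroup G, (∀ x ∈ H, ∀ y ∈ H, x * y = y * x) → (A.subgroupOf H).index ≤ 12 ^ m := by
  obtain ⟨N, W, e, σ, hσ⟩ := exists_isometry_rep ρ
  have hinj : Function.Injective σ := by
    rw [injective_iff_map_eq_one]
    intro g hg
    apply hρ
    refine LinearMap.ext fun v => ?_
    apply e.injective
    rw [← hσ, hg]
    rfl
  have := exists_abelian_normal_of_isometry (W := W) (ρ := σ) hinj
  rwa [← e.finrank_eq, Module.finrank_fin_fun] at this

end CL.FGS.Jordan
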