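/-
Kurzweil-Stellmacher 10.1: the `L`-lemma for `p`-solvable groups.
-/
import Cfsg.Agent.TECH.NClos
import Cfsg.Agent.PLOC.PFrattini
import Cfsg.Agent.SOLV.CoprimeGen
import Cfsg.Agent.SOLV.PSolvable

set_option autoImplicit false

namespace CL.MSS

open Cfsg Subgroup
open scoped commutatorElement

variable {G : Type*} [Group G] [Finite G]

/-- Wielandt's criterion, ambient form. -/
theorem exists_not_snIn_sup_cj {A L : Subgroup G} (hAL : A ≤ L) (h : ¬ CL.SnIn L A) :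
    ∃ g ∈ L, ¬ CL.SnIn (A ⊔ g •ᶜ A) A := by
  by_contra hc
  push Not at hc
  refine h (CL.SnIn.iff_subgroupOf.2 ⟨hAL, CL.isSubnormal_of_forall_sup_conj _ fun g => ?_⟩)
  have h1 := (hc g g.2).comap L.subtype
  rw [pointwise_smul_eq_cj, cj_subgroupOf]
  rwa [comap_subtype, comap_subtype, subgroupOf_sup hAL (cj_le_of_mem hAL g.2)] at h1

/-- A minimal overgroup in which `A` is not subnormal is generated by two conjugates. -/
theorem exists_two_gen_not_snIn {A X : Subgroup G} (hAX : A ≤ X) (h : ¬ CL.SnIn X A) :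
    ∃ g ∈ A ⊔ g •ᶜ A, A ⊔ g •ᶜ A ≤ X ∧ ¬ CL.SnIn (A ⊔ g •ᶜ A) A ∧
      ∀ K, A ≤ K → K < A ⊔ g •ᶜ A → CL.SnIn K A := by
  obtain ⟨L, ⟨h1, h2, h3⟩, hmin⟩ := exists_minimal_of_wellFoundedLT
    (fun L : Subgroup G => A ≤ L ∧ L ≤ X ∧ ¬ CL.SnIn L A) ⟨X, hAX, le_rfl, h⟩
  obtain ⟨g, hg, h4⟩ := exists_not_snIn_sup_cj h1 h3
  have h5 : A ⊔ g •ᶜ A ≤ L := sup_le h1 (cj_le_of_mem h1 hg)
  have h6 : A ⊔ g •ᶜ A = L := le_antisymm h5 (hmin ⟨le_sup_left, h5.trans h2, h4⟩ h5)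
  refine ⟨g, h6 ▸ hg, h6 ▸ h2, h4, fun K hK hlt => by_contra fun hc => ?_⟩
  rw [h6] at hlt
  exact hlt.not_ge (hmin ⟨hK, hlt.le.trans h2, hc⟩ hlt.le)

variable {p : ℕ} [hp : Fact p.Prime]

theorem exists_L_of_psolvable (hM : IsPSolvable p G) {A : Subgroup G} (hA : IsPGroup p A)
    (hΦ : (frattini A).map A.subtype ≤ pCore p G) (hnot : ¬ A ≤ pCore p G) :
    ∃ x ∈ presOf p (A ⊔ x •ᶜ A),
      presOf p (A ⊔ x •ᶜ A) ≤ (pPrimeCore p (G ⧸ pCore p G)).comap (QuotientGroup.mk' _) ∧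
      ⁅presOf p (A ⊔ x •ᶜ A), A⁆ = presOf p (A ⊔ x •ᶜ A) ∧
      (A ⊓ pCoreOf p (A ⊔ x •ᶜ A)).relIndex A = p ∧
      ⁅A ⊓ pCoreOf p (A ⊔ x •ᶜ A), A ⊔ x •ᶜ A⁆ ≤ pCore p G ∧
      ∀ K, A ≤ K → K < A ⊔ x •ᶜ A → CL.SnIn K A := by
  set O := pCore p G with hO
  set π := QuotientGroup.mk' O with hπ
  set Q := pPrimeCore p (G ⧸ O) with hQ
  obtain ⟨hc1, hc2⟩ := (CL.PG.frattini_map_subtype_le_iff hA).1 hΦ
  have hAb : IsMulCommutative (A.map π) := ⟨⟨fun a b => Subtype.ext (by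
    obtain ⟨_, a, ha, rfl⟩ := a
    obtain ⟨_, b, hb, rfl⟩ := b
    change π a * π b = π b * π a
    rw [← commutatorElement_eq_one_iff_mul_comm, ← map_commutatorElement]
    exact (QuotientGroup.eq_one_iff _).2 (hc1 (commutator_mem_commutator ha hb)))⟩⟩
  have hA1 : A.map π ≠ ⊥ := fun e => hnot ((CL.map_mk'_eq_bot_iff A O).1 e)
  have hAp : IsPGroup p (A.map π) := hA.map π
  have hcop : (Nat.card (A.map π)).Coprime (Nat.card Q) :=
    CL.coprime_card_of_isPGroup_of_coprime hAp (CL.coprime_card_pPrimeCore p _)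
  have hQn : ∀ H : Subgroup (G ⧸ O), H ≤ normalizer (Q : Set (G ⧸ O)) := fun H => by
    rw [normalizer_eq_top]; exact le_top
  obtain ⟨B, hBA, hBi, hB⟩ : ∃ B ≤ A.map π, B.relIndex (A.map π) = p ∧
      ¬ Q ⊓ centralizer (B : Set _) ≤ centralizer ((A.map π : Subgroup _) : Set _) := by
    by_contra hc
    push Not at hc
    have h1 := CL.coprime_le_of_forall_hyperplane (A.map π) Q _ hp.out (by
      rintro _ ⟨a, ha, rfl⟩
      rw [← map_pow]; exact (QuotientGroup.eq_one_iff _).2 (hc2 a ha)) hA1 (hQn _) hcop hc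
    have h2 := (le_centralizer_iff.1 h1).trans (CL.IsPSolvable.centralizer_pPrimeCore_le
      (CL.IsPSolvable.quotient hM O) (CL.pCore_quotient_pCore p G))
    exact hA1 (by
      rw [← inf_eq_left.2 h2]
      exact CL.inf_eq_bot_of_isPGroup_of_coprime hAp (CL.coprime_card_pPrimeCore p _))
  set D := Q ⊓ centralizer (B : Set (G ⧸ O)) with hD
  set X := (A.map π ⊔ D).comap π with hX
  have hAX : A ≤ X := map_le_iff_le_comap.1 le_sup_left
  have hXm : X.map π = A.map π ⊔ D :=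
    map_comap_eq_self_of_surjective (QuotientGroup.mk'_surjective O) _
  have hns : ¬ CL.SnIn X A := by
    intro h
    have h1 := snIn_le_oP (hXm ▸ h.map π) hAp
    refine hB (le_centralizer_iff.1 (commutator_eq_bot_iff_le_centralizer.1 (eq_bot_iff.2 ?_)))
    rw [← CL.inf_eq_bot_of_isPGroup_of_coprime (oP_isPGroup (A.map π ⊔ D))
      (CL.coprime_card_pPrimeCore p _)]
    refine le_inf ((commutator_mono h1 le_sup_right).trans
      (commutator_le_left_of_normalizes (oP_normal _))) ?_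
    exact (commutator_mono le_top inf_le_left).trans (commutator_le_right ⊤ Q)
  obtain ⟨g, hg, hLX, hnsL, hmin⟩ := exists_two_gen_not_snIn hAX hns
  have hncl : ncl A (A ⊔ g •ᶜ A) = A ⊔ g •ᶜ A :=
    le_antisymm (ncl_le_self le_sup_left) (sup_le (le_ncl _ _) (cj_le_ncl A hg))
  have hg' := hg
  rw [← sup_oU_of_ncl_eq (p := p) le_sup_left hncl, sup_comm] at hg'
  obtain ⟨y, hy, a, ha, hya⟩ := (CL.mem_sup_of_le_normalizer'
    (le_sup_left.trans (oU_normal (p := p) (A ⊔ g •ᶜ A)))).1 hg'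
  have hyg : y •ᶜ A = g •ᶜ A := by rw [← hya, cj_mul, cj_eq_of_mem ha]
  refine ⟨y, ?_⟩
  rw [hyg]
  generalize A ⊔ g •ᶜ A = L at *
  have hAL : A ≤ L := hncl ▸ le_ncl A L
  have hXB : X.map π ≤ centralizer (B : Set (G ⧸ O)) := by
    rw [hXm]
    exact sup_le (CL.le_centralizer_of_le_of_isMulCommutative hBA) inf_le_right
  have hcomm : ⁅B.comap π, L⁆ ≤ O := by
    rw [← CL.map_mk'_eq_bot_iff, map_commutator, commutator_eq_bot_iff_le_centralizer,
      map_comap_eq_self_of_surjective (QuotientGroup.mk'_surjective O), le_centralizer_iff]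
    exact (map_mono hLX).trans hXB
  have hBL : B.comap π ⊓ L ≤ pCoreOf p L := by
    refine le_oP (IsPGroup.to_inf_left ((hAp.to_le hBA).comap_of_ker_isPGroup π ?_)) inf_le_right
      (le_normalizer_inf ?_ le_normalizer)
    · rw [QuotientGroup.ker_mk']; exact oP_pCore_isPGroup
    · exact le_normalizer_iff_commutator_le_left.2 (hcomm.trans (CL.le_comap_mk' O B))
  have hi : (B.comap π ⊓ A).relIndex A = p := by rw [inf_relIndex_right, relIndex_comap, hBi]
  have hle : B.comap π ⊓ A ≤ A ⊓ pCoreOf p L :=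
    le_inf inf_le_right ((inf_le_inf_left _ hAL).trans hBL)
  have hmul := relIndex_mul_relIndex _ _ _ hle (inf_le_left : A ⊓ pCoreOf p L ≤ A)
  rw [hi] at hmul
  have hne : (A ⊓ pCoreOf p L).relIndex A ≠ 1 := fun e => hnsL (by
    have h1 : A ≤ pCoreOf p L := (relIndex_eq_one.1 e).trans inf_le_right
    exact (CL.SnIn.of_le_normalizer (oP_le L) (oP_normal L)).trans
      (CL.SnIn.of_isPGroup (oP_isPGroup L) h1))
  have hi2 : (A ⊓ pCoreOf p L).relIndex A = p :=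
    ((Nat.dvd_prime hp.out).1 (Dvd.intro_left _ hmul)).resolve_left hne
  rw [hi2] at hmul
  have hle2 : A ⊓ pCoreOf p L ≤ B.comap π :=
    (relIndex_eq_one.1 (Nat.eq_of_mul_eq_mul_right hp.out.pos (hmul.trans (one_mul p).symm))).trans
      inf_le_left
  refine ⟨hy, oU_le_of_le_sup hA (by rw [normalizer_eq_top]; exact le_top) (hLX.trans ?_),
    commutator_oU_of_ncl_eq hAL hA hncl, hi2, (commutator_mono hle2 le_rfl).trans hcomm, hmin⟩
  rw [hX, ← map_comap_eq_self_of_surjective (QuotientGroup.mk'_surjective O) D, ← Subgroup.map_sup,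
    CL.comap_map_mk']
  refine sup_le (sup_le le_sup_right (le_sup_of_le_left (comap_mono inf_le_left)))
    (le_sup_of_le_left (CL.le_comap_mk' O Q))

end CL.MSS
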