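import Mathlib

/-! Cancellation and the Krull–Remak–Schmidt theorem for finite groups. -/

open Subgroup

namespace CL.KS

universe u v w

instance finite_hom {X : Type w} {Y : Type v} [Group X] [Group Y] [Finite X] [Finite Y] :
    Finite (X →* Y) := Finite.of_injective _ DFunLike.coe_injective

/-- Homomorphisms with kernel `N` are injective homomorphisms from the quotient. -/
noncomputable def kerEquiv {X : Type w} [Group X] (N : Subgroup X) [N.Normal] (Y : Type v)
    [Group Y] : {f : X →* Y // f.ker = N} ≃ {g : X ⧸ N →* Y // g.ker = ⊥} where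
  toFun f := ⟨QuotientGroup.lift N f.1 f.2.ge, by
    rw [eq_bot_iff]
    intro x hx
    obtain ⟨x, rfl⟩ := QuotientGroup.mk_surjective x
    exact (QuotientGroup.eq_one_iff x).mpr (f.2.le hx)⟩
  invFun g := ⟨g.1.comp (QuotientGroup.mk' N), by
    rw [← MonoidHom.comap_ker, g.2, MonoidHom.comap_bot, QuotientGroup.ker_mk']⟩
  left_inv f := Subtype.ext (MonoidHom.ext fun _ => rfl)
  right_inv g := Subtype.ext (MonoidHom.ext fun x => by
    obtain ⟨x, rfl⟩ := QuotientGroup.mk_surjective x
    rfl)

theorem card_hom_eq_sum (X : Type w) (Y : Type v) [Group X] [Group Y] [Finite X] [Finite Y]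
    [Fintype (Subgroup X)] :
    Nat.card (X →* Y) = ∑ N : Subgroup X, Nat.card {f : X →* Y // f.ker = N} := by
  rw [← Nat.card_sigma, Nat.card_congr (Equiv.sigmaFiberEquiv fun f : X →* Y => f.ker)]

theorem card_inj_eq {C : Type u} {D : Type v} [Group C] [Group D] [Finite C] [Finite D]
    (h : ∀ (X : Type w) [Group X] [Finite X], Nat.card (X →* C) = Nat.card (X →* D)) (n : ℕ) :
    ∀ (X : Type w) [Group X] [Finite X], Nat.card X = n →
      Nat.card {f : X →* C // f.ker = ⊥} = Nat.card {f : X →* D // f.ker = ⊥} := by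
  induction n using Nat.strong_induction_on with
  | _ n ih =>
  intro X _ _ hn
  classical
  have := Fintype.ofFinite (Subgroup X)
  have h1 := h X
  rw [card_hom_eq_sum, card_hom_eq_sum, ← Finset.add_sum_erase _ _ (Finset.mem_univ ⊥),
    ← Finset.add_sum_erase _ _ (Finset.mem_univ ⊥)] at h1
  rw [Finset.sum_congr rfl (g := fun N => Nat.card {f : X →* D // f.ker = N})] at h1
  · exact Nat.add_right_cancel h1
  intro N hN
  by_cases hNn : N.Normal
  · rw [Nat.card_congr (kerEquiv N C), Nat.card_congr (kerEquiv N D)]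
    refine ih _ ?_ _ rfl
    rw [← hn, card_eq_card_quotient_mul_card_subgroup N]
    exact lt_mul_of_one_lt_right Nat.card_pos
      ((one_lt_card_iff_ne_bot N).mpr (Finset.ne_of_mem_erase hN))
  · have e1 : IsEmpty {f : X →* C // f.ker = N} := ⟨fun f => hNn (f.2 ▸ inferInstance)⟩
    have e2 : IsEmpty {f : X →* D // f.ker = N} := ⟨fun f => hNn (f.2 ▸ inferInstance)⟩
    simp

theorem card_hom_prod (X : Type w) (A : Type u) (C : Type v) [Group X] [Group A] [Group C] :
    Nat.card (X →* A × C) = Nat.card (X →* A) * Nat.card (X →* C) := by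
  rw [← Nat.card_prod]
  exact Nat.card_congr
    { toFun := fun f => ((MonoidHom.fst _ _).comp f, (MonoidHom.snd _ _).comp f)
      invFun := fun p => p.1.prod p.2
      left_inv := fun _ => rfl
      right_inv := fun _ => rfl }

theorem card_hom_congr (X : Type w) {A : Type u} {C : Type v} [Group X] [Group A] [Group C]
    (e : A ≃* C) : Nat.card (X →* A) = Nat.card (X →* C) :=
  Nat.card_congr
    { toFun := fun f => e.toMonoidHom.comp f
      invFun := fun f => e.symm.toMonoidHom.comp f
      left_inv := fun _ => MonoidHom.ext fun _ => e.symm_apply_apply _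
      right_inv := fun _ => MonoidHom.ext fun _ => e.apply_symm_apply _ }

theorem exists_injective {A : Type*} {C : Type u} {D : Type v} [Group A] [Group C] [Group D]
    [Finite A] [Finite C] [Finite D] (e : A × C ≃* A × D) :
    ∃ f : C →* D, Function.Injective f := by
  have h := card_inj_eq (C := C) (D := D) (fun (X : Type u) _ _ => by
    have h1 := card_hom_congr X e
    rw [card_hom_prod, card_hom_prod] at h1
    exact Nat.eq_of_mul_eq_mul_left Nat.card_pos h1) _ C rfl
  have : Nonempty {f : C →* C // f.ker = ⊥} := ⟨⟨MonoidHom.id C, MonoidHom.ker_id⟩⟩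
  obtain ⟨f, hf⟩ := (Nat.card_pos_iff.mp (h ▸ Nat.card_pos : 0 < Nat.card {f : C →* D // f.ker = ⊥})).1
  exact ⟨f, (MonoidHom.ker_eq_bot_iff f).mp hf⟩

/-- Cancellation for finite groups. -/
theorem cancel {A : Type*} {C : Type u} {D : Type v} [Group A] [Group C] [Group D]
    [Finite A] [Finite C] [Finite D] (e : A × C ≃* A × D) : Nonempty (C ≃* D) := by
  obtain ⟨f, hf⟩ := exists_injective e
  obtain ⟨g, hg⟩ := exists_injective e.symm
  exact ⟨MulEquiv.ofBijective f (hf.bijective_of_nat_card_le (Nat.card_le_card_of_injective g hg))⟩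

/-- Directly indecomposable. -/
def Indec (A : Type u) [Group A] : Prop :=
  ∀ H K : Subgroup A, H.Normal → K.Normal → H ⊓ K = ⊥ → H ⊔ K = ⊤ → H = ⊥ ∨ K = ⊥

theorem exists_idem {M : Type u} [Monoid M] [Finite M] (a : M) :
    ∃ n, 0 < n ∧ a ^ n * a ^ n = a ^ n := by
  obtain ⟨i, j, hij, h⟩ : ∃ i j : ℕ, i < j ∧ a ^ i = a ^ j := by
    obtain ⟨i, j, hne, h⟩ := Finite.exists_ne_map_eq_of_infinite fun n : ℕ => a ^ n
    rcases lt_or_gt_of_ne hne with h1 | h1
    · exact ⟨i, j, h1, h⟩
    · exact ⟨j, i, h1, h.symm⟩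
  obtain ⟨d, rfl⟩ := Nat.exists_eq_add_of_lt hij
  have h1 : ∀ k, a ^ (i + k * (d + 1)) = a ^ i := by
    intro k
    induction k with
    | zero => simp
    | succ k ih => rw [show i + (k + 1) * (d + 1) = (i + d + 1) + k * (d + 1) by ring, pow_add, ← h,
        ← pow_add, ih]
  refine ⟨(i + 1) * (d + 1), by positivity, ?_⟩
  have e : (i + 1) * (d + 1) = i + (i * d + d + 1) := by ring
  calc a ^ ((i + 1) * (d + 1)) * a ^ ((i + 1) * (d + 1))
      = a ^ (i + (i + 1) * (d + 1)) * a ^ (i * d + d + 1) := by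
        rw [← pow_add, ← pow_add]; congr 1; ring
    _ = _ := by rw [h1, ← pow_add, ← e]

theorem injective_of_fixed {A : Type u} [Group A] [Finite A] (hA : Indec A) (θ : A →* A)
    (hθ : ∀ a x, θ (a * x * a⁻¹) = a * θ x * a⁻¹) {x : A} (hx : x ≠ 1) (h : θ x = x) :
    Function.Injective θ := by
  let θ' : Monoid.End A := θ
  have : Finite (Monoid.End A) := finite_hom
  obtain ⟨n, hn, hid⟩ := exists_idem θ'
  have h1 : ∀ k a y, (θ' ^ k) (a * y * a⁻¹) = a * (θ' ^ k) y * a⁻¹ := by
    intro k a y
    induction k with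
    | zero => rfl
    | succ k ih =>
      rw [pow_succ']
      change θ ((θ' ^ k) _) = a * θ ((θ' ^ k) y) * a⁻¹
      rw [ih, hθ]
  have h2 : ∀ k, (θ' ^ k) x = x := by
    intro k
    induction k with
    | zero => rfl
    | succ k ih =>
      rw [pow_succ']
      change θ ((θ' ^ k) _) = x
      rw [ih, h]
  let ε : A →* A := θ' ^ n
  have hε : ∀ y, ε (ε y) = ε y := fun y => DFunLike.congr_fun hid y
  rcases hA ε.range ε.ker ⟨by
    rintro _ ⟨y, rfl⟩ g
    exact ⟨g * y * g⁻¹, h1 n g y⟩⟩ inferInstance (by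
    rw [eq_bot_iff]
    rintro _ ⟨⟨y, rfl⟩, hy⟩
    rw [mem_bot, ← hε]; exact hy) (by
    rw [eq_top_iff]
    intro y _
    rw [← mul_inv_cancel_left (ε y) y]
    exact mul_mem_sup ⟨y, rfl⟩ (by simp [MonoidHom.mem_ker, hε])) with h3 | h3
  · exact absurd (mem_bot.mp (h3 ▸ (⟨x, h2 n⟩ : x ∈ ε.range))) hx
  · rw [injective_iff_map_eq_one]
    intro y hy
    have : y ∈ ε.ker := by
      obtain ⟨k, rfl⟩ : ∃ k, n = k + 1 := ⟨n - 1, by omega⟩
      change (θ' ^ (k + 1)) y = 1
      rw [pow_succ]
      change (θ' ^ k) (θ y) = 1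
      rw [hy, map_one]
    rwa [h3, mem_bot] at this

theorem exchange {ι : Type w} [Fintype ι] {A C : Type u} {B : ι → Type v} [Group A] [Group C]
    [∀ j, Group (B j)] [Finite A] [Nontrivial A] (hA : Indec A) (hB : ∀ j, Indec (B j))
    (e : A × C ≃* ((j : ι) → B j)) : ∃ j, Nonempty (A ≃* B j) := by
  classical
  let pr : Finset ι → (((j : ι) → B j) →* ((j : ι) → B j)) := fun s =>
    MonoidHom.mk' (fun v j => if j ∈ s then v j else 1) (by
      intro a b; funext j; by_cases h : j ∈ s <;> simp [h])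
  have hpr : ∀ s v j, pr s v j = if j ∈ s then v j else 1 := fun _ _ _ => rfl
  let E : A →* ((j : ι) → B j) := e.toMonoidHom.comp (MonoidHom.inl A C)
  let R : ((j : ι) → B j) →* A := (MonoidHom.fst A C).comp e.symm.toMonoidHom
  have hRE : ∀ a, R (E a) = a := fun a => by simp [R, E]
  let ψ : Finset ι → (A →* A) := fun s => R.comp ((pr s).comp E)
  have hψ : ∀ s x, ψ s x = R (pr s (E x)) := fun _ _ => rfl
  have hnorm : ∀ s a x, ψ s (a * x * a⁻¹) = a * ψ s x * a⁻¹ := by
    intro s a x
    have : pr s (E (a * x * a⁻¹)) = E a * pr s (E x) * (E a)⁻¹ := by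
      funext j
      rw [map_mul E, map_mul E, map_inv E]
      by_cases h : j ∈ s <;> simp [hpr, h]
    rw [hψ, this, map_mul, map_mul, map_inv, hRE, hψ]
  have key : ∀ s : Finset ι, Function.Injective (ψ s) → ∃ j, Function.Injective (ψ {j}) := by
    intro s
    induction s using Finset.induction_on with
    | empty =>
      intro h
      obtain ⟨x, hx⟩ := exists_ne (1 : A)
      refine absurd (h ?_) hx
      have : pr ∅ (E x) = 1 := funext fun j => by simp [hpr]
      rw [hψ, this, map_one, map_one]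
    | insert j s hj ih =>
      intro h
      by_cases h1 : Function.Injective (ψ s)
      · exact ih h1
      refine ⟨j, ?_⟩
      let σ := MulEquiv.ofBijective _ (Finite.injective_iff_bijective.mp h)
      have hσ : ∀ x, σ x = ψ {j} x * ψ s x := by
        intro x
        change ψ (insert j s) x = _
        rw [hψ, hψ, hψ, ← map_mul]
        congr 1
        funext k
        by_cases a : k = j
        · subst a; simp [hpr, hj]
        · simp [hpr, a]
      rw [injective_iff_map_eq_one] at h1
      push Not at h1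
      obtain ⟨x, hx1, hx⟩ := h1
      have h2 := injective_of_fixed hA (σ.symm.toMonoidHom.comp (ψ {j})) (fun a y => by
        apply σ.injective
        change σ (σ.symm _) = ψ (insert j s) (a * σ.symm _ * a⁻¹)
        rw [hnorm, hnorm, σ.apply_symm_apply]
        change _ = a * σ (σ.symm _) * a⁻¹
        rw [σ.apply_symm_apply]) hx (by
        apply σ.injective
        change σ (σ.symm _) = _
        rw [σ.apply_symm_apply, hσ, hx1, mul_one])
      exact Function.Injective.of_comp (f := σ.symm) h2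
  obtain ⟨j, hj⟩ := key Finset.univ (by
    intro x y hxy
    have : ∀ v, pr Finset.univ v = v := fun v => funext fun j => by simp [hpr]
    rwa [hψ, hψ, this, this, hRE, hRE] at hxy)
  refine ⟨j, ?_⟩
  let f : A →* B j := (Pi.evalMonoidHom B j).comp E
  let g : B j →* A := R.comp (MonoidHom.mulSingle B j)
  have hgf : ∀ x, g (f x) = ψ {j} x := by
    intro x
    change R (Pi.mulSingle j (E x j)) = R _
    congr 1
    funext k
    by_cases a : k = j
    · subst a; simp [hpr]
    · simp [hpr, a]
  have hf : Function.Injective f := fun x y h => hj (by rw [← hgf, ← hgf, h])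
  have hsup : f.range ⊔ g.ker = ⊤ := by
    rw [eq_top_iff]
    intro y _
    obtain ⟨x, hx⟩ := (Finite.injective_iff_surjective.mp hj) (g y)
    rw [← mul_inv_cancel_left (f x) y]
    exact mul_mem_sup ⟨x, rfl⟩ (by simp [MonoidHom.mem_ker, hgf, hx])
  have hn : f.range.Normal := by
    have h1 : (MonoidHom.inl A C).range.Normal := ⟨by
      rintro _ ⟨x, rfl⟩ g
      exact ⟨g.1 * x * g.1⁻¹, by ext <;> simp⟩⟩
    have h2 := h1.map ((Pi.evalMonoidHom B j).comp e.toMonoidHom)
      ((Function.surjective_eval j).comp e.surjective)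
    rwa [← MonoidHom.range_comp] at h2
  rcases hB j f.range g.ker hn inferInstance (by
    rw [eq_bot_iff]
    rintro _ ⟨⟨x, rfl⟩, hx⟩
    have : ψ {j} x = ψ {j} 1 := by rw [← hgf, map_one]; exact hx
    rw [hj this, map_one]; exact one_mem _) hsup with h | h
  · obtain ⟨x, hx⟩ := exists_ne (1 : A)
    exact absurd (hf ((mem_bot.mp (h ▸ (⟨x, rfl⟩ : f x ∈ f.range))).trans (map_one f).symm)) hx
  · rw [h, sup_bot_eq, MonoidHom.range_eq_top] at hsup
    exact ⟨MulEquiv.ofBijective f ⟨hf, hsup⟩⟩

/-- Splitting off one factor of a finite product. -/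
def piSplit {n : ℕ} (B : Fin (n + 1) → Type v) [∀ j, Group (B j)] (j : Fin (n + 1)) :
    ((k : Fin (n + 1)) → B k) ≃* B j × ((k : Fin n) → B (j.succAbove k)) :=
  { (Fin.insertNthEquiv B j).symm with map_mul' := fun _ _ => rfl }

theorem krull_schmidt (m : ℕ) : ∀ {n : ℕ} {A : Fin m → Type u} {B : Fin n → Type v}
    [∀ i, Group (A i)] [∀ j, Group (B j)] [∀ i, Finite (A i)] [∀ j, Finite (B j)],
    (∀ i, Nontrivial (A i) ∧ Indec (A i)) → (∀ j, Nontrivial (B j) ∧ Indec (B j)) →
    (((i : Fin m) → A i) ≃* ((j : Fin n) → B j)) →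
    ∃ σ : Fin m ≃ Fin n, ∀ i, Nonempty (A i ≃* B (σ i)) := by
  induction m with
  | zero =>
    intro n A B _ _ _ _ _ hB e
    rcases n with _ | n
    · exact ⟨Equiv.refl _, fun i => i.elim0⟩
    · have := (hB 0).1
      obtain ⟨x, hx⟩ := exists_ne (1 : B 0)
      have h1 : Subsingleton ((j : Fin (n + 1)) → B j) := e.symm.injective.subsingleton
      exact absurd (by simpa using congrFun (h1.elim (Pi.mulSingle 0 x) 1) 0) hx
  | succ m ih =>
    intro n A B _ _ _ _ hA hB e
    have := (hA 0).1
    obtain ⟨j, ⟨φ⟩⟩ := exchange (hA 0).2 (fun j => (hB j).2) ((piSplit A 0).symm.trans e)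
    rcases n with _ | n
    · exact j.elim0
    obtain ⟨e'⟩ := cancel (((piSplit A 0).symm.trans e).trans ((piSplit B j).trans
      (MulEquiv.prodCongr φ.symm (MulEquiv.refl _))))
    obtain ⟨σ, hσ⟩ := ih (fun i => hA _) (fun k => hB _) e'
    refine ⟨(finSuccEquiv' 0).trans ((Equiv.optionCongr σ).trans (finSuccEquiv' j).symm), fun i => ?_⟩
    refine Fin.succAboveCases 0 ?_ (fun i => ?_) i
    · have : ((finSuccEquiv' 0).trans ((Equiv.optionCongr σ).trans (finSuccEquiv' j).symm)) 0 = j := by
        simp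
      rw [this]; exact ⟨φ⟩
    · have : ((finSuccEquiv' 0).trans ((Equiv.optionCongr σ).trans (finSuccEquiv' j).symm))
          ((0 : Fin (m + 1)).succAbove i) = j.succAbove (σ i) := by
        rw [Equiv.trans_apply, finSuccEquiv'_succAbove]; simp
      rw [this]; exact hσ i

end CL.KS
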