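import Mathlib
import Cfsg.Agent.FGS.ClassCount

/-! Landau's theorem: the order of a finite group is bounded in terms of its class number. -/

set_option autoImplicit false

namespace CL.FGS

universe u

theorem landau_multiset (k : ℕ) : ∀ r : ℚ, ∃ B : ℕ, ∀ s : Multiset ℕ, s.card = k →
    (∀ n ∈ s, 0 < n) → (s.map (fun n : ℕ => (1 : ℚ) / n)).sum = r → ∀ n ∈ s, n ≤ B := by
  induction k with
  | zero =>
    intro r
    refine ⟨0, fun s hs _ _ n hn => ?_⟩
    rw [Multiset.card_eq_zero.1 hs] at hn
    simp at hn
  | succ k ih =>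
    intro r
    choose B hB using ih
    set c := ⌈((k : ℚ) + 1) / r⌉₊ with hc
    refine ⟨max c ((Finset.range (c + 1)).sup fun m => B (r - 1 / m)), ?_⟩
    intro s hs hpos hsum
    have hne : s.toFinset.Nonempty := by
      rw [Multiset.toFinset_nonempty]
      rintro rfl
      simp at hs
    obtain ⟨m, hms, hmin⟩ : ∃ m ∈ s, ∀ n ∈ s, m ≤ n :=
      ⟨s.toFinset.min' hne, Multiset.mem_toFinset.1 (Finset.min'_mem _ _),
        fun n hn => Finset.min'_le _ _ (Multiset.mem_toFinset.2 hn)⟩
    have hm0 : (0 : ℚ) < m := by exact_mod_cast hpos m hms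
    have hle : r ≤ (k + 1) / m := by
      rw [← hsum]
      have := Multiset.sum_le_card_nsmul (s.map (fun n : ℕ => (1 : ℚ) / n)) (1 / m) (by
        intro x hx
        obtain ⟨n, hn, rfl⟩ := Multiset.mem_map.1 hx
        exact one_div_le_one_div_of_le hm0 (by exact_mod_cast hmin n hn))
      rw [Multiset.card_map, hs] at this
      simpa [div_eq_mul_inv] using this
    obtain ⟨t, rfl⟩ := Multiset.exists_cons_of_mem hms
    have ht : (t.map (fun n : ℕ => (1 : ℚ) / n)).sum = r - 1 / m := by
      rw [← hsum]; simp
    have hr : 0 < r := by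
      have : 0 ≤ (t.map (fun n : ℕ => (1 : ℚ) / n)).sum := by
        apply Multiset.sum_nonneg
        intro x hx
        obtain ⟨n, -, rfl⟩ := Multiset.mem_map.1 hx
        positivity
      have : 0 < 1 / (m : ℚ) := by positivity
      linarith
    have hmc : m ≤ c := by
      have : (m : ℚ) ≤ (k + 1) / r := by
        rw [le_div_iff₀ hr]
        rw [le_div_iff₀ hm0] at hle
        linarith
      have h2 : (m : ℚ) ≤ (c : ℚ) := this.trans (Nat.le_ceil _)
      exact_mod_cast h2
    intro n hn
    rcases Multiset.mem_cons.1 hn with rfl | hn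
    · exact hmc.trans (le_max_left _ _)
    · have := hB (r - 1 / m) t (by simpa using hs)
        (fun n hn => hpos n (Multiset.mem_cons_of_mem hn)) ht n hn
      refine this.trans (le_trans ?_ (le_max_right _ _))
      exact Finset.le_sup (f := fun m : ℕ => B (r - 1 / m)) (Finset.mem_range.2 (by omega))

/-- **Landau**. -/
theorem exists_card_le_of_card_conjClasses_le (k : ℕ) : ∃ N : ℕ, ∀ (G : Type u) [Group G] [Finite G],
    Nat.card (ConjClasses G) ≤ k → Nat.card G ≤ N := by
  classical
  choose B hB using fun k => landau_multiset k 1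
  refine ⟨(Finset.range (k + 1)).sup B, fun G _ _ hk => ?_⟩
  have := Fintype.ofFinite G
  let f : ConjClasses G → ℕ := fun C => Nat.card (Subgroup.centralizer ({Quotient.out C} : Set G))
  have hf : ∀ C : ConjClasses G, f C * C.carrier.ncard = Nat.card G := by
    intro C
    have : C = ConjClasses.mk (Quotient.out C) := (Quotient.out_eq C).symm
    conv_lhs => rw [this, CL.ncard_carrier_eq_index, ← this]
    exact Subgroup.card_mul_index _
  have hG : (0 : ℚ) < Nat.card G := by exact_mod_cast Nat.card_pos
  have hsum : ((Finset.univ.val.map f).map (fun n : ℕ => (1 : ℚ) / n)).sum = 1 := by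
    rw [Multiset.map_map]
    change ∑ C : ConjClasses G, (1 : ℚ) / f C = 1
    have h1 : ∀ C : ConjClasses G, (1 : ℚ) / f C = (C.carrier.toFinset.card : ℚ) / Nat.card G := by
      intro C
      have hp : (0 : ℚ) < f C := by exact_mod_cast Nat.card_pos
      rw [div_eq_div_iff hp.ne' hG.ne', ← hf C, Set.ncard_eq_toFinset_card']
      push_cast; ring
    simp only [h1]
    rw [← Finset.sum_div, ← Nat.cast_sum, sum_conjClasses_card_eq_card, Nat.card_eq_fintype_card]
    exact div_self (by exact_mod_cast Fintype.card_pos.ne')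
  have h1 := hB _ _ rfl (by
    intro n hn
    obtain ⟨C, -, rfl⟩ := Multiset.mem_map.1 hn
    exact Nat.card_pos) hsum (f (ConjClasses.mk 1)) (Multiset.mem_map_of_mem _ (Finset.mem_univ _))
  have h2 : f (ConjClasses.mk 1) = Nat.card G := by
    have := hf (ConjClasses.mk 1)
    rw [CL.ncard_carrier_eq_index] at this
    have e : Subgroup.centralizer ({1} : Set G) = ⊤ := by
      rw [eq_top_iff]; intro x _; simp [Subgroup.mem_centralizer_iff]
    rwa [e, Subgroup.index_top, mul_one] at this
  rw [h2] at h1
  refine h1.trans (Finset.le_sup (f := B) (Finset.mem_range.2 ?_))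
  rw [Multiset.card_map, Finset.card_val, Finset.card_univ, ← Nat.card_eq_fintype_card]
  omega

end CL.FGS
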