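import Mathlib
import Cfsg.Agent.SOLV.OddOrderCor
import Cfsg.Agent.SOLV.Coprime
import Cfsg.Agent.TECH.Conj

/-!
Lower `π`-series of subgroups and two-generated subgroups of maximal `π`-length.
-/

set_option autoImplicit false
open Subgroup Cfsg CL.MSS
open scoped commutatorElement

namespace CL.Low

variable {G G' : Type*} [Group G] [Group G'] {π : Set ℕ}

theorem isPiNum_card_of_forall {H : Subgroup G} [Finite H]
    (h : ∀ x ∈ H, IsPiNum π (orderOf x)) : IsPiNum π (Nat.card H) := fun q hq hd => by
  have := Fact.mk hq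
  obtain ⟨x, hx⟩ := exists_prime_orderOf_dvd_card' q hd
  exact h x x.2 q hq (by rw [orderOf_coe, hx])

theorem isPiNum_orderOf_of_pow {x : G} {n : ℕ} (hn : IsPiNum π n) (h : x ^ n = 1) :
    IsPiNum π (orderOf x) := hn.of_dvd (orderOf_dvd_of_pow_eq_one h)

theorem isPiNum_orderOf_conj {x : G} (g : G) (h : IsPiNum π (orderOf x)) :
    IsPiNum π (orderOf (g * x * g⁻¹)) :=
  isPiNum_orderOf_of_pow h (by rw [conj_pow, pow_orderOf_eq_one]; simp)

/-- An element whose products with `π`-elements are `π`-elements lies in `O_π(G)`. -/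
theorem mem_piCore_of_mul [Finite G] {d : G}
    (h : ∀ g : G, IsPiNum π (orderOf g) → IsPiNum π (orderOf (d * g))) : d ∈ piCore π G := by
  let S : Submonoid G :=
    { carrier := {e | ∀ g : G, IsPiNum π (orderOf g) → IsPiNum π (orderOf (e * g))}
      mul_mem' := fun {a b} ha hb g hg => by rw [mul_assoc]; exact ha _ (hb g hg)
      one_mem' := fun g hg => by simpa using hg }
  let D : Subgroup G :=
    { S with
      inv_mem' := fun {a} ha => by
        have : a⁻¹ = a ^ (orderOf a - 1) := by
          rw [eq_comm, ← mul_eq_one_iff_eq_inv, ← pow_succ,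
            Nat.sub_add_cancel (orderOf_pos a), pow_orderOf_eq_one]
        rw [this]
        exact S.pow_mem ha _ }
  have hn : D.Normal := by
    refine ⟨fun e he y g hg => ?_⟩
    have h1 := isPiNum_orderOf_conj y (he _ (isPiNum_orderOf_conj y⁻¹ hg))
    convert h1 using 2
    group
  refine le_piCore (N := D) (isPiNum_card_of_forall fun x hx => ?_) h
  simpa using hx 1 (by simpa using IsPiNum.one π)

/-- An element lying in `O_π(H)` for subgroups `H` covering the group lies in `O_π(G)`. -/
theorem mem_piCore_of_forall [Finite G] {d : G}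
    (h : ∀ g : G, ∃ H : Subgroup G, g ∈ H ∧ d ∈ (piCore π H).map H.subtype) :
    d ∈ piCore π G := by
  refine mem_piCore_of_mul fun g hg => ?_
  obtain ⟨H, hgH, e, he, rfl⟩ := h g
  have h1 : (e * ⟨g, hgH⟩) ^ orderOf g ∈ piCore π H := by
    rw [← QuotientGroup.eq_one_iff, QuotientGroup.mk_pow, QuotientGroup.mk_mul,
      (QuotientGroup.eq_one_iff e).2 he, one_mul, ← QuotientGroup.mk_pow]
    rw [show (⟨g, hgH⟩ : H) ^ orderOf g = 1 from Subtype.ext (pow_orderOf_eq_one g)]
    rfl
  refine isPiNum_orderOf_of_pow (hg.mul (isPiNum_card_piCore π H)) ?_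
  rw [pow_mul]
  exact congrArg Subtype.val (congrArg Subtype.val
    (pow_card_eq_one' (x := (⟨_, h1⟩ : piCore π H))))

/-- The subgroup generated by the `π`-elements of `X`. -/
def gen (π : Set ℕ) (X : Subgroup G) : Subgroup G :=
  closure {x | x ∈ X ∧ IsPiNum π (orderOf x)}

theorem gen_le (X : Subgroup G) : gen π X ≤ X := (closure_le _).2 fun _ h => h.1

theorem gen_mono {X Y : Subgroup G} (h : X ≤ Y) : gen π X ≤ gen π Y :=
  closure_mono fun _ hx => ⟨h hx.1, hx.2⟩

theorem gen_eq_bot_iff {X : Subgroup G} [Finite X] : gen π X = ⊥ ↔ IsPiNum πᶜ (Nat.card X) := by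
  refine ⟨fun h q hq hd hπ => ?_, fun h => eq_bot_iff.2 ((closure_le _).2 fun x hx => ?_)⟩
  · have := Fact.mk hq
    obtain ⟨x, hx⟩ := exists_prime_orderOf_dvd_card' q hd
    rw [← orderOf_coe] at hx
    have h1 : (x : G) ∈ gen π X := subset_closure ⟨x.2, by
      rw [hx]; simpa using isPiNum_of_mem hq hπ 1⟩
    rw [h, mem_bot] at h1
    rw [h1, orderOf_one] at hx
    exact hq.one_lt.ne hx
  · exact orderOf_eq_one_iff.1 (hx.2.eq_one (h.of_dvd (orderOf_dvd_natCard X hx.1)))

theorem map_gen [Finite G] (f : G →* G') (X : Subgroup G) :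
    (gen π X).map f = gen π (X.map f) := by
  refine le_antisymm (map_le_iff_le_comap.2 ((closure_le _).2 fun x hx => subset_closure
    ⟨mem_map_of_mem f hx.1, hx.2.of_dvd (orderOf_map_dvd f x)⟩)) ((closure_le _).2 ?_)
  rintro _ ⟨⟨x, hx, rfl⟩, h⟩
  obtain ⟨a, b, e, ha, hb⟩ := exists_pi_mul_pi_compl π (orderOf_pos x).ne'
  have h1 : f x ^ b ∈ (gen π X).map f := ⟨x ^ b, subset_closure ⟨pow_mem hx _,
    isPiNum_orderOf_of_pow ha (by rw [← pow_mul, mul_comm, ← e, pow_orderOf_eq_one])⟩, map_pow _ _ _⟩
  exact zpowers_le.2 h1 (mem_zpowers_pow_iff.2 (h.coprime hb).symm)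

theorem gen_le_of_index {X : Subgroup G} [Finite X] {N : Subgroup X} [N.Normal]
    (h : IsPiNum πᶜ N.index) : gen π X ≤ N.map X.subtype := by
  refine (closure_le _).2 fun x hx => ⟨⟨x, hx.1⟩, ?_, rfl⟩
  rw [SetLike.mem_coe, ← QuotientGroup.eq_one_iff, ← orderOf_eq_one_iff]
  refine IsPiNum.eq_one (π := π) (hx.2.of_dvd ?_) (h.of_dvd (orderOf_dvd_natCard _))
  exact (orderOf_map_dvd (QuotientGroup.mk' N) ⟨x, hx.1⟩).trans (orderOf_mk _ _).dvd

/-- `π` for even `n` and its complement for odd `n`. -/
def alt (π : Set ℕ) : ℕ → Set ℕ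
  | 0 => π
  | n + 1 => (alt π n)ᶜ

theorem alt_eq (π : Set ℕ) (n : ℕ) : alt π n = π ∨ alt π n = πᶜ := by
  induction n with
  | zero => exact Or.inl rfl
  | succ n ih => rcases ih with e | e <;> simp [alt, e]

/-- The lower `π`-series. -/
def low (π : Set ℕ) : ℕ → Subgroup G → Subgroup G
  | 0, X => X
  | n + 1, X => gen (alt π n) (low π n X)

theorem low_le (n : ℕ) (X : Subgroup G) : low π n X ≤ X := by
  induction n with
  | zero => exact le_rfl
  | succ n ih => exact (gen_le _).trans ih

theorem low_mono (n : ℕ) {X Y : Subgroup G} (h : X ≤ Y) : low π n X ≤ low π n Y := by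
  induction n with
  | zero => exact h
  | succ n ih => exact gen_mono ih

theorem low_anti {m n : ℕ} (h : m ≤ n) (X : Subgroup G) : low π n X ≤ low π m X := by
  induction h with
  | refl => exact le_rfl
  | step _ ih => exact (gen_le _).trans ih

theorem map_low [Finite G] (f : G →* G') (n : ℕ) (X : Subgroup G) :
    (low π n X).map f = low π n (X.map f) := by
  induction n with
  | zero => rfl
  | succ n ih => rw [low, map_gen, ih, low]

theorem le_normalizer_low [Finite G] (n : ℕ) (X : Subgroup G) :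
    X ≤ normalizer (low π n X : Set G) := fun x hx => by
  rw [mem_normalizer_iff_cj, map_low, cj_eq_of_mem hx]

theorem isPiSeparable_alt (h : IsPiSeparable π G) (n : ℕ) : IsPiSeparable (alt π n) G := by
  rcases alt_eq π n with e | e <;> rw [e]
  exacts [h, h.compl]

theorem exists_low_eq_bot {X : Subgroup G} [Finite X] (h : IsPiSeparable π X) :
    ∃ n, low π n X = ⊥ := by
  have key : ∀ k n, Nat.card (low π n X) ≤ k → ∃ n, low π n X = ⊥ := by
    intro k
    induction k with
    | zero =>
      intro n hn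
      have : Finite (low π n X) := finite_of_le (low_le n X)
      exact absurd hn (not_le.2 Nat.card_pos)
    | succ k ih =>
      intro n hn
      by_contra! hne
      have : Finite (low π n X) := finite_of_le (low_le n X)
      have := (nontrivial_iff_ne_bot (low π n X)).2 (hne n)
      obtain ⟨N, _, hN, h1⟩ :=
        ((isPiSeparable_alt h n).of_le (low_le (π := π) n X)).exists_normal_ne_top
      have h2 : low π (n + 2) X ≤ N.map (Subgroup.subtype _) := by
        rcases h1 with h1 | h1
        · exact (gen_mono (gen_le _)).trans (gen_le_of_index (by rwa [alt, compl_compl]))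
        · exact (gen_le _).trans (gen_le_of_index h1)
      have h3 : Nat.card (low π (n + 2) X) ≤ Nat.card N := by
        rw [← card_map_of_injective (K := N) (Subgroup.subtype_injective _)]
        have : Finite (N.map (Subgroup.subtype _)) := finite_of_le (map_subtype_le _)
        exact card_le_of_le h2
      obtain ⟨m, hm⟩ := ih (n + 2) (by have := card_lt_of_ne_top hN; omega)
      exact hne m hm
  exact key _ 0 le_rfl

/-- If for all `v, w ∈ K` the elements `a v`, `b w` normalize a common `K`-conjugate of `N ∋ a, b`,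
then `K ≤ N`. -/
theorem le_of_pairs {K N : Subgroup G} [K.Normal] [Finite K] {a b : G} (ha : a ∈ N) (hb : b ∈ N)
    (h : ∀ v ∈ K, ∀ w ∈ K, ∃ u ∈ K, a * v ∈ u •ᶜ N ∧ b * w ∈ u •ᶜ N) : K ≤ N := by
  have hK : K.Normal := inferInstance
  have key : ∀ z : K × K, ∃ q : K ⧸ N.subgroupOf K, a * z.1 ∈ (q.out : G) •ᶜ N ∧
      b * z.2 ∈ (q.out : G) •ᶜ N := by
    intro z
    obtain ⟨u, hu, h1⟩ := h _ z.1.2 _ z.2.2
    obtain ⟨c, hc⟩ := QuotientGroup.mk_out_eq_mul (N.subgroupOf K) ⟨u, hu⟩
    refine ⟨(⟨u, hu⟩ : K), ?_⟩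
    rw [hc, coe_mul, cj_mul, cj_eq_of_mem (g := ((c : K) : G)) c.2]
    exact h1
  choose q hq using key
  have hm : ∀ {a : G} (u v : K), a⁻¹ * ((u : G)⁻¹ * (a * v) * u) ∈ K := fun {a} u v => by
    have := mul_mem (mul_mem (hK.conj_mem _ (inv_mem u.2) a⁻¹) v.2) u.2
    simpa [mul_assoc] using this
  let f : K × K → (K ⧸ N.subgroupOf K) × N.subgroupOf K × N.subgroupOf K := fun z =>
    (q z, ⟨⟨_, hm (q z).out z.1⟩, mul_mem (inv_mem ha) (mem_cj.1 (hq z).1)⟩,
      ⟨⟨_, hm (q z).out z.2⟩, mul_mem (inv_mem hb) (mem_cj.1 (hq z).2)⟩)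
  have hf : Function.Injective f := by
    intro z z' e
    have e1 : q z = q z' := congrArg Prod.fst e
    have e2 := congrArg (fun t => ((t.2.1 : K) : G)) e
    have e3 := congrArg (fun t => ((t.2.2 : K) : G)) e
    simp only [f, e1, mul_right_inj, mul_left_inj, SetLike.coe_eq_coe] at e2 e3
    exact Prod.ext e2 e3
  have h1 := Nat.card_le_card_of_injective f hf
  rw [Nat.card_prod, Nat.card_prod, Nat.card_prod, ← mul_assoc,
    ← card_eq_card_quotient_mul_card_subgroup] at h1
  exact subgroupOf_eq_top.1 (eq_top_of_le_card _ (Nat.le_of_mul_le_mul_left h1 Nat.card_pos))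

/-- If the `n`-th terms of the lower series of all two-generated subgroups are `τ`-groups, they lie
in `O_τ(G)`. -/
theorem low_le_piCore [Finite G] {τ : Set ℕ} (hG : IsPiSeparable τ G) {n : ℕ}
    (h : ∀ c d : G, IsPiNum τ (Nat.card (low π n (closure ({c, d} : Set G))))) (a b : G) :
    low π n (closure ({a, b} : Set G)) ≤ piCore τ G := by
  have key : ∀ {G : Type _} [Group G] [Finite G], IsPiSeparable τ G → piCore τ G = ⊥ →
      (∀ c d : G, IsPiNum τ (Nat.card (low π n (closure ({c, d} : Set G))))) → ∀ a b : G,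
      low π n (closure ({a, b} : Set G)) = ⊥ := by
    intro G _ _ hG h0 h a b
    have hK := isPiNum_card_piCore τᶜ G
    have h1 : piCore τᶜ G ≤ normalizer (low π n (closure ({a, b} : Set G)) : Set G) := by
      refine le_of_pairs (le_normalizer_low n _ (subset_closure (by simp) : a ∈ _))
        (le_normalizer_low n _ (subset_closure (by simp) : b ∈ _)) fun v hv w hw => ?_
      obtain ⟨u, hu, e⟩ := coprime_conj_of_sup_eq (piCore τᶜ G) _ _ le_normalizer_of_normal
        ((h a b).coprime hK) ((h (a * v) (b * w)).coprime hK) (by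
          rw [← QuotientGroup.comap_map_mk',
            ← QuotientGroup.comap_map_mk', map_low, map_low, MonoidHom.map_closure,
            MonoidHom.map_closure, Set.image_pair, Set.image_pair]
          simp [(QuotientGroup.eq_one_iff _).2 hv, (QuotientGroup.eq_one_iff _).2 hw])
        (isSolvable_or_of_coprime _ _ ((h (a * v) (b * w)).coprime hK))
      rw [pointwise_smul_eq_cj] at e
      refine ⟨u, hu, ?_⟩
      rw [cj_normalizer, e]
      exact ⟨le_normalizer_low n _ (subset_closure (by simp)),
        le_normalizer_low n _ (subset_closure (by simp))⟩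
    have h2 := disjoint_iff.1 (disjoint_of_coprime_natCard ((h a b).coprime hK))
    have h3 : low π n (closure ({a, b} : Set G)) ≤ centralizer (piCore τᶜ G : Set G) := by
      rw [← commutator_eq_bot_iff_le_centralizer, eq_bot_iff, ← h2]
      exact le_inf (commutator_le_left_of_normalizes h1) (commutator_le_right _ _)
    rw [← h2, eq_comm, inf_eq_left]
    exact h3.trans (hG.compl.centralizer_piCore_le (by rwa [compl_compl]))
  have h1 := key (hG.quotient _) (piCore_quotient_piCore τ G) (fun c d => by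
    obtain ⟨c, rfl⟩ := QuotientGroup.mk_surjective c
    obtain ⟨d, rfl⟩ := QuotientGroup.mk_surjective d
    have := (h c d).of_dvd (card_map_dvd _ (QuotientGroup.mk' (piCore τ G)))
    rwa [map_low, MonoidHom.map_closure, Set.image_pair] at this) a b
  have h2 := map_low (π := π) (QuotientGroup.mk' (piCore τ G)) n (closure ({a, b} : Set G))
  rw [MonoidHom.map_closure, Set.image_pair] at h2
  rw [← QuotientGroup.ker_mk' (piCore τ G), ← Subgroup.map_eq_bot_iff, h2]
  exact h1

/-- A nontrivial group whose three-generated subgroups are `π`-separable has a nontrivial normal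
`π`-subgroup or `π'`-subgroup. -/
theorem piCore_ne_bot_of_triples [Finite G] [Nontrivial G]
    (h : ∀ a b c : G, IsPiSeparable π (closure ({a, b, c} : Set G))) :
    piCore π G ≠ ⊥ ∨ piCore πᶜ G ≠ ⊥ := by
  classical
  have h1 : ∃ n, ∀ a b : G, low π n (closure ({a, b} : Set G)) = ⊥ := by
    choose n hn using fun z : G × G => exists_low_eq_bot (h z.1 z.2 z.2)
    obtain ⟨z, hz⟩ := Finite.exists_max n
    refine ⟨n z, fun a b => eq_bot_iff.2 ((low_anti (hz (a, b)) _).trans ?_)⟩
    have := hn (a, b)
    simp only [Set.pair_eq_singleton] at this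
    exact this.le
  have h2 := Nat.find_spec h1
  obtain ⟨m, hm⟩ : ∃ m, Nat.find h1 = m + 1 := by
    refine Nat.exists_eq_succ_of_ne_zero fun e => ?_
    obtain ⟨x, hx⟩ := exists_ne (1 : G)
    rw [e] at h2
    exact hx (mem_bot.1 (h2 x x ▸ (subset_closure (by simp) : x ∈ closure ({x, x} : Set G))))
  have h3 := Nat.find_min h1 (m := m) (by omega)
  push Not at h3
  obtain ⟨a, b, hab⟩ := h3
  rw [hm] at h2
  have h4 : low π m (closure ({a, b} : Set G)) ≤ piCore (alt π (m + 1)) G := by
    intro d hd
    refine mem_piCore_of_forall fun g => ⟨closure {a, b, g}, subset_closure (by simp), ?_⟩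
    have h5 : ∀ c d : closure ({a, b, g} : Set G),
        (low π m (closure {c, d})).map (Subgroup.subtype _) =
          low π m (closure ({(c : G), (d : G)} : Set G)) := fun c d => by
      rw [map_low, MonoidHom.map_closure, Set.image_pair]; rfl
    have h6 := low_le_piCore (π := π) (isPiSeparable_alt (h a b g) (m + 1)) (n := m) (fun c d => by
      rw [← card_map_of_injective (Subgroup.subtype_injective _), h5]
      exact gen_eq_bot_iff.1 (h2 c d)) ⟨a, subset_closure (by simp)⟩ ⟨b, subset_closure (by simp)⟩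
    exact map_mono h6 (h5 _ _ ▸ hd)
  rcases alt_eq π (m + 1) with e | e <;> rw [e] at h4
  exacts [Or.inl (ne_bot_of_le_ne_bot hab h4), Or.inr (ne_bot_of_le_ne_bot hab h4)]

end CL.Low
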