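import Mathlib
import Cfsg.Agent.FGS.FrobSol
import Cfsg.Agent.FGS.FiberCount
import Cfsg.Agent.ODD.BaseNorm

/-! Numbers of elements of a given order: Frobenius congruences. -/

set_option autoImplicit false

namespace CL.Nse

open Finset Subgroup
open scoped Pointwise IsMulCommutative

/-- The number of elements of order `m`. -/
noncomputable def s (G : Type*) [Group G] (m : ℕ) : ℕ := Nat.card {g : G // orderOf g = m}

variable {G : Type*} [Group G] [Finite G]

omit [Finite G] in
theorem s_eq_ncard (m : ℕ) : s G m = {g : G | orderOf g = m}.ncard := by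
  rw [s, ← Nat.card_coe_set_eq]; rfl

omit [Finite G] in
theorem s_one : s G 1 = 1 := by
  rw [s_eq_ncard]
  simp [orderOf_eq_one_iff]

theorem s_eq_zero_iff {m : ℕ} : s G m = 0 ↔ ¬ ∃ g : G, orderOf g = m := by
  rw [s_eq_ncard, Set.ncard_eq_zero]
  simp [Set.eq_empty_iff_forall_notMem]

theorem exists_of_ne_zero {m : ℕ} (h : s G m ≠ 0) : ∃ g : G, orderOf g = m := by
  by_contra h'
  exact h (s_eq_zero_iff.2 h')

theorem s_orderOf_ne_zero (g : G) : s G (orderOf g) ≠ 0 := fun h => s_eq_zero_iff.1 h ⟨g, rfl⟩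

theorem exists_orderOf_eq (g : G) {d : ℕ} (hd : d ∣ orderOf g) : ∃ x : G, orderOf x = d :=
  ⟨g ^ (orderOf g / d), orderOf_pow_orderOf_div (orderOf_pos g).ne' hd⟩

theorem s_eq_zero_of_dvd {d m : ℕ} (hd : d ∣ m) (h : s G d = 0) : s G m = 0 := by
  rw [s_eq_zero_iff] at h ⊢
  rintro ⟨g, rfl⟩
  exact h (exists_orderOf_eq g hd)

theorem dvd_card_of_ne_zero {m : ℕ} (h : s G m ≠ 0) : m ∣ Nat.card G := by
  obtain ⟨g, rfl⟩ := exists_of_ne_zero h
  exact orderOf_dvd_natCard g

theorem ne_zero_of_prime {p : ℕ} (hp : p.Prime) (h : p ∣ Nat.card G) : s G p ≠ 0 := by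
  have := Fact.mk hp
  obtain ⟨g, rfl⟩ := exists_prime_orderOf_dvd_card' p h
  exact s_orderOf_ne_zero g

theorem totient_dvd (m : ℕ) : m.totient ∣ s G m := by
  rw [s_eq_ncard, CL.Cnt.ncard_orderOf_eq]
  exact Dvd.intro _ rfl

theorem two_dvd {m : ℕ} (hm : 3 ≤ m) : 2 ∣ s G m :=
  (Nat.totient_even (by omega)).two_dvd.trans (totient_dvd m)

theorem prime_dvd_of_sq_dvd {p m : ℕ} (hp : p.Prime) (h : p * p ∣ m) : p ∣ s G m := by
  refine dvd_trans ?_ ((Nat.totient_dvd_of_dvd h).trans (totient_dvd m))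
  rw [← sq, Nat.totient_prime_pow_succ hp 1]
  exact Dvd.intro _ (by rw [pow_one])

theorem frob {d n : ℕ} (hn : n ≠ 0) (h1 : d ∣ n) (h2 : d ∣ Nat.card G) :
    d ∣ ∑ e ∈ n.divisors, s G e := by
  classical
  have := Fintype.ofFinite G
  have h := CL.FrobSol.dvd_card_pow_eq_one h1 h2
  rw [Nat.card_eq_fintype_card, Fintype.card_subtype] at h
  have hs : ∀ m, s G m = #{x : G | orderOf x = m} := fun m => by
    rw [s, Nat.card_eq_fintype_card, Fintype.card_subtype]
  simp only [hs]
  rw [sum_card_orderOf_eq_card_pow_eq_one hn]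
  convert h

/-- Frobenius' congruence, one `p`-regular order at a time. -/
theorem frob_pow {p e : ℕ} (hp : p.Prime) (h : p ^ e ∣ Nat.card G) {m : ℕ} (hm : ¬ p ∣ m) :
    p ^ e ∣ ∑ i ∈ range (e + 1), s G (p ^ i * m) := by
  induction m using Nat.strong_induction_on with
  | _ m ih =>
    have hm0 : m ≠ 0 := by rintro rfl; exact hm (dvd_zero p)
    have hc : (p ^ e).Coprime m := ((Nat.Prime.coprime_iff_not_dvd hp).2 hm).pow_left e
    have h1 := frob (G := G) (n := p ^ e * m) (mul_ne_zero (pow_ne_zero _ hp.ne_zero) hm0)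
      (Dvd.intro _ rfl) h
    rw [Nat.divisors_mul, Finset.mul_def, sum_image hc.mul_injOn_divisors, sum_product_right,
      ← Nat.cons_self_properDivisors hm0, sum_cons] at h1
    simp only [Nat.divisors_prime_pow hp, sum_map, Function.Embedding.coeFn_mk] at h1
    refine (Nat.dvd_add_left (dvd_sum fun d hd => ?_)).1 h1
    rw [Nat.mem_properDivisors] at hd
    exact ih d hd.2 fun h' => hm (h'.trans hd.1)

theorem frob_prime {p : ℕ} (hp : p.Prime) (h : p ∣ Nat.card G) {m : ℕ} (hm : ¬ p ∣ m) :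
    p ∣ s G m + s G (p * m) := by
  have := frob_pow (G := G) (e := 1) hp (by rwa [pow_one]) hm
  simpa [sum_range_succ] using this

theorem frob_one {p : ℕ} (hp : p.Prime) (h : p ∣ Nat.card G) : p ∣ 1 + s G p := by
  have := frob_prime hp h hp.not_dvd_one
  rwa [s_one, mul_one] at this

/-- If there are no elements of order `p ^ (k + 1) * m`, the sum stops at `k`. -/
theorem frob_pow_trunc {p e k : ℕ} (hp : p.Prime) (h : p ^ e ∣ Nat.card G) {m : ℕ} (hm : ¬ p ∣ m)
    (h0 : s G (p ^ (k + 1) * m) = 0) : p ^ e ∣ ∑ i ∈ range (k + 1), s G (p ^ i * m) := by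
  rcases le_total e k with hek | hek
  · obtain ⟨j, rfl⟩ := Nat.exists_eq_add_of_le hek
    clear h0 hek
    induction j with
    | zero => exact frob_pow hp h hm
    | succ j ih =>
      rw [← add_assoc, sum_range_succ]
      refine dvd_add ih (dvd_trans ?_ ((Nat.totient_dvd_of_dvd (Dvd.intro m rfl)).trans (totient_dvd _)))
      rw [Nat.totient_prime_pow_succ hp]
      exact (pow_dvd_pow p (by omega)).mul_right _
  · have h1 := frob_pow hp h hm
    rwa [← sum_subset (s₁ := range (k + 1)) (range_subset_range.2 (by omega)) fun i _ hi =>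
      s_eq_zero_of_dvd (Nat.mul_dvd_mul_right (pow_dvd_pow p (by simpa using hi)) m) h0] at h1

theorem card_eq_sum (T : Finset ℕ) (hT : ∀ g : G, orderOf g ∈ T) :
    Nat.card G = ∑ m ∈ T, s G m := by
  rw [← Set.ncard_univ, CL.Cnt.ncard_eq_sum_fiber Set.finite_univ orderOf T fun g _ => hT g]
  simp [s_eq_ncard]

theorem sum_le_card (T : Finset ℕ) : ∑ m ∈ T, s G m ≤ Nat.card G := by
  classical
  rw [card_eq_sum (T ∪ (Nat.card G).divisors) fun g => mem_union_right _
    (Nat.mem_divisors.2 ⟨orderOf_dvd_natCard g, Nat.card_pos.ne'⟩)]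
  exact sum_le_sum_of_subset subset_union_left

theorem dvd_of_index {q m : ℕ}
    (h : ∀ x : G, orderOf x = m → q ∣ (centralizer ({x} : Set G)).index) : q ∣ s G m := by
  rw [s_eq_ncard]
  refine CL.Cnt.dvd_ncard_of_conj_elem ⊤ (fun g _ x hx => ?_) fun x hx => ?_
  · exact ((MulAut.conj g).orderOf_eq x).trans hx
  · rw [relIndex_top_right]; exact h x hx

/-- With a cyclic Sylow `p`-subgroup, the subgroups of order `p` are conjugate. -/
theorem s_prime_eq {p : ℕ} [hp : Fact p.Prime] (P : Sylow p G) (hP : IsCyclic P) {x : G}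
    (hx : orderOf x = p) : s G p = (p - 1) * (normalizer (zpowers x : Set G)).index := by
  rw [s_eq_ncard, CL.Cnt.ncard_orderOf_eq, Nat.totient_prime hp.out]
  congr 1
  have key : ∀ H : Subgroup G, Nat.card H = p → ∃ g : G, MulAut.conj g • H ≤ P := fun H hH => by
    obtain ⟨Q, hQ⟩ := (IsPGroup.of_card (n := 1) (by rw [hH, pow_one]) : IsPGroup p H).exists_le_sylow
    obtain ⟨g, rfl⟩ := MulAction.exists_smul_eq G Q P
    exact ⟨g, by rw [Sylow.coe_subgroup_smul]; exact pointwise_smul_le_pointwise_smul_iff.2 hQ⟩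
  have hc : ∀ (g : G) (H : Subgroup G), Nat.card (MulAut.conj g • H : Subgroup G) = Nat.card H :=
    fun g H => (Nat.card_congr (H.equivSMul (MulAut.conj g)).toEquiv).symm
  have hx' : Nat.card (zpowers x) = p := by rw [Nat.card_zpowers, hx]
  have e : {H : Subgroup G | IsCyclic H ∧ Nat.card H = p} =
      MulAction.orbit (ConjAct G) (zpowers x) := by
    ext H
    constructor
    · rintro ⟨-, hH⟩
      obtain ⟨g, hg⟩ := key H hH
      obtain ⟨k, hk⟩ := key _ hx'
      have h1 := CL.BG.eq_of_card_eq_of_cyclic hP hg hk (by rw [hc, hc, hH, hx'])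
      refine ⟨ConjAct.toConjAct (g⁻¹ * k), ?_⟩
      have h2 : H = MulAut.conj (g⁻¹ * k) • zpowers x := by
        rw [map_mul, mul_smul, ← h1, ← mul_smul, ← map_mul, inv_mul_cancel, map_one, one_smul]
      rw [h2]; rfl
    · rintro ⟨g, rfl⟩
      have h1 : Nat.card (g • zpowers x : Subgroup G) = p := (hc (ConjAct.ofConjAct g) _).trans hx'
      exact ⟨isCyclic_of_prime_card h1, h1⟩
  rw [e, ← MulAction.index_stabilizer, ← index_comap_of_surjective _
    (f := (ConjAct.toConjAct (G := G)).toMonoidHom) ConjAct.toConjAct.surjective]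
  congr 1
  ext g
  rw [mem_comap, MulAction.mem_stabilizer_iff]
  exact conjAct_pointwise_smul_iff

theorem s_prime_dvd_card {p : ℕ} [hp : Fact p.Prime] (P : Sylow p G) (hP : IsCyclic P)
    (h : p ∣ Nat.card G) : s G p ∣ (p - 1) * Nat.card G := by
  obtain ⟨x, hx⟩ := exists_of_ne_zero (ne_zero_of_prime hp.out h)
  rw [s_prime_eq P hP hx]
  exact Nat.mul_dvd_mul_left _ (index_dvd_card _)

theorem s_prime_dvd {p : ℕ} [hp : Fact p.Prime] (P : Sylow p G) (hP : IsCyclic P) {m : ℕ}
    (hm : p ∣ m) : s G p ∣ (p - 1) * s G m := by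
  by_cases h : s G m = 0
  · simp [h]
  obtain ⟨w, hw⟩ := exists_of_ne_zero h
  obtain ⟨x, hx⟩ := exists_orderOf_eq w (hw ▸ hm)
  rw [s_prime_eq P hP hx]
  refine Nat.mul_dvd_mul_left _ (dvd_of_index fun y hy => ?_)
  have hy' : orderOf (y ^ (orderOf y / p)) = p :=
    orderOf_pow_orderOf_div (orderOf_pos y).ne' (hy ▸ hm)
  have e := (s_prime_eq P hP hx).symm.trans (s_prime_eq P hP hy')
  rw [Nat.eq_of_mul_eq_mul_left (by have := hp.out.two_le; omega) e]
  refine index_dvd_of_le fun g hg => centralizer_le_normalizer _ ?_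
  rintro _ ⟨k, rfl⟩
  exact (((show Commute y g from hg y rfl).pow_left _).zpow_left k).eq

/-- A Sylow subgroup is cyclic once there is an element of its order. -/
theorem isCyclic_sylow {p e : ℕ} [hp : Fact p.Prime] (P : Sylow p G) (he : ¬ p ^ (e + 1) ∣ Nat.card G)
    (h : s G (p ^ e) ≠ 0) : IsCyclic P := by
  obtain ⟨x, hx⟩ := exists_of_ne_zero h
  have h1 : Nat.card (zpowers x) = p ^ e := by rw [Nat.card_zpowers, hx]
  obtain ⟨Q, hQ⟩ := (IsPGroup.of_card h1).exists_le_sylow
  obtain ⟨k, hk⟩ := Q.isPGroup'.exists_card_eq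
  have h2 : k ≤ e := by
    by_contra h3
    exact he ((pow_dvd_pow p (by omega)).trans (hk ▸ card_subgroup_dvd_card _))
  have h3 : zpowers x = Q := eq_of_le_of_card_ge hQ (by rw [h1, hk]; exact Nat.pow_le_pow_right hp.out.pos h2)
  have : IsCyclic Q := h3 ▸ inferInstanceAs (IsCyclic (zpowers x))
  exact isCyclic_of_surjective (Sylow.equiv Q P) (Sylow.equiv Q P).surjective

/-- If every element of order `p` commutes with an element of order `q ≥ 3` prime to `p`, there are at
least twice as many elements of order `p * q` as of order `p`. -/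
theorem two_mul_le {p q : ℕ} (hc : p.Coprime q) (hq : 3 ≤ q)
    (h : ∀ x : G, orderOf x = p → ∃ y : G, orderOf y = q ∧ Commute x y) : 2 * s G p ≤ s G (p * q) := by
  classical
  have := Fintype.ofFinite G
  have hs : ∀ m, s G m = #{x : G | orderOf x = m} := fun m => by
    rw [s, Nat.card_eq_fintype_card, Fintype.card_subtype]
  rw [hs, hs]
  refine mul_card_image_le_card_of_maps_to (f := fun w : G => w ^ q) (fun w hw => ?_) 2 fun b hb => ?_
  · rw [mem_filter_univ] at hw ⊢
    rw [orderOf_pow' _ (by omega), hw, Nat.gcd_mul_left_left, Nat.mul_div_cancel _ (by omega)]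
  · rw [mem_filter_univ] at hb
    obtain ⟨y, hy, hby⟩ := h b hb
    obtain ⟨k, hk⟩ := exists_pow_eq_self_of_coprime (x := b) (n := q) (hb ▸ hc.symm)
    have hk' : (b ^ k) ^ q = b := by rw [← pow_mul, mul_comm, pow_mul, hk]
    have ho : orderOf (b ^ k) = p := Nat.dvd_antisymm (hb ▸ orderOf_pow_dvd k)
      (by rw [← hb]; nth_rewrite 1 [← hk']; exact orderOf_pow_dvd q)
    have key : ∀ z : G, orderOf z = q → Commute b z →
        b ^ k * z ∈ ({x : G | orderOf x = p * q} : Finset G).filter fun w => w ^ q = b := fun z hz hbz => by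
      rw [mem_filter, mem_filter_univ, (hbz.pow_left k).orderOf_mul_eq_mul_orderOf_of_coprime
        (by rw [ho, hz]; exact hc), ho, hz, (hbz.pow_left k).mul_pow, hk', ← hz, pow_orderOf_eq_one,
        mul_one]
      exact ⟨rfl, rfl⟩
    refine one_lt_card.2 ⟨_, key y hy hby, _, key y⁻¹ (by rw [orderOf_inv, hy]) hby.inv_right, fun e => ?_⟩
    have h1 : y ^ 2 = 1 := by
      rw [sq]; nth_rewrite 1 [mul_left_cancel e]; exact inv_mul_cancel y
    have := Nat.le_of_dvd two_pos (orderOf_dvd_of_pow_eq_one h1)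
    omega

omit [Finite G] in
theorem mul_pow_eq (V : Subgroup G) [V.Normal] [IsMulCommutative V] (v : V) (w : G) (n : ℕ) :
    ((v : G) * w) ^ n = (∏ i ∈ range n, MulAut.conjNormal (w ^ i) v : V) * w ^ n := by
  induction n with
  | zero => simp
  | succ n ih =>
    rw [pow_succ, ih, prod_range_succ, Subgroup.coe_mul, MulAut.conjNormal_apply, pow_succ]
    group

/-- The norm argument: if `K` has no fixed points on the abelian normal subgroup `V` and every element
of the coset `V K g` has `r`-th power one, `r` prime, then `#K` kills `V`. -/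
theorem pow_card_eq_one_of_coset (V : Subgroup G) [V.Normal] [IsMulCommutative V] (K : Subgroup G)
    (hK : ∀ v ∈ V, (∀ y ∈ K, y * v * y⁻¹ = v) → v = 1) {g : G} (hg : g ∈ normalizer (K : Set G))
    {r : ℕ} (hr : r.Prime) (h : ∀ v ∈ V, ∀ y ∈ K, (v * (y * g)) ^ r = 1) {v : G} (hv : v ∈ V) :
    v ^ Nat.card K = 1 := by
  classical
  have := Fintype.ofFinite K
  lift v to V using hv
  have h0 : ∀ y ∈ K, (y * g) ^ r = 1 := fun y hy => by simpa using h 1 (one_mem V) y hy
  have h1 : ∀ y : K, ∏ i ∈ range r, MulAut.conjNormal (((y : G) * g) ^ i) v = 1 := fun y => by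
    have := mul_pow_eq V v (y * g) r
    rw [h v v.2 y y.2, h0 y y.2, mul_one] at this
    exact Subtype.ext this.symm
  have h2 : ∀ u : V, ∏ y : K, MulAut.conjNormal (y : G) u = 1 := fun u => by
    refine Subtype.ext (hK _ (SetLike.coe_mem _) fun z hz => ?_)
    rw [← MulAut.conjNormal_apply, map_prod, ← Equiv.prod_comp (Equiv.mulLeft (⟨z, hz⟩ : K))
      fun y : K => MulAut.conjNormal (y : G) u]
    simp
  have h3 : ∀ (y : K) (i : ℕ), ((y : G) * g) ^ i * (g ^ i)⁻¹ ∈ K := fun y i => by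
    induction i with
    | zero => simp
    | succ i ih =>
      have e : ((y : G) * g) ^ (i + 1) * (g ^ (i + 1))⁻¹ =
          ((y : G) * g) ^ i * (g ^ i)⁻¹ * (g ^ i * y * (g ^ i)⁻¹) := by rw [pow_succ, pow_succ]; group
      rw [e]
      exact mul_mem ih ((mem_normalizer_iff.1 (pow_mem hg i) _).1 y.2)
  have h4 : ∏ y : K, ∏ i ∈ range r, MulAut.conjNormal (((y : G) * g) ^ i) v = 1 :=
    prod_eq_one fun y _ => h1 y
  obtain ⟨n, rfl⟩ : ∃ n, r = n + 1 := ⟨r - 1, by have := hr.pos; omega⟩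
  rw [prod_comm, prod_range_succ', prod_eq_one fun i hi => ?_] at h4
  · simpa [Nat.card_eq_fintype_card] using congrArg Subtype.val h4
  · let f : K → K := fun y => ⟨_, h3 y (i + 1)⟩
    have hc : (i + 1).Coprime (n + 1) :=
      (Nat.coprime_of_lt_prime (by omega) (by simpa using hi) hr).symm
    have hf : Function.Bijective f := Finite.injective_iff_bijective.1 fun a b hab => by
      have h5 : ((a : G) * g) ^ (i + 1) = ((b : G) * g) ^ (i + 1) :=
        mul_right_cancel (congrArg Subtype.val hab)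
      obtain ⟨k, -, hk⟩ := Nat.exists_mul_mod_eq_one_of_coprime hc hr.one_lt
      have h6 : ∀ y : K, (((y : G) * g) ^ (i + 1)) ^ k = y * g := fun y => by
        rw [← pow_mul, ← Nat.div_add_mod ((i + 1) * k) (n + 1), hk, pow_add, pow_mul, h0 y y.2]
        simp
      exact Subtype.ext (mul_right_cancel ((h6 a).symm.trans (h5 ▸ h6 b)))
    rw [← h2 (MulAut.conjNormal (g ^ (i + 1)) v),
      ← hf.prod_comp fun y : K => MulAut.conjNormal (y : G) (MulAut.conjNormal (g ^ (i + 1)) v)]
    refine prod_congr rfl fun y _ => ?_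
    rw [← MulAut.mul_apply, ← map_mul, inv_mul_cancel_right]

theorem exists_values (h : ((fun m : ℕ => Nat.card {g : G // orderOf g = m}) ''
    Set.range (orderOf : G → ℕ)).ncard = 3) :
    ∃ a b : ℕ, ∀ m, s G m = 0 ∨ s G m = 1 ∨ s G m = a ∨ s G m = b := by
  obtain ⟨x, y, z, -, -, -, e⟩ := Set.ncard_eq_three.1 h
  have h1 : ∀ m, s G m = 0 ∨ s G m = x ∨ s G m = y ∨ s G m = z := fun m => by
    refine or_iff_not_imp_left.2 fun h0 => ?_
    have : s G m ∈ ({x, y, z} : Set ℕ) := e ▸ ⟨m, exists_of_ne_zero h0, rfl⟩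
    simpa using this
  have h2 := h1 1
  rw [s_one] at h2
  rcases h2 with h2 | rfl | rfl | rfl
  · omega
  · exact ⟨y, z, h1⟩
  · exact ⟨x, z, fun m => by have := h1 m; omega⟩
  · exact ⟨x, y, fun m => by have := h1 m; omega⟩

end CL.Nse
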