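import Mathlib

/-!
# Automorphisms of odd order of doubly transitive groups
-/

set_option autoImplicit false

namespace CL.FGS.OddAut

open MulAction Matrix

variable {G Ω : Type*} [Group G] [MulAction G Ω] [Fintype Ω] [DecidableEq Ω]

theorem exists_mulVec_eq (h2 : IsMultiplyPretransitive G Ω 2) {M : Matrix Ω Ω ℤ}
    (hM : ∀ (h : G) x y, M (h • x) (h • y) = M x y) {a b : Ω} (hab : a ≠ b) (v : Ω → ℤ) (x : Ω) :
    (M *ᵥ v) x = (M a a - M a b) * v x + M a b * ∑ y, v y := by
  have := isPretransitive_of_is_two_pretransitive (G := G) (α := Ω)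
  have h1 : ∀ y, M x y = (if x = y then M a a - M a b else 0) + M a b := by
    intro y
    split_ifs with h
    · subst h
      obtain ⟨g, rfl⟩ := exists_smul_eq G a x
      rw [hM]; ring
    · obtain ⟨g, rfl, rfl⟩ := is_two_pretransitive_iff.1 h2 hab h
      rw [hM]; ring
  simp only [mulVec, dotProduct, h1, add_mul, Finset.sum_add_distrib, ite_mul, zero_mul,
    Finset.sum_ite_eq, Finset.mem_univ, if_true, Finset.mul_sum]

theorem arith {n k m l x y : ℤ} {t : ℕ} (ht : Odd t) (hk : IsCoprime k n) (hk1 : 1 ≤ k)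
    (hkn : k < n) (hl : 0 ≤ l) (h1 : m + l = k) (h2 : k ^ 2 = m + l * n) (h3 : x ^ 2 = m ^ t)
    (h4 : k ^ t = x + y * n) : k = 1 ∨ k = n - 1 := by
  obtain ⟨s, rfl⟩ := ht
  have hmn : IsCoprime m n := by
    have : IsCoprime (k ^ 2) n := hk.pow_left
    rw [h2] at this
    exact (IsCoprime.add_mul_right_left_iff).1 this
  have hm0 : m ≠ 0 := by
    rintro rfl
    rcases Int.isUnit_iff.1 (isCoprime_zero_left.1 hmn) with h | h <;> omega
  obtain ⟨u, rfl⟩ : m ^ s ∣ x := by
    rw [← Int.pow_dvd_pow_iff two_ne_zero, h3]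
    exact ⟨m, by ring⟩
  have hu : u ^ 2 = m := by
    apply mul_left_cancel₀ (pow_ne_zero 2 (pow_ne_zero s hm0))
    rw [← mul_pow, h3]; ring
  have h5 : n ∣ m ^ s * (k - u) := by
    have h6 : n ∣ (k ^ 2) ^ s - m ^ s := (show n ∣ k ^ 2 - m from ⟨l, by rw [h2]; ring⟩).trans
      (sub_dvd_pow_sub_pow _ _ _)
    have h7 : m ^ s * (k - u) = y * n - k * ((k ^ 2) ^ s - m ^ s) := by
      have : k * (k ^ 2) ^ s = m ^ s * u + y * n := by rw [← h4]; ring
      linear_combination this
    rw [h7]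
    exact dvd_sub (dvd_mul_left _ _) (h6.mul_left _)
  obtain ⟨c, hc⟩ := (hmn.pow_left (m := s)).symm.dvd_of_dvd_mul_left h5
  have h8 : u ≤ k := by nlinarith [sq_nonneg (u - 1)]
  have h9 : -u ≤ k := by nlinarith [sq_nonneg (u + 1)]
  have hc0 : 0 ≤ c := by nlinarith
  have hc2 : c < 2 := by nlinarith
  rcases (show c = 0 ∨ c = 1 by omega) with rfl | rfl
  · left
    have : u = k := by omega
    subst this
    nlinarith
  · right
    have h10 : u = k - n := by omega
    subst h10
    have h11 : (n - k) * ((1 - (n - k)) * n) = 0 := by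
      have : l = k - (k - n) ^ 2 := by linarith
      subst this
      rw [← hu] at h2
      linear_combination -h2
    rcases mul_eq_zero.1 h11 with h | h
    · omega
    · rcases mul_eq_zero.1 h with h | h <;> omega

theorem ncard_eq (h2 : IsMultiplyPretransitive G Ω 2) (o : Ω) (α : MulAut G) (hα : Odd (orderOf α))
    (O : Set Ω) (hO : ∀ s : G, s • o = o → ∀ y ∈ O, α s • y ∈ O)
    (hk : O.ncard.Coprime (Fintype.card Ω)) :
    O.ncard = 1 ∨ O.ncard = Fintype.card Ω - 1 := by
  classical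
  have hle : O.ncard ≤ Fintype.card Ω := by
    rw [← Nat.card_eq_fintype_card]; exact Set.ncard_le_card O
  have hn0 : 0 < Fintype.card Ω := Fintype.card_pos_iff.2 ⟨o⟩
  by_cases hn : Fintype.card Ω ≤ 1
  · omega
  obtain ⟨a, b, hab⟩ := (Fintype.one_lt_card_iff (α := Ω)).1 (by omega)
  have := isPretransitive_of_is_two_pretransitive (G := G) (α := Ω)
  choose g hg using exists_smul_eq G o
  let A : Matrix Ω Ω ℤ := fun x y => if (α (g x))⁻¹ • y ∈ O then 1 else 0
  have hA : ∀ (h : G) x y, A (h • x) (α h • y) = A x y := by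
    intro h x y
    have hs : ((g (h • x))⁻¹ * h * g x) • o = o := by
      rw [mul_smul, mul_smul, hg, inv_smul_eq_iff, hg]
    have : (α (g (h • x)))⁻¹ • α h • y = α ((g (h • x))⁻¹ * h * g x) • (α (g x))⁻¹ • y := by
      simp [mul_smul]
    simp only [A]
    rw [this]
    refine if_congr ⟨fun h1 => ?_, hO _ hs _⟩ rfl rfl
    have := hO _ (inv_smul_eq_iff.2 hs.symm) _ h1
    rwa [map_inv, inv_smul_smul] at this
  have hrow : ∀ x, ∑ y, A x y = O.ncard := by
    intro x
    rw [← Equiv.sum_comp (MulAction.toPerm (α (g x)))]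
    simp [A, Set.ncard_eq_toFinset_card']
  have hcol : ∀ y, ∑ x, A x y = O.ncard := by
    have h1 : ∀ y, ∑ x, A x y = ∑ x, A x o := by
      intro y
      obtain ⟨h, rfl⟩ := exists_smul_eq G o y
      obtain ⟨h, rfl⟩ := α.surjective h
      rw [← Equiv.sum_comp (MulAction.toPerm h)]
      simp [hA]
    have h3 : ∑ y, ∑ x, A x y = ∑ x, ∑ y, A x y := Finset.sum_comm
    simp only [h1, hrow, Finset.sum_const, Finset.card_univ, nsmul_eq_mul] at h3
    intro y
    rw [h1]
    exact mul_left_cancel₀ (by exact_mod_cast hn0.ne') h3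
  have hpow : ∀ (j : ℕ) (h : G) x y, (A ^ j) (h • x) ((α ^ j) h • y) = (A ^ j) x y := by
    intro j
    induction j with
    | zero => intro h x y; simp [one_apply]
    | succ j ih =>
      intro h x y
      rw [pow_succ A, mul_apply, mul_apply, ← Equiv.sum_comp (MulAction.toPerm ((α ^ j) h)), pow_succ' α]
      simp [ih, hA]
  have hB := exists_mulVec_eq h2 (M := Aᵀ * A) (fun h x y => by
    obtain ⟨h, rfl⟩ := α.surjective h
    rw [mul_apply, mul_apply, ← Equiv.sum_comp (MulAction.toPerm h)]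
    simp [hA]) hab
  have hC := exists_mulVec_eq h2 (M := A ^ orderOf α) (fun h x y => by
    have := hpow (orderOf α) h x y
    rwa [pow_orderOf_eq_one] at this) hab
  have hone : A *ᵥ (fun _ => 1) = (O.ncard : ℤ) • fun _ => 1 := by
    ext x; simp [mulVec, dotProduct, hrow]
  have hone' : Aᵀ *ᵥ (fun _ => 1) = (O.ncard : ℤ) • fun _ => 1 := by
    ext x; simp [mulVec, dotProduct, hcol]
  have hone2 : ∀ j : ℕ, (A ^ j) *ᵥ (fun _ => 1) = ((O.ncard : ℤ) ^ j) • fun _ => 1 := by
    intro j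
    induction j with
    | zero => simp
    | succ j ih => rw [pow_succ, ← mulVec_mulVec, hone, mulVec_smul, ih, smul_smul, pow_succ']
  have hsum : ∀ v : Ω → ℤ, ∑ y, v y = 0 → ∑ x, (A *ᵥ v) x = 0 := by
    intro v hv
    simp only [mulVec, dotProduct]
    rw [Finset.sum_comm]
    simp only [← Finset.sum_mul, hcol, ← Finset.mul_sum, hv, mul_zero]
  set m := (Aᵀ * A) a a - (Aᵀ * A) a b with hm
  have hnorm : ∀ (j : ℕ) (v : Ω → ℤ), ∑ y, v y = 0 →
      (A ^ j *ᵥ v) ⬝ᵥ (A ^ j *ᵥ v) = m ^ j * (v ⬝ᵥ v) := by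
    intro j
    induction j with
    | zero => simp
    | succ j ih =>
      intro v hv
      rw [pow_succ, ← mulVec_mulVec, ih _ (hsum v hv), dotProduct_mulVec, ← mulVec_transpose,
        mulVec_mulVec]
      have : (Aᵀ * A) *ᵥ v = m • v := by ext x; rw [hB, hv]; simp
      rw [this, smul_dotProduct, smul_eq_mul, pow_succ, mul_assoc]
  have h5 := arith (n := Fintype.card Ω) (k := O.ncard) (m := m) (l := (Aᵀ * A) a b)
    (x := (A ^ orderOf α) a a - (A ^ orderOf α) a b) (y := (A ^ orderOf α) a b) hα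
    (Nat.isCoprime_iff_coprime.2 hk) ?_ ?_ ?_ ?_ ?_ ?_ ?_
  · omega
  · have : O.ncard ≠ 0 := by rintro h; rw [h, Nat.coprime_zero_left] at hk; omega
    omega
  · have : O.ncard ≠ Fintype.card Ω := by rintro h; rw [h, Nat.coprime_self] at hk; omega
    omega
  · rw [mul_apply]
    refine Finset.sum_nonneg fun x _ => ?_
    rw [transpose_apply]
    simp only [A]
    split_ifs <;> norm_num
  · rw [hm, sub_add_cancel, mul_apply, ← hcol a]
    refine Finset.sum_congr rfl fun x _ => ?_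
    rw [transpose_apply]
    simp only [A]
    split_ifs <;> norm_num
  · have := hB (fun _ => 1) a
    rw [← mulVec_mulVec, hone, mulVec_smul, hone'] at this
    simpa [pow_two] using this
  · let v : Ω → ℤ := Pi.single a 1 - Pi.single b 1
    have hv : ∑ y, v y = 0 := by simp [v, Finset.sum_sub_distrib]
    have h6 := hnorm (orderOf α) v hv
    have : A ^ orderOf α *ᵥ v = ((A ^ orderOf α) a a - (A ^ orderOf α) a b) • v := by
      ext x; rw [hC, hv]; simp
    rw [this, smul_dotProduct, dotProduct_smul, smul_eq_mul, smul_eq_mul, ← mul_assoc, ← pow_two] at h6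
    refine mul_right_cancel₀ ?_ h6
    simp [v, hab, hab.symm]
  · have := hC (fun _ => 1) a
    rw [hone2] at this
    simpa using this

theorem exists_fixed (o : Ω) (α : MulAut G) (O : Set Ω)
    (hO : ∀ s : G, s • o = o → ∀ y ∈ O, α s • y ∈ O)
    (h : O.ncard = 1 ∨ O.ncard = Fintype.card Ω - 1) :
    ∃ w : Ω, ∀ s : G, s • o = o → α s • w = w := by
  rcases h with h | h
  · obtain ⟨w, rfl⟩ := Set.ncard_eq_one.1 h
    exact ⟨w, fun s hs => hO s hs w rfl⟩
  · have h1 := Set.ncard_add_ncard_compl O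
    have hn0 : 0 < Fintype.card Ω := Fintype.card_pos_iff.2 ⟨o⟩
    rw [Nat.card_eq_fintype_card] at h1
    obtain ⟨w, hw⟩ := Set.ncard_eq_one.1 (show Oᶜ.ncard = 1 by omega)
    refine ⟨w, fun s hs => ?_⟩
    have h2 : α s • w ∈ Oᶜ := fun h3 => by
      have := hO _ (inv_smul_eq_iff.2 hs.symm) _ h3
      rw [map_inv, inv_smul_smul] at this
      exact (show w ∈ Oᶜ from hw ▸ rfl) this
    rwa [hw] at h2

omit [DecidableEq Ω] in
theorem exists_perm (G : Subgroup (Equiv.Perm Ω)) [IsPretransitive G Ω] (o : Ω) (α : MulAut G)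
    {w : Ω} (hw : ∀ s : G, s • o = o → α s • w = w) :
    ∃ σ : Equiv.Perm Ω, σ ∈ Subgroup.normalizer (G : Set (Equiv.Perm Ω)) ∧
      ∀ g : G, ((α g : G) : Equiv.Perm Ω) = σ * (g : Equiv.Perm Ω) * σ⁻¹ := by
  choose g hg using exists_smul_eq G o
  let f : Ω → Ω := fun x => α (g x) • w
  have hf : ∀ (h : G) x, f (h • x) = α h • f x := by
    intro h x
    have := hw ((g (h • x))⁻¹ * h * g x) (by rw [mul_smul, mul_smul, hg, inv_smul_eq_iff, hg])
    rw [map_mul, map_mul, map_inv, mul_smul, mul_smul, inv_smul_eq_iff] at this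
    exact this.symm
  have hs : Function.Surjective f := by
    intro y
    obtain ⟨h, rfl⟩ := exists_smul_eq G (f o) y
    obtain ⟨h, rfl⟩ := α.surjective h
    exact ⟨_, hf h o⟩
  let σ : Equiv.Perm Ω := Equiv.ofBijective f (Finite.surjective_iff_bijective.1 hs)
  have h1 : ∀ g : G, ((α g : G) : Equiv.Perm Ω) = σ * (g : Equiv.Perm Ω) * σ⁻¹ := by
    intro h
    rw [eq_mul_inv_iff_mul_eq]
    ext x
    exact (hf h x).symm
  exact ⟨σ, Subgroup.mem_normalizer_fintype fun n hn => h1 ⟨n, hn⟩ ▸ (α ⟨n, hn⟩).2, h1⟩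

end CL.FGS.OddAut
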