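import Mathlib
import Cfsg.Agent.TECH.Amb

/-!
Groups whose element orders are at most six: basic facts and a lemma on Frobenius actions.
-/

set_option autoImplicit false
set_option linter.unusedSectionVars false

namespace CL.Ord6

open Subgroup Finset

variable {G Γ : Type*} [Group G] [Group Γ]

/-- all element orders are at most six -/
def H6 (G : Type*) [Group G] : Prop := ∀ g : G, orderOf g ≤ 6

theorem H6.sub (h : H6 G) {f : Γ →* G} (hf : Function.Injective f) : H6 Γ := fun g => by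
  rw [← orderOf_injective f hf]; exact h _

theorem H6.subgroup (h : H6 G) (K : Subgroup G) : H6 K := h.sub K.subtype_injective

theorem H6.equiv (h : H6 G) (e : G ≃* Γ) : H6 Γ := h.sub (f := e.symm.toMonoidHom) e.symm.injective

variable [Finite G]

theorem H6.map (h : H6 G) {f : G →* Γ} (hf : Function.Surjective f) : H6 Γ := fun y => by
  obtain ⟨g, rfl⟩ := hf y
  exact (Nat.le_of_dvd (orderOf_pos g) (orderOf_map_dvd f g)).trans (h g)

theorem H6.quot (h : H6 G) (N : Subgroup G) [N.Normal] : H6 (G ⧸ N) := h.map (QuotientGroup.mk'_surjective N)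

theorem H6.comm (h : H6 G) {a b : G} (e : a * b = b * a) (c : (orderOf a).Coprime (orderOf b)) :
    orderOf a * orderOf b ≤ 6 := by
  rw [← Commute.orderOf_mul_eq_mul_orderOf_of_coprime e c]; exact h _

theorem H6.pow_of_dvd (h : H6 G) {g : G} {n m : ℕ} (e : g ^ n = 1)
    (c : ∀ k, k ≤ 6 → k ∣ n → k ∣ m) : g ^ m = 1 :=
  orderOf_dvd_iff_pow_eq_one.1 (c _ (h g) (orderOf_dvd_of_pow_eq_one e))

theorem H6.pow_p (h : H6 G) {p : ℕ} (hp : p.Prime) {g : G} {k : ℕ} (e : g ^ p ^ k = 1) {m : ℕ}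
    (c : ∀ j, p ^ j ≤ 6 → p ^ j ∣ m) : g ^ m = 1 := by
  obtain ⟨j, -, hj⟩ := (Nat.dvd_prime_pow hp).1 (orderOf_dvd_of_pow_eq_one e)
  exact orderOf_dvd_iff_pow_eq_one.1 (hj ▸ c j (hj ▸ h g))

theorem pow_aux {p b j : ℕ} (hp : 1 < p) (h : p ^ j ≤ 6) (hb : 6 < p ^ (b + 1)) : p ^ j ∣ p ^ b :=
  pow_dvd_pow p (by_contra fun c => by
    have := Nat.pow_le_pow_right hp.le (show b + 1 ≤ j by omega); omega)

theorem H6.pow4 (h : H6 G) {g : G} {k : ℕ} (e : g ^ 2 ^ k = 1) : g ^ 4 = 1 :=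
  h.pow_p Nat.prime_two e fun _ c => pow_aux (b := 2) (by norm_num) c (by norm_num)

theorem H6.pow3 (h : H6 G) {g : G} {k : ℕ} (e : g ^ 3 ^ k = 1) : g ^ 3 = 1 :=
  h.pow_p Nat.prime_three e fun _ c => pow_aux (b := 1) (by norm_num) c (by norm_num)

theorem H6.pow5 (h : H6 G) {g : G} {k : ℕ} (e : g ^ 5 ^ k = 1) : g ^ 5 = 1 :=
  h.pow_p Nat.prime_five e fun _ c => pow_aux (b := 1) (by norm_num) c (by norm_num)

theorem H6.p4 (h : H6 G) {P : Subgroup G} (hP : IsPGroup 2 P) {g : G} (hg : g ∈ P) : g ^ 4 = 1 :=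
  (MSS.isPGroup_iff_forall_mem.1 hP g hg).elim fun _ e => h.pow4 e

theorem H6.p3 (h : H6 G) {P : Subgroup G} (hP : IsPGroup 3 P) {g : G} (hg : g ∈ P) : g ^ 3 = 1 :=
  (MSS.isPGroup_iff_forall_mem.1 hP g hg).elim fun _ e => h.pow3 e

theorem H6.p5 (h : H6 G) {P : Subgroup G} (hP : IsPGroup 5 P) {g : G} (hg : g ∈ P) : g ^ 5 = 1 :=
  (MSS.isPGroup_iff_forall_mem.1 hP g hg).elim fun _ e => h.pow5 e

theorem H6.prime (h : H6 G) {p : ℕ} (hp : p.Prime) (c : p ∣ Nat.card G) : p = 2 ∨ p = 3 ∨ p = 5 := by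
  have := Fact.mk hp
  obtain ⟨g, hg⟩ := exists_prime_orderOf_dvd_card' p c
  have h1 := hg ▸ h g
  interval_cases p <;> simp_all (config := {decide := true})

theorem ord5 {f : G} (h5 : f ^ 5 = 1) (h1 : f ≠ 1) : orderOf f = 5 :=
  haveI := Fact.mk Nat.prime_five; orderOf_eq_prime h5 h1

theorem ord3 {f : G} (h5 : f ^ 3 = 1) (h1 : f ≠ 1) : orderOf f = 3 :=
  haveI := Fact.mk Nat.prime_three; orderOf_eq_prime h5 h1

theorem ord2 {f : G} (h5 : f * f = 1) (h1 : f ≠ 1) : orderOf f = 2 :=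
  orderOf_eq_prime (by rwa [pow_two]) h1

/-- an element commuting with an element of order five is a `5`-element -/
theorem H6.c5 (h : H6 G) {f c : G} (h5 : f ^ 5 = 1) (h1 : f ≠ 1) (e : f * c = c * f) : c ^ 5 = 1 := by
  have k : ∀ j, (orderOf (c ^ j)).Coprime 5 → c ^ j = 1 := fun j hj => by
    have h2 := h.comm (Commute.pow_right e j).eq (ord5 h5 h1 ▸ hj.symm)
    rw [ord5 h5 h1] at h2
    exact orderOf_eq_one_iff.1 (by have := orderOf_pos (c ^ j); omega)
  by_cases c5 : 5 ∣ orderOf c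
  · exact h.pow_of_dvd (pow_orderOf_eq_one c) fun k a b => by
      have := h c; have := orderOf_pos c
      rw [show orderOf c = 5 by omega] at b; exact b
  · have := k 1 (by rw [pow_one]; exact (Nat.Coprime.symm (Nat.prime_five.coprime_iff_not_dvd.2 c5)))
    rw [pow_one] at this; rw [this, one_pow]

theorem H6.fpf5 (h : H6 G) {f c : G} (h5 : f ^ 5 = 1) (h1 : f ≠ 1) (e : f * c = c * f) {n : ℕ}
    (hn : n.Coprime 5) (hc : c ^ n = 1) : c = 1 :=
  orderOf_eq_one_iff.1 (Nat.eq_one_of_dvd_coprimes hn (orderOf_dvd_of_pow_eq_one hc)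
    (orderOf_dvd_of_pow_eq_one (h.c5 h5 h1 e)))

/-- no element of order twelve -/
theorem H6.no12 (h : H6 G) {c y : G} (h3 : c ^ 3 = 1) (h1 : c ≠ 1) (e : c * y = y * c) (hy : y ^ 4 = 1) :
    y * y = 1 := by
  have h2 : orderOf y ∣ 2 ^ 2 := orderOf_dvd_of_pow_eq_one hy
  have h4 := h.comm e (ord3 h3 h1 ▸ Nat.Coprime.coprime_dvd_right h2 (by norm_num))
  rw [ord3 h3 h1] at h4
  rw [← pow_two, ← orderOf_dvd_iff_pow_eq_one]
  obtain ⟨j, hj, e⟩ := (Nat.dvd_prime_pow Nat.prime_two).1 h2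
  rw [e] at h4 ⊢
  interval_cases j <;> simp_all

/-- a lift of an element of order `n` -/
theorem H6.lift (h : H6 G) (φ : G →* Γ) {g : G} {n : ℕ} (hn : orderOf (φ g) = n) (h4 : 4 ≤ n) :
    g ^ n = 1 := by
  obtain ⟨k, hk⟩ := hn ▸ orderOf_map_dvd φ g
  have h1 := h g
  have h2 := orderOf_pos g
  rw [← pow_orderOf_eq_one g, hk]
  rcases k with _ | _ | k
  · omega
  · simp
  · nlinarith

theorem H6.lift5 (h : H6 G) (φ : G →* Γ) {g : G} (h5 : φ g ^ 5 = 1) (h1 : φ g ≠ 1) : g ^ 5 = 1 :=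
  h.lift φ (haveI := Fact.mk Nat.prime_five; orderOf_eq_prime h5 h1) (by norm_num)

theorem frob_ring {R : Type*} [Ring R] (θ : Γ →* R) (K : Subgroup Γ) [Finite K] {y : Γ} {n : ℕ}
    (hn : 0 < n) (hy : ∀ k ∈ K, y * k * y⁻¹ ∈ K)
    (hf : ∀ i, 0 < i → i < n → ∀ k ∈ K, y ^ i * k = k * y ^ i → k = 1)
    (h0 : ∑ i ∈ range n, θ y ^ i = 0) {k : Γ} (hk : k ∈ K) : (1 - θ k) * (Nat.card K : R) = 0 := by
  have := Fintype.ofFinite K
  have hyi : ∀ i, ∀ k ∈ K, y ^ i * k * (y ^ i)⁻¹ ∈ K := fun i => by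
    induction i with
    | zero => simp
    | succ i ih => intro k hk; simpa [pow_succ', mul_assoc] using hy _ (ih k hk)
  set S := ∑ c : K, θ c with hS
  have h1 : θ k * S = S := by
    rw [hS, mul_sum, ← Equiv.sum_comp (Equiv.mulLeft (⟨k, hk⟩ : K)) fun c => θ c]
    simp
  have h2 : ∀ i, 0 < i → i < n → ∑ c : K, θ c * θ y ^ i * θ (c : Γ)⁻¹ = S * θ y ^ i := fun i a b => by
    let ψ : K → K := fun c => ⟨c * (y ^ i * (c : Γ)⁻¹ * (y ^ i)⁻¹), mul_mem c.2 (hyi i _ (inv_mem c.2))⟩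
    have hψ : Function.Injective ψ := fun c d e => by
      have e1 : c * (y ^ i * (c : Γ)⁻¹ * (y ^ i)⁻¹) = d * (y ^ i * (d : Γ)⁻¹ * (y ^ i)⁻¹) :=
        congrArg Subtype.val e
      refine Subtype.ext (inv_mul_eq_one.1 (hf i a b _ (mul_mem (inv_mem c.2) d.2) ?_))
      calc y ^ i * ((c : Γ)⁻¹ * d) = (c : Γ)⁻¹ * (c * (y ^ i * (c : Γ)⁻¹ * (y ^ i)⁻¹)) * y ^ i * d := by group
        _ = _ := by rw [e1]; group
    rw [hS, sum_mul, ← (Equiv.ofBijective ψ hψ.bijective_of_finite).sum_comp fun c => θ c * θ y ^ i]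
    refine sum_congr rfl fun c _ => ?_
    simp only [← map_pow, ← map_mul, Equiv.ofBijective_apply, ψ]
    congr 1; group
  have h3 : ∑ i ∈ range n, ∑ c : K, θ c * θ y ^ i * θ (c : Γ)⁻¹ = 0 := by
    rw [sum_comm]
    exact sum_eq_zero fun c _ => by rw [← sum_mul, ← mul_sum, h0, mul_zero, zero_mul]
  obtain ⟨n, rfl⟩ := Nat.exists_eq_succ_of_ne_zero hn.ne'
  rw [sum_range_succ', sum_congr rfl fun i hi => h2 (i + 1) i.succ_pos
    (Nat.succ_lt_succ (mem_range.1 hi)), ← mul_sum] at h3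
  simp only [pow_zero, mul_one, ← map_mul, mul_inv_cancel, map_one, sum_const, card_univ,
    nsmul_eq_mul, ← Nat.card_eq_fintype_card] at h3
  rw [eq_neg_of_add_eq_zero_right h3, mul_neg, ← mul_assoc, sub_mul, one_mul, h1, sub_self, zero_mul,
    neg_zero]

/-- automorphisms as additive endomorphisms -/
def toE (A : Type*) [CommGroup A] : MulAut A →* AddMonoid.End (Additive A) where
  toFun g := MonoidHom.toAdditive g.toMonoidHom
  map_one' := rfl
  map_mul' _ _ := rfl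

open scoped IsMulCommutative in
theorem act_sum (W : Subgroup G) [W.Normal] [IsMulCommutative W] (y : G) (n : ℕ) (w : Additive W) :
    (((∑ i ∈ range n, toE W (MulAut.conjNormal y) ^ i) w).toMul : G) * y ^ n = (w.toMul * y) ^ n := by
  induction n with
  | zero => simp
  | succ n ih =>
    rw [sum_range_succ, pow_succ (_ * y), ← ih, ← map_pow, ← map_pow]
    change ((∑ i ∈ range n, toE W (MulAut.conjNormal y) ^ i) w).toMul *
      (y ^ n * w.toMul * (y ^ n)⁻¹) * _ = _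
    group

open scoped IsMulCommutative in
/-- A Frobenius group acting on `W` whose complement satisfies the norm identity: the kernel acts
trivially. -/
theorem frob (φ : G →* Γ) {W : Subgroup G} [W.Normal] (hW : ∀ a ∈ W, ∀ b ∈ W, a * b = b * a)
    (hker : ∀ g, φ g = 1 → ∀ w ∈ W, g * w = w * g) (K : Subgroup Γ) (hK : K ≤ φ.range) {y : G} {n : ℕ}
    (hn : 0 < n) (hy : ∀ k ∈ K, φ y * k * (φ y)⁻¹ ∈ K)
    (hf : ∀ i, 0 < i → i < n → ∀ k ∈ K, φ y ^ i * k = k * φ y ^ i → k = 1)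
    (h0 : ∀ w ∈ W, (w * y) ^ n = y ^ n) {r : ℕ} (hr : ∀ w ∈ W, w ^ r = 1)
    (hc : (Nat.card K).Coprime r) {g : G} (hg : φ g ∈ K) {w : G} (hw : w ∈ W) : g * w = w * g := by
  have : IsMulCommutative W := ⟨⟨fun a b => Subtype.ext (hW _ a.2 _ b.2)⟩⟩
  let θ : φ.range →* MulAut W := φ.rangeRestrict.liftOfSurjective
    φ.rangeRestrict_surjective ⟨MulAut.conjNormal, fun g hg => by
      ext w
      have := hker g (congrArg Subtype.val hg) _ w.2
      simp [this]⟩
  have hθ : ∀ g, θ (φ.rangeRestrict g) = MulAut.conjNormal g := fun g =>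
    MonoidHom.liftOfRightInverse_comp_apply ..
  have : Finite φ.range := Finite.of_surjective _ φ.rangeRestrict_surjective
  have h1 := frob_ring ((toE W).comp θ) (K.subgroupOf φ.range) (y := φ.rangeRestrict y) hn
    (fun k hk => hy _ hk)
    (fun i a b k hk e => Subtype.ext (hf i a b _ hk (congrArg Subtype.val e))) (by
      ext w
      have := act_sum W y n w
      rw [h0 _ w.toMul.2, mul_eq_right] at this
      simpa [hθ] using this) (k := φ.rangeRestrict g) hg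
  rw [Nat.card_congr (subgroupOfEquivOfLe hK).toEquiv, MonoidHom.comp_apply, hθ, sub_mul, one_mul,
    sub_eq_zero] at h1
  have h2 : g * w ^ Nat.card K * g⁻¹ = w ^ Nat.card K := by
    have := congrArg (fun t : AddMonoid.End (Additive W) => ((t (Additive.ofMul ⟨w, hw⟩)).toMul : G)) h1
    simp only [AddMonoid.End.natCast_apply, AddMonoid.End.coe_mul, Function.comp_apply] at this
    exact this.symm
  obtain ⟨j, hj⟩ := exists_pow_eq_self_of_coprime (x := w) (n := Nat.card K)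
    (hc.coprime_dvd_right (orderOf_dvd_of_pow_eq_one (hr w hw)))
  rw [← hj]
  exact ((Commute.pow_right (mul_inv_eq_iff_eq_mul.1 h2) j)).eq

end CL.Ord6
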