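import Cfsg.Agent.FGS.Ord6A

/-!
Groups whose element orders are at most six: extensions of `A₅` by an elementary abelian `2`-group.
-/

set_option autoImplicit false
set_option linter.unusedSectionVars false

namespace CL.Ord6

open Subgroup Equiv
open scoped commutatorElement

variable {G Γ : Type*} [Group G] [Group Γ]

abbrev S5 := Perm (Fin 5)
abbrev S6 := Perm (Fin 6)

/-- `π` maps onto `A₅` with elementary abelian kernel -/
structure TQ (π : G →* S5) : Prop where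
  rng : π.range = alternatingGroup (Fin 5)
  el : ∀ q, π q = 1 → q * q = 1

theorem comm_of_sq {a b : G} (ha : a * a = 1) (hb : b * b = 1) (hab : a * b * (a * b) = 1) :
    a * b = b * a := by
  calc a * b = a * (a * b * (a * b)) * b := by rw [hab, mul_one]
    _ = a * a * (b * a) * (b * b) := by group
    _ = b * a := by rw [ha, hb, one_mul, mul_one]

theorem inv_of_sq {a : G} (ha : a * a = 1) : a⁻¹ = a := inv_eq_of_mul_eq_one_right ha

theorem sign_of_odd {n m : ℕ} {x : Perm (Fin n)} (hm : Odd m) (h : x ^ m = 1) :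
    x ∈ alternatingGroup (Fin n) := by
  have := congrArg Perm.sign h
  rw [map_pow, map_one, Int.units_pow_eq_pow_mod_two, Nat.odd_iff.1 hm, pow_one] at this
  exact this

theorem surj_comm [Finite G] {Q : Subgroup G} {g : G} (hg : ∀ q ∈ Q, g * q * g⁻¹ ∈ Q)
    (hf : ∀ q ∈ Q, g * q = q * g → q = 1) {q : G} (hq : q ∈ Q) : ∃ y ∈ Q, y⁻¹ * (g * y * g⁻¹) = q := by
  let φ : Q → Q := fun y => ⟨(y : G)⁻¹ * (g * y * g⁻¹), mul_mem (inv_mem y.2) (hg _ y.2)⟩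
  have hφ : Function.Injective φ := fun y z e => by
    have e1 : (y : G)⁻¹ * (g * y * g⁻¹) = (z : G)⁻¹ * (g * z * g⁻¹) := congrArg Subtype.val e
    refine Subtype.ext (mul_inv_eq_one.1 (hf _ (mul_mem y.2 (inv_mem z.2)) ?_))
    calc g * (y * (z : G)⁻¹) = y * ((y : G)⁻¹ * (g * y * g⁻¹)) * g * (z : G)⁻¹ := by group
      _ = _ := by rw [e1]; group
  obtain ⟨y, hy⟩ := Finite.surjective_of_injective hφ ⟨q, hq⟩
  exact ⟨y, y.2, congrArg Subtype.val hy⟩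

set_option synthInstance.maxSize 2048 in
theorem inv5 : ∀ τ : S5, Perm.sign τ = 1 → τ * τ = 1 → τ ≠ 1 →
    ∃ f : S5, τ * f = f ^ 4 * τ ∧ f ^ 5 = 1 ∧ f ≠ 1 := by decide +kernel

namespace TQ

variable {π : G →* S5} (h : TQ π)
include h

theorem lift {x : S5} (hx : x ∈ alternatingGroup (Fin 5)) : ∃ g, π g = x := (h.rng.ge hx :)

theorem even (g : G) : Perm.sign (π g) = 1 := (h.rng.le ⟨g, rfl⟩ :)

theorem comm {a b : G} (ha : π a = 1) (hb : π b = 1) : a * b = b * a :=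
  comm_of_sq (h.el a ha) (h.el b hb) (h.el _ (by rw [map_mul, ha, hb, one_mul]))

theorem act {a b q : G} (e : π a = π b) (hq : π q = 1) : a * q * a⁻¹ = b * q * b⁻¹ := by
  have := h.comm (a := b⁻¹ * a) (by rw [map_mul, map_inv, e, inv_mul_cancel]) hq
  calc a * q * a⁻¹ = b * (b⁻¹ * a * q) * a⁻¹ := by group
    _ = _ := by rw [this]; group

omit h in
theorem cj {q : G} (hq : π q = 1) (a : G) : π (a * q * a⁻¹) = 1 := by simp [hq]

theorem pg : IsPGroup 2 π.ker :=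
  MSS.isPGroup_iff_forall_mem.2 fun q hq => ⟨1, by rw [pow_one, pow_two, h.el q hq]⟩

variable [Finite G]

/-- the fixed points of an involution are commutators -/
theorem f1 (h6 : H6 G) {t v : G} (t2 : π t * π t = 1) (t1 : π t ≠ 1) (hv : π v = 1)
    (e : t * v = v * t) : ∃ b, π b = 1 ∧ v = b * (t * b * t⁻¹) := by
  obtain ⟨x, x1, x5, x0⟩ := inv5 _ (h.even t) t2 t1
  obtain ⟨f, rfl⟩ := h.lift (sign_of_odd (by decide) x5)
  have f5 := h6.lift5 π x5 x0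
  have v5 : (v * f) ^ 5 = 1 := h6.lift5 π (by rwa [map_mul, hv, one_mul]) (by rwa [map_mul, hv, one_mul])
  have e0 : t * v * t⁻¹ = v := mul_inv_eq_iff_eq_mul.2 e
  have e1 : t * (f * v * f⁻¹) * t⁻¹ = f ^ 4 * v * (f ^ 4)⁻¹ := by
    have := h.act (a := t * f) (b := f ^ 4 * t) (by simpa using x1) hv
    calc _ = t * f * v * (t * f)⁻¹ := by group
      _ = f ^ 4 * (t * v * t⁻¹) * (f ^ 4)⁻¹ := by rw [this]; group
      _ = _ := by rw [e0]
  have e2 : t * (f ^ 2 * v * (f ^ 2)⁻¹) * t⁻¹ = f ^ 3 * v * (f ^ 3)⁻¹ := by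
    have := h.act (a := t * f ^ 2) (b := f ^ 3 * t) (by
      simp only [map_mul, map_pow]
      calc π t * π f ^ 2 = π t * π f * π f := by rw [pow_two, mul_assoc]
        _ = π f ^ 5 * π f ^ 3 * π t := by rw [x1, mul_assoc, x1]; group
        _ = _ := by rw [x5, one_mul]) hv
    calc _ = t * f ^ 2 * v * (t * f ^ 2)⁻¹ := by group
      _ = f ^ 3 * (t * v * t⁻¹) * (f ^ 3)⁻¹ := by rw [this]; group
      _ = _ := by rw [e0]
  refine ⟨f * v * f⁻¹ * (f ^ 2 * v * (f ^ 2)⁻¹), by simp [hv], ?_⟩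
  rw [← conj_mul, e1, e2, h.comm (cj hv (f ^ 4)) (cj hv _)]
  refine (inv_of_sq (h.el v hv)).symm.trans (inv_eq_of_mul_eq_one_right ?_)
  calc _ = (v * f) ^ 5 * (f ^ 5)⁻¹ := by simp only [pow_succ, pow_zero, one_mul]; group
    _ = 1 := by rw [v5, f5, inv_one, one_mul]

end TQ

/-- a central extension inside the kernel stays elementary abelian -/
theorem d10 [Finite G] (h6 : H6 G) {ψ : G →* Γ} (hψ : Function.Surjective ψ) {π : Γ →* S5} (h : TQ π)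
    (hW : ∀ w, ψ w = 1 → w * w = 1) (hZ : ∀ w q, ψ w = 1 → π (ψ q) = 1 → w * q = q * w) :
    TQ (π.comp ψ) := by
  have : Finite Γ := Finite.of_surjective _ hψ
  refine ⟨by rw [MonoidHom.range_comp, MonoidHom.range_eq_top.2 hψ, ← MonoidHom.range_eq_map, h.rng],
    fun q hq => ?_⟩
  obtain ⟨T, hT⟩ := h.lift (x := swap 0 1 * swap 2 3) (by simp)
  obtain ⟨t, rfl⟩ := hψ T
  have t2 : π (ψ t) * π (ψ t) = 1 := by rw [hT]; decide
  have t1 : π (ψ t) ≠ 1 := by rw [hT]; decide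
  obtain ⟨x, x1, x5, x0⟩ := inv5 _ (h.even _) t2 t1
  obtain ⟨F, rfl⟩ := h.lift (sign_of_odd (by decide) x5)
  obtain ⟨f, rfl⟩ := hψ F
  let U : Subgroup G := (π.comp ψ).ker ⊓ (centralizer {ψ t}).comap ψ
  have mU : ∀ {x}, x ∈ U ↔ π (ψ x) = 1 ∧ ψ x * ψ t = ψ t * ψ x :=
    and_congr_right fun _ => mem_centralizer_singleton_iff
  have tt : π (ψ (t * t)) = 1 := by rw [map_mul, map_mul, t2]
  have sq : ∀ x ∈ U, x * x = 1 := fun x hx => by
    obtain ⟨a, b⟩ := mU.1 hx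
    obtain ⟨B, hB, e⟩ := h.f1 (h6.map hψ) (v := ψ x * (ψ (t * t))⁻¹) t2 t1
      (by rw [map_mul, map_inv, a, tt, inv_one, one_mul]) (by
      rw [map_mul, ← mul_assoc, ← b]; group)
    obtain ⟨b, rfl⟩ := hψ B
    have k : π (ψ (t * b * (t * b))) = 1 := by simp [hB, t2]
    have e1 : ψ (x * (t * b * (t * b))⁻¹) = 1 := by
      rw [map_mul, map_inv, mul_inv_eq_one, mul_inv_eq_iff_eq_mul.1 e, h.comm hB (TQ.cj hB _), mul_assoc,
        h.comm hB tt]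
      simp only [map_mul]; group
    have e2 : (t * b) ^ 4 = 1 := h6.pow4 (k := 3) (by
      have := hW _ (show ψ (t * b * (t * b) * (t * b * (t * b))) = 1 by rw [map_mul, h.el _ k])
      rw [← this, show 2 ^ 3 = 8 from rfl]; simp only [pow_succ, pow_zero, one_mul, mul_assoc])
    generalize t * b = y at *
    calc x * x = x * (y * y)⁻¹ * (y * y) * (x * (y * y)⁻¹) * (y * y) := by group
      _ = x * (y * y)⁻¹ * (x * (y * y)⁻¹) * y ^ 4 := by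
        rw [mul_assoc _ (y * y), ← hZ _ _ e1 k]; simp only [pow_succ, pow_zero, one_mul, mul_assoc]
      _ = 1 := by rw [hW _ e1, e2, one_mul]
  have cU : ∀ x ∈ U, ∀ y ∈ U, x * y = y * x := fun x a y b => comm_of_sq (sq x a) (sq y b) (sq _ (mul_mem a b))
  have cW : ∀ a b, π (ψ a) = 1 → π (ψ b) = 1 → ψ ⁅a, b⁆ = 1 := fun a b c d => by
    rw [map_commutatorElement, commutatorElement_eq_one_iff_mul_comm, h.comm c d]
  have cj : ∀ a g, π (ψ a) = 1 → π (ψ (g * a * g⁻¹)) = 1 := fun a g c => by simp [c]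
  have f5 := h6.lift5 (π.comp ψ) x5 x0
  have sw : ∀ x ∈ U, ∀ y ∈ U, f * ⁅x, f * y * f⁻¹⁆ * f⁻¹ = ⁅y, f * x * f⁻¹⁆ := fun x a y b => by
    obtain ⟨y1, y2⟩ := mU.1 b
    have y3 : ψ t * ψ y * (ψ t)⁻¹ = ψ y := mul_inv_eq_iff_eq_mul.2 y2.symm
    have x2 : π (ψ t * ψ f) = π ((ψ f)⁻¹ * ψ t) := by
      rw [map_mul, x1, map_mul, map_inv, inv_eq_of_mul_eq_one_right (pow_succ' (π (ψ f)) 4 ▸ x5)]
    have x3 : π (ψ t * (ψ f)⁻¹) = π (ψ f * ψ t) := by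
      simp only [map_mul, map_inv] at x2 ⊢
      calc _ = π (ψ f) * ((π (ψ f))⁻¹ * π (ψ t)) * (π (ψ f))⁻¹ := by group
        _ = _ := by rw [← x2]; group
    have u : f * y * f⁻¹ * (f⁻¹ * y * f⁻¹⁻¹) ∈ U := mU.2 ⟨by simp [y1], (mul_inv_eq_iff_eq_mul.1 (by
      simp only [map_mul, map_inv]
      calc _ = ψ t * ψ f * ψ y * (ψ t * ψ f)⁻¹ * (ψ t * (ψ f)⁻¹ * ψ y * (ψ t * (ψ f)⁻¹)⁻¹) := by group
        _ = (ψ f)⁻¹ * (ψ t * ψ y * (ψ t)⁻¹) * (ψ f)⁻¹⁻¹ * (ψ f * (ψ t * ψ y * (ψ t)⁻¹) * (ψ f)⁻¹) := by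
          rw [h.act x2 y1, h.act x3 y1]; group
        _ = _ := by rw [y3, h.comm (TQ.cj y1 _) (TQ.cj y1 _)])).symm⟩
    have a1 := (mU.1 a).1
    have e1 : ⁅x, f * y * f⁻¹⁆ * ⁅x, f⁻¹ * y * f⁻¹⁻¹⁆ = 1 := by
      rw [← commutatorElement_eq_one_iff_mul_comm.2 (cU x a _ u),
        commutatorElement_mul_right_eq_mul_conj x (f * y * f⁻¹), mul_assoc ⁅x, f * y * f⁻¹⁆, mul_assoc ⁅x, f * y * f⁻¹⁆, ← hZ _ _ (cW _ _ a1 (cj _ _ y1)) (cj _ _ y1),
        mul_inv_cancel_right]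
    rw [eq_inv_of_mul_eq_one_left e1, ← inv_of_sq (hW _ (cW _ _ y1 (cj _ _ a1))),
      inv_of_sq (hW _ (cW _ _ a1 (cj _ _ y1)))]
    simp only [commutatorElement_def]; group
  have cf : ∀ x ∈ U, ∀ y ∈ U, x * (f * y * f⁻¹) = f * y * f⁻¹ * x := fun x a y b => by
    have e := sw y b x a
    rw [← sw x a y b] at e
    refine commutatorElement_eq_one_iff_mul_comm.1 (h6.fpf5 (f := f * f) (n := 2) ?_ ?_ ?_ (by decide)
      (pow_two (M := G) _ ▸ hW _ (cW _ _ (mU.1 a).1 (cj _ _ (mU.1 b).1))))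
    · rw [← pow_two, ← pow_mul, mul_comm, pow_mul, f5, one_pow]
    · intro c
      refine x0 ?_
      rw [show f = (f * f) ^ 3 * (f ^ 5)⁻¹ by rw [← pow_two]; group, c, f5]; simp
    · rw [← mul_inv_eq_iff_eq_mul]; conv_rhs => rw [← e]
      group
  have g0 : π (ψ (t * (f * t * f⁻¹))) = π (ψ f) ^ 3 := by
    simp only [map_mul, map_inv]
    calc _ = π (ψ t) * π (ψ f) * π (ψ t) * (π (ψ f))⁻¹ := by group
      _ = _ := by rw [x1, mul_assoc _ (π (ψ t)) (π (ψ t)), t2]; group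
  have g1 : π (ψ f) ^ 3 ≠ 1 := fun c => x0 (by
    rw [show π (ψ f) = (π (ψ f) ^ 3) ^ 2 * (π (ψ f) ^ 5)⁻¹ by group, c, x5]; simp)
  obtain ⟨y, hy, rfl⟩ := surj_comm (Q := (π.comp ψ).ker) (g := t * (f * t * f⁻¹)) (fun q c => cj _ _ c)
    (fun q c e => h6.fpf5 (h6.lift5 (π.comp ψ) (by
      rw [MonoidHom.comp_apply, g0, ← pow_mul, mul_comm, pow_mul, x5, one_pow]) (g0 ▸ g1 :))
      (fun c => g1 (by rw [← g0, c]; simp)) e (n := 4) (by decide) (by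
        have := hW _ (show ψ (q * q) = 1 by rw [map_mul, h.el _ c])
        rw [← this]; simp only [pow_succ, pow_zero, one_mul, mul_assoc])) hq
  have m : ∀ z, π (ψ z) = 1 → z⁻¹ * (t * z * t⁻¹) ∈ U := fun z c => mU.2 ⟨by simp [c], by
    simp only [map_mul, map_inv]
    have c1 := h.comm c (show π (ψ t * ψ t) = 1 by rw [map_mul, t2])
    refine (mul_inv_eq_iff_eq_mul.1 ?_).symm
    calc _ = (ψ t * ψ z * (ψ t)⁻¹)⁻¹ * (ψ t * ψ t * ψ z) * (ψ t * ψ t)⁻¹ := by group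
      _ = (ψ t * ψ z * (ψ t)⁻¹)⁻¹ * ψ z := by rw [← c1]; group
      _ = _ := by rw [inv_of_sq (h.el _ (TQ.cj c _)), inv_of_sq (h.el _ c), h.comm (TQ.cj c _) c]⟩
  have m1 := m _ (cj y f⁻¹ hy)
  have m2 := m _ (cj y (f * t * f⁻¹) hy)
  rw [show y⁻¹ * (t * (f * t * f⁻¹) * y * (t * (f * t * f⁻¹))⁻¹) =
    f * ((f⁻¹ * y * f⁻¹⁻¹)⁻¹ * (t * (f⁻¹ * y * f⁻¹⁻¹) * t⁻¹)) * f⁻¹ *
      ((f * t * f⁻¹ * y * (f * t * f⁻¹)⁻¹)⁻¹ * (t * (f * t * f⁻¹ * y * (f * t * f⁻¹)⁻¹) * t⁻¹)) by group]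
  generalize (f⁻¹ * y * f⁻¹⁻¹)⁻¹ * (t * (f⁻¹ * y * f⁻¹⁻¹) * t⁻¹) = a at *
  generalize (f * t * f⁻¹ * y * (f * t * f⁻¹)⁻¹)⁻¹ *
    (t * (f * t * f⁻¹ * y * (f * t * f⁻¹)⁻¹) * t⁻¹) = b at *
  calc _ = f * a * f⁻¹ * (b * (f * a * f⁻¹)) * b := by group
    _ = f * (a * a) * f⁻¹ * (b * b) := by rw [cf b m2 a m1]; group
    _ = 1 := by rw [sq a m1, sq b m2]; group

end CL.Ord6
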