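import Cfsg.Agent.FGS.Ord6B
import Cfsg.Agent.SOLV.MinNormal

/-!
Groups whose element orders are at most six: extensions with an abelian minimal normal subgroup.
-/

set_option autoImplicit false
set_option linter.unusedSectionVars false
set_option synthInstance.maxSize 2048

namespace CL.Ord6

open Subgroup Equiv Cfsg

variable {G Γ : Type*} [Group G] [Group Γ]

/-- the structure of the non-solvable groups -/
def Str (G : Type*) [Group G] : Prop :=
  (∃ π : G →* S5, TQ π) ∨ Nonempty (G ≃* S5) ∨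
    ∃ ι : G →* S6, Function.Injective ι ∧ alternatingGroup (Fin 6) ≤ ι.range

/-- the four-group generated by two commuting involutions -/
def v4 (a b : Γ) (ha : a * a = 1) (hb : b * b = 1) (hc : b * a = a * b) : Subgroup Γ where
  carrier := {x | x = 1 ∨ x = a ∨ x = b ∨ x = a * b}
  one_mem' := Or.inl rfl
  mul_mem' := by
    have e1 : ∀ x, a * (a * x) = x := fun x => by rw [← mul_assoc, ha, one_mul]
    have e2 : ∀ x, b * (a * x) = a * (b * x) := fun x => by rw [← mul_assoc, hc, mul_assoc]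
    rintro _ _ (rfl | rfl | rfl | rfl) (rfl | rfl | rfl | rfl) <;> simp [mul_assoc, *]
  inv_mem' := by
    rintro _ (rfl | rfl | rfl | rfl)
    · simp
    · simp [inv_of_sq ha]
    · simp [inv_of_sq hb]
    · simp [inv_of_sq ha, inv_of_sq hb, hc]

theorem cop_of_pow {K : Subgroup Γ} [Finite K] {p r : ℕ} (hp : p.Prime) (h : ∀ k ∈ K, k ^ p = 1)
    (c : p.Coprime r) : (Nat.card K).Coprime r := by
  have := Fact.mk hp
  obtain ⟨n, hn⟩ := IsPGroup.exists_card_eq (p := p) (G := K)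
    fun k => ⟨1, Subtype.ext (by simpa using h k k.2)⟩
  exact hn ▸ c.pow_left n

theorem fin_of_le [Finite G] {φ : G →* Γ} {K : Subgroup Γ} (h : K ≤ φ.range) : Finite K :=
  haveI : Finite φ.range := Finite.of_surjective _ φ.rangeRestrict_surjective
  Finite.of_injective _ (inclusion_injective h)

variable [Finite G]

theorem fin5 (h : H6 G) (φ : G →* Γ) {W : Subgroup G} [hW : W.Normal] {g d : G}
    (hg : ∀ w ∈ W, g * w = w * g) (h5 : (φ g * (φ d * φ g * (φ d)⁻¹)) ^ 5 = 1)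
    (h1 : φ g * (φ d * φ g * (φ d)⁻¹) ≠ 1) {r : ℕ} (hr : r.Coprime 5) {w : G} (hw : w ∈ W)
    (e : w ^ r = 1) : w = 1 := by
  have k : φ (g * (d * g * d⁻¹)) = φ g * (φ d * φ g * (φ d)⁻¹) := by simp
  refine h.fpf5 (h.lift5 φ (k ▸ h5) (k ▸ h1)) (fun c => h1 (by rw [← k, c, map_one])) ?_ hr e
  have := hg _ (hW.conj_mem' w hw d)
  calc g * (d * g * d⁻¹) * w = g * d * (g * (d⁻¹ * w * d)) * d⁻¹ := by group
    _ = g * w * (d * g * d⁻¹) := by rw [this]; group
    _ = _ := by rw [hg w hw]; group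

/-- an alternating group of degree four cannot act on a `3`-group or `5`-group -/
theorem no_odd (h : H6 G) (φ : G →* Γ) {W : Subgroup G} [hW : W.Normal]
    (hc : ∀ a ∈ W, ∀ b ∈ W, a * b = b * a) (hker : ∀ g, φ g = 1 → ∀ w ∈ W, g * w = w * g)
    (hle : ∀ w ∈ W, φ w = 1) {r : ℕ} (hr : r = 3 ∨ r = 5) (hp : ∀ w ∈ W, w ^ r = 1) {a b c d : Γ}
    (ha : a ∈ φ.range) (hb : b ∈ φ.range) (hc' : c ∈ φ.range) (hd : d ∈ φ.range)
    (e : a * a = 1 ∧ b * b = 1 ∧ b * a = a * b ∧ c * a * c⁻¹ = b ∧ c * b * c⁻¹ = a * b ∧ c ^ 3 = 1 ∧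
      a ≠ 1 ∧ (a * (d * a * d⁻¹)) ^ 5 = 1 ∧ a * (d * a * d⁻¹) ≠ 1 ∧
      ∀ i, 0 < i → i < 3 → c ^ i * a ≠ a * c ^ i ∧ c ^ i * b ≠ b * c ^ i ∧ c ^ i * (a * b) ≠ a * b * c ^ i)
    {w : G} (hw : w ∈ W) : w = 1 := by
  obtain ⟨a2, b2, ab, ca, cb, c3, a1, d5, d1, cf⟩ := e
  obtain ⟨x, rfl⟩ := ha
  obtain ⟨y, rfl⟩ := hd
  obtain ⟨z, rfl⟩ := hc'
  have c1 : φ z ≠ 1 := fun e => (cf 1 one_pos (by omega)).1 (by simp [e])
  have o3 : ∀ g, φ g = φ z → 3 ∣ orderOf g := fun g e => by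
    have := orderOf_map_dvd φ g
    rwa [e, haveI := Fact.mk Nat.prime_three; orderOf_eq_prime c3 c1] at this
  have z4 : φ (z ^ 4) = φ z := by rw [map_pow, pow_succ, c3, one_mul]
  have z3 : (z ^ 4) ^ 3 = 1 := by
    have := o3 z rfl; have := h z; have := orderOf_pos z
    rw [← pow_mul, ← orderOf_dvd_iff_pow_eq_one]
    rcases (show orderOf z = 3 ∨ orderOf z = 6 by omega) with e | e <;> rw [e] <;> norm_num
  have k := fun w hw => frob φ hc hker (v4 (φ x) b a2 b2 ab) (by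
      rintro _ (rfl | rfl | rfl | rfl)
      exacts [one_mem _, ⟨x, rfl⟩, hb, mul_mem ⟨x, rfl⟩ hb]) (y := z ^ 4) (n := 3) (by omega) (by
      rw [z4]
      rintro _ (rfl | rfl | rfl | rfl)
      · exact Or.inl (by simp)
      · exact Or.inr (Or.inr (Or.inl ca))
      · exact Or.inr (Or.inr (Or.inr cb))
      · refine Or.inr (Or.inl ?_)
        rw [← conj_mul, ca, cb, ← mul_assoc, ab, mul_assoc, b2, mul_one]) (fun i a b' => by
      rw [z4]
      rintro _ (rfl | rfl | rfl | rfl) e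
      exacts [rfl, absurd e (cf i a b').1, absurd e (cf i a b').2.1, absurd e (cf i a b').2.2])
    (fun w hw => by
      have e1 : (w * z ^ 4) ^ 3 ∈ W := by
        rw [← QuotientGroup.eq_one_iff] at hw ⊢
        rw [QuotientGroup.mk_pow, QuotientGroup.mk_mul, hw, one_mul, ← QuotientGroup.mk_pow, z3]; rfl
      have e2 := orderOf_dvd_of_pow_eq_one ((pow_mul _ 3 r).trans (hp _ e1))
      have e3 := o3 (w * z ^ 4) (by rw [map_mul, hle w hw, one_mul, z4])
      have e4 := h (w * z ^ 4)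
      rw [z3, ← orderOf_dvd_iff_pow_eq_one]
      generalize orderOf (w * z ^ 4) = n at *
      rcases hr with rfl | rfl <;> interval_cases n <;> omega) hp (by
      have := fin_of_le (φ := φ) (K := v4 (φ x) b a2 b2 ab) (by
        rintro _ (rfl | rfl | rfl | rfl)
        exacts [one_mem _, ⟨x, rfl⟩, hb, mul_mem ⟨x, rfl⟩ hb])
      refine cop_of_pow Nat.prime_two ?_ (by rcases hr with rfl | rfl <;> norm_num)
      rintro _ (rfl | rfl | rfl | rfl)
      · simp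
      · rwa [pow_two]
      · rwa [pow_two]
      · rw [pow_two, mul_assoc, ← mul_assoc b, ab, mul_assoc, b2, mul_one, a2])
    (g := x) (Or.inr (Or.inl rfl)) (w := w) hw
  rcases hr with rfl | rfl
  · exact fin5 h φ k d5 d1 (by norm_num) hw (hp w hw)
  · by_contra w1
    have := congrArg φ (h.c5 (hp w hw) w1 (k w hw).symm)
    rw [map_pow, map_one, show φ x ^ 5 = φ x * φ x * (φ x * φ x) * φ x by
      simp only [pow_succ, pow_zero, one_mul, mul_assoc], a2] at this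
    exact a1 (by simpa using this)

theorem no_odd_alt (h : H6 G) {n : ℕ} (hn : n = 5 ∨ n = 6) (φ : G →* Perm (Fin n))
    (hφ : alternatingGroup (Fin n) ≤ φ.range) {W : Subgroup G} [hW : W.Normal]
    (hc : ∀ a ∈ W, ∀ b ∈ W, a * b = b * a) (hker : ∀ g, φ g = 1 → ∀ w ∈ W, g * w = w * g)
    (hle : ∀ w ∈ W, φ w = 1) {r : ℕ} (hr : r = 3 ∨ r = 5) (hp : ∀ w ∈ W, w ^ r = 1)
    {w : G} (hw : w ∈ W) : w = 1 := by
  rcases hn with rfl | rfl <;>
  exact no_odd h φ hc hker hle hr hp (a := swap 0 1 * swap 2 3) (b := swap 0 2 * swap 1 3)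
    (c := swap 1 2 * swap 2 3) (d := swap 1 2 * swap 2 4) (hφ (by simp)) (hφ (by simp)) (hφ (by simp))
    (hφ (by simp)) ⟨by decide, by decide, by decide, by decide, by decide, by decide, by decide,
      by decide +kernel, by decide +kernel, fun i a b => by interval_cases i <;> decide⟩ hw

theorem TQ.f5 {π : G →* S5} (h : TQ π) (h6 : H6 G) : ∃ f, f ^ 5 = 1 ∧ π f ^ 5 = 1 ∧ π f ≠ 1 := by
  obtain ⟨f, hf⟩ := h.lift (x := swap 0 1 * swap 1 2 * swap 2 3 * swap 3 4) (by simp)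
  have a : π f ^ 5 = 1 := by rw [hf]; decide
  have b : π f ≠ 1 := by rw [hf]; decide
  exact ⟨f, h6.lift5 π a b, a, b⟩

theorem pow_ne5 {f : Γ} (h5 : f ^ 5 = 1) (h1 : f ≠ 1) {i : ℕ} (a : 0 < i) (b : i < 5) : f ^ i ≠ 1 :=
  pow_ne_one_of_lt_orderOf a.ne' (by
    rwa [haveI := Fact.mk Nat.prime_five; orderOf_eq_prime h5 h1])

theorem f20 : ∀ k : S5, k * (swap 0 1 * swap 1 2 * swap 2 3 * swap 3 4) =
    swap 0 1 * swap 1 2 * swap 2 3 * swap 3 4 * k → k ^ 5 = 1 ∧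
    (swap 1 2 * swap 2 4 * swap 4 3) * k * (swap 1 2 * swap 2 4 * swap 4 3)⁻¹ *
      (swap 0 1 * swap 1 2 * swap 2 3 * swap 3 4) = swap 0 1 * swap 1 2 * swap 2 3 * swap 3 4 *
      ((swap 1 2 * swap 2 4 * swap 4 3) * k * (swap 1 2 * swap 2 4 * swap 4 3)⁻¹) ∧
    ∀ i : Fin 4, 0 < i → (swap 1 2 * swap 2 4 * swap 4 3) ^ i.1 * k =
      k * (swap 1 2 * swap 2 4 * swap 4 3) ^ i.1 → k = 1 := by decide +kernel

/-- a four-cycle normalizing a Sylow `3`-subgroup of `A₆` -/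
def y6 : S6 := swap 0 3 * (swap 1 4 * swap 4 2 * swap 2 5)

theorem f36 : ∀ k : S6, k * (swap 0 1 * swap 1 2) = swap 0 1 * swap 1 2 * k →
    k * (swap 3 4 * swap 4 5) = swap 3 4 * swap 4 5 * k → k ^ 3 = 1 ∧
    (y6 * k * y6⁻¹ * (swap 0 1 * swap 1 2) = swap 0 1 * swap 1 2 * (y6 * k * y6⁻¹) ∧
    y6 * k * y6⁻¹ * (swap 3 4 * swap 4 5) = swap 3 4 * swap 4 5 * (y6 * k * y6⁻¹)) ∧
    ∀ i : Fin 4, 0 < i → y6 ^ i.1 * k = k * y6 ^ i.1 → k = 1 := by decide +kernel

theorem ord4 {y : Γ} (h4 : y ^ 4 = 1) (h2 : y ^ 2 ≠ 1) : orderOf y = 4 :=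
  orderOf_eq_prime_pow (p := 2) (n := 1) h2 h4

theorem ext_step (h : H6 G) {W : Subgroup G} (hm : IsMinNormal W) (hc : IsMulCommutative W)
    {ψ : G →* Γ} (hψ : Function.Surjective ψ) (hk : ψ.ker = W) (hs : Str Γ) : Str G := by
  have := hm.normal
  have : Finite Γ := Finite.of_surjective _ hψ
  have hc' : ∀ a ∈ W, ∀ b ∈ W, a * b = b * a := fun a x b y =>
    congrArg Subtype.val (hc.1.1 ⟨a, x⟩ ⟨b, y⟩)
  have m : ∀ {w}, w ∈ W ↔ ψ w = 1 := by rw [← hk]; exact Iff.rfl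
  obtain ⟨r, hr, hp⟩ := hm.exists_pow_eq_one_of_isMulCommutative hc
  obtain ⟨⟨w, hw⟩, w1⟩ := ne_bot_iff_exists_ne_one.1 hm.ne_bot
  replace w1 : w ≠ 1 := fun e => w1 (Subtype.ext e)
  have r3 := h.prime hr (by
    have := Fact.mk hr
    exact orderOf_eq_prime (hp w hw) w1 ▸ orderOf_dvd_natCard w)
  have rg : ∀ {Δ : Type} [Group Δ] (π : Γ →* Δ), (π.comp ψ).range = π.range := fun π => by
    rw [MonoidHom.range_comp, MonoidHom.range_eq_top.2 hψ, ← MonoidHom.range_eq_map]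
  have inj : ∀ {Δ : Type} [Group Δ] (π : Γ →* Δ), Function.Injective π →
      ∀ g, π.comp ψ g = 1 → ∀ w ∈ W, g * w = w * g := fun π hπ g e w a =>
    hc' g (m.2 ((injective_iff_map_eq_one π).1 hπ _ e)) w a
  have le : ∀ {Δ : Type} [Group Δ] (π : Γ →* Δ), ∀ w ∈ W, π.comp ψ w = 1 := fun π w a => by
    simp [m.1 a]
  have l4 : ∀ {Δ : Type} [Group Δ] (π : Γ →* Δ) {y}, π.comp ψ y ^ 4 = 1 → π.comp ψ y ^ 2 ≠ 1 →
      ∀ w ∈ W, (w * y) ^ 4 = y ^ 4 := fun π y a b w c => by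
    rw [h.lift (π.comp ψ) (ord4 a b) le_rfl,
      h.lift (π.comp ψ) (by rw [map_mul, le π w c, one_mul, ord4 a b]) le_rfl]
  rcases r3 with rfl | r3
  · rcases hs with ⟨π, t⟩ | ⟨⟨e⟩⟩ | ⟨ι, i, a⟩
    · refine Or.inl ⟨_, d10 h hψ t (fun w c => pow_two w ▸ hp w (m.2 c)) fun w q c d =>
        hm.le_centralizer_of_isNilpotent (F := (π.comp ψ).ker) (IsPGroup.isNilpotent (p := 2)
          (MSS.isPGroup_iff_forall_mem.2 fun x hx => ⟨2, ?_⟩)) d w (m.2 c)⟩
      rw [pow_two 2, pow_mul]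
      exact hp _ (m.2 (by rw [map_pow, pow_two, t.el _ hx]))
    · have s : Function.Surjective (e.toMonoidHom.comp ψ) := e.surjective.comp hψ
      obtain ⟨y, hy⟩ := s (swap 1 2 * swap 2 4 * swap 4 3)
      obtain ⟨f, hf⟩ := s (swap 0 1 * swap 1 2 * swap 2 3 * swap 3 4)
      refine absurd (h.fpf5 (h.lift5 (e.toMonoidHom.comp ψ) (g := f) (by rw [hf]; decide)
        (by rw [hf]; decide)) (fun c => absurd hf (by rw [c, map_one]; decide))
        (frob _ hc' (inj _ e.injective) (centralizer {swap 0 1 * swap 1 2 * swap 2 3 * swap 3 4})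
          (MonoidHom.range_eq_top.2 s ▸ le_top) (y := y) (n := 4) (by omega) (fun k hk => ?_)
          (fun i a b k hk => ?_) (l4 _ (by rw [hy]; decide) (by rw [hy]; decide)) hp
          (cop_of_pow Nat.prime_five (fun k hk => ?_) (by norm_num))
          (by rw [hf]; exact mem_centralizer_singleton_iff.2 rfl) hw) (by norm_num) (hp w hw)) w1
      · rw [hy]; exact mem_centralizer_singleton_iff.2 (f20 k (mem_centralizer_singleton_iff.1 hk)).2.1
      · rw [hy]; exact (f20 k (mem_centralizer_singleton_iff.1 hk)).2.2 ⟨i, b⟩ a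
      · exact (f20 k (mem_centralizer_singleton_iff.1 hk)).1
    · rw [← rg] at a
      obtain ⟨y, hy⟩ := a (x := y6) (by simp [y6])
      obtain ⟨x, hx⟩ := a (x := swap 0 1 * swap 1 2) (by simp)
      obtain ⟨d, hd⟩ := a (x := swap 0 3 * swap 1 4) (by simp)
      have k := fun k (hk : k ∈ centralizer {swap 0 1 * swap 1 2} ⊓ centralizer {swap 3 4 * swap 4 5}) =>
        f36 k (mem_centralizer_singleton_iff.1 hk.1) (mem_centralizer_singleton_iff.1 hk.2)
      refine absurd (fin5 h (ι.comp ψ) (g := x) (d := d) (fun w hw => frob _ hc' (inj _ i) _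
        (fun x hx => a (sign_of_odd (by decide) (k x hx).1)) (y := y) (n := 4) (by omega)
        (fun x hx => ?_) (fun i a b x hx => ?_) (l4 _ (by rw [hy]; decide) (by rw [hy]; decide)) hp
        (cop_of_pow Nat.prime_three (fun x hx => (k x hx).1) (by norm_num)) ?_ hw) (by rw [hx, hd]; decide +kernel)
        (by rw [hx, hd]; decide) (by norm_num) hw (hp w hw)) w1
      · rw [hy]
        exact ⟨mem_centralizer_singleton_iff.2 (k x hx).2.1.1, mem_centralizer_singleton_iff.2 (k x hx).2.1.2⟩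
      · rw [hy]; exact (k x hx).2.2 ⟨i, b⟩ a
      · rw [hx]
        exact ⟨mem_centralizer_singleton_iff.2 rfl, mem_centralizer_singleton_iff.2 (by decide)⟩
  refine absurd ?_ w1
  rcases hs with ⟨π, t⟩ | ⟨⟨e⟩⟩ | ⟨ι, i, a⟩
  · refine no_odd_alt h (Or.inl rfl) (π.comp ψ) ((rg π).trans t.rng).ge hc' (fun g hg w hw => ?_) (le π)
      r3 hp hw
    obtain ⟨F, F5, a, b⟩ := t.f5 (h.map hψ)
    obtain ⟨f, rfl⟩ := hψ F
    refine frob ψ hc' (fun g e w a => hc' g (m.2 e) w a) π.ker (MonoidHom.range_eq_top.2 hψ ▸ le_top)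
      (y := f) (n := 5) (by omega) (fun k hk => TQ.cj hk _) (fun i c d k hk e => (h.map hψ).fpf5
        (by rw [← pow_mul, mul_comm, pow_mul, F5, one_pow]) (pow_ne5 F5 (fun e => b (by simp [e])) c d) e
        (n := 2) (by norm_num) (pow_two k ▸ t.el k hk)) (fun w c => ?_) hp
      (cop_of_pow Nat.prime_two (fun k hk => pow_two k ▸ t.el k hk) (by rcases r3 with rfl | rfl <;> norm_num))
      hg hw
    rw [h.lift5 (π.comp ψ) a b, h.lift5 (π.comp ψ) (by rwa [map_mul, le π w c, one_mul])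
      (by rwa [map_mul, le π w c, one_mul])]
  · exact no_odd_alt h (Or.inl rfl) (e.toMonoidHom.comp ψ)
      (fun x _ => e.surjective.comp hψ x) hc' (inj _ e.injective) (le _) r3 hp hw
  · exact no_odd_alt h (Or.inr rfl) (ι.comp ψ) (rg ι ▸ a) hc' (inj _ i) (le _) r3 hp hw

end CL.Ord6
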