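import Cfsg.Agent.FGS.Ord6C

/-!
Groups whose element orders are at most six: finite checks in the symmetric group of degree six.
-/

set_option autoImplicit false
set_option synthInstance.maxSize 2048

namespace CL.Ord6

open Equiv Equiv.Perm

theorem oi1 : ∀ σ : S6, σ * σ = 1 → sign σ ≠ 1 →
    ∃ k : S6, k * σ = swap 0 1 * k ∨ k * σ = swap 0 1 * swap 2 3 * swap 4 5 * k := by
  decide +kernel

theorem oi2 : ∀ d : S6, d * d * d = 1 → d ≠ 1 → (d * swap 0 1 = swap 0 1 * d → d.support.card = 3) ∧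
    (d * (swap 0 1 * swap 2 3 * swap 4 5) = swap 0 1 * swap 2 3 * swap 4 5 * d → d.support.card = 6) := by
  decide +kernel

theorem odd_inv (σ : S6) (h1 : σ * σ = 1) (h2 : sign σ ≠ 1) : ∃ c : S6, c ^ 3 = 1 ∧ c ≠ 1 ∧
    c * σ = σ * c ∧ ∀ d : S6, d * σ = σ * d → d ^ 3 = 1 → d ≠ 1 → d.support.card = c.support.card := by
  have k : ∀ {k τ c : S6} {n}, k * σ = τ * k → c ^ 3 = 1 → c ≠ 1 → c * τ = τ * c →
      (∀ d : S6, d * d * d = 1 → d ≠ 1 → d * τ = τ * d → d.support.card = n) → ∃ c : S6, c ^ 3 = 1 ∧ c ≠ 1 ∧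
      c * σ = σ * c ∧ ∀ d : S6, d * σ = σ * d → d ^ 3 = 1 → d ≠ 1 → d.support.card = c.support.card := by
    intro k τ c n a b e f g
    obtain rfl : τ = k * σ * k⁻¹ := eq_mul_inv_iff_mul_eq.2 a.symm
    refine ⟨k⁻¹ * c * k⁻¹⁻¹, by rw [conj_pow, b]; simp, fun h => e (conj_eq_one_iff.1 h), ?_, fun d x y z => ?_⟩
    · calc _ = k⁻¹ * (c * (k * σ * k⁻¹)) * k := by group
        _ = _ := by rw [f]; group
    · rw [card_support_conj, g c (pow_three' c ▸ b) e f, ← card_support_conj (σ := k),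
        g _ (by rw [← pow_three', conj_pow, y]; simp) (by simpa using z) (by rw [conj_mul, conj_mul, x])]
  obtain ⟨x, e | e⟩ := oi1 σ h1 h2
  · exact k (c := swap 2 3 * swap 3 4) e (by decide) (by decide) (by decide) fun d a b => (oi2 d a b).1
  · exact k (c := swap 0 2 * swap 2 4 * (swap 1 3 * swap 3 5)) e (by decide) (by decide) (by decide)
      fun d a b => (oi2 d a b).2

theorem no6 : ∀ σ : S6, σ * σ * σ * (σ * σ * σ) = 1 → sign σ = 1 → σ * σ = 1 ∨ σ * σ * σ = 1 := by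
  decide +kernel

end CL.Ord6
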