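/-
Primitive pairs of characteristic `p` (Kurzweil-Stellmacher 10.1).
-/
import Cfsg.Agent.TECH.NClos
import Cfsg.Agent.TECH.PRed2
import Cfsg.Agent.PLOC.QdFree
import Cfsg.Agent.PLOC.PStable
import Cfsg.Agent.PLOC.S4Free

set_option autoImplicit false

namespace CL.MSS

open Cfsg Subgroup
open scoped commutatorElement

variable {G : Type*} [Group G] [Finite G] {p : ℕ} [hp : Fact p.Prime]

/-- Ambient `p`-stability of a subgroup `H` on its normal `p`-subgroups. -/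
def StabIn (p : ℕ) (H : Subgroup G) : Prop :=
  ∀ P A : Subgroup G, P ≤ H → H ≤ normalizer (P : Set G) → IsPGroup p P → A ≤ H →
    ⁅⁅P, A⁆, A⁆ = ⊥ → CL.PC.OpMod p H (centralizer (P : Set G)) A

theorem stabIn_of_not_involves (hp2 : p ≠ 2) {H : Subgroup G} (h : ¬ Involves (qd p) H) :
    StabIn p H := by
  intro P A hP hn hPp hA hq
  refine CL.PC.opMod_of_forall (le_normalizer_centralizer hn) fun a ha => ?_
  obtain ⟨K, hK, haK, hK'⟩ := CL.PSt.inOp_normalizer_of_not_involves hp2 hP hn h hPp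
    (a := ⟨a, hA ha⟩) (CL.ZJ.quadratic_zpowers hq ha)
  refine ⟨K.map H.subtype, map_subtype_le K, le_normalizer_map_subtype K,
    zpowers_le.2 (mem_map_of_mem H.subtype haK), ?_⟩
  rintro _ ⟨x, hx, rfl⟩
  obtain ⟨k, hk⟩ := hK' x hx
  exact ⟨k, hk⟩

omit [Finite G] hp in
theorem StabIn.le_oP {H A : Subgroup G} (h : StabIn p H) (hc : CharPIn p H) (hA : A ≤ H)
    (hq : ⁅⁅pCoreOf p H, A⁆, A⁆ = ⊥) : A ≤ pCoreOf p H := by
  obtain ⟨K, h1, h2, h3, h4⟩ := h _ A (oP_le H) (oP_normal H) (oP_isPGroup H) hA hq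
  refine h3.trans (CL.MSS.le_oP (isPGroup_iff_forall_mem.2 fun x hx => ?_) h1 h2)
  obtain ⟨k, hk⟩ := h4 x hx
  obtain ⟨l, hl⟩ := isPGroup_iff_forall_mem.1 (oP_isPGroup H) _ (hc ⟨pow_mem (h1 hx) _, hk⟩)
  exact ⟨k + l, by rw [pow_add, pow_mul, hl]⟩

omit [Finite G] hp in
theorem StabIn.le_centralizer {H V A : Subgroup G} (h : StabIn p H) (hV : PRedIn p V H)
    (hA : A ≤ H) (hq : ⁅⁅V, A⁆, A⁆ = ⊥) : A ≤ centralizer (V : Set G) := by
  obtain ⟨K, h1, h2, h3, h4⟩ := h _ A hV.le hV.norm (elemAb_isPGroup hV.elem) hA hq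
  exact h3.trans (hV.red K h1 h2 h4)

omit [Finite G] hp in
theorem quad_of_normalizes {A B : Subgroup G} (hA : A ≤ centralizer (A : Set G))
    (h : B ≤ normalizer (A : Set G)) : ⁅⁅B, A⁆, A⁆ = ⊥ :=
  commutator_eq_bot_iff_le_centralizer.2 ((commutator_le_right_of_normalizes h).trans hA)

/-- A `p`-subgroup `A` of `M` lying in `O_p(M mod D)` and centralizing `D` modulo `O_p(M)` lies in
`O_p(M)`. -/
theorem le_oP_of_opMod {M D A : Subgroup G} (hD : M ≤ normalizer (D : Set G)) (hA : IsPGroup p A)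
    (h : CL.PC.OpMod p M D A) (hc : ⁅M ⊓ D, A⁆ ≤ pCoreOf p M) : A ≤ pCoreOf p M := by
  obtain ⟨K, h1, h2, h3, h4⟩ := h
  set Q := pCoreOf p M with hQ
  let R : Subgroup G :=
    { carrier := {x | x ∈ K ∧ ∀ d ∈ M ⊓ D, ⁅d, x⁆ ∈ Q}
      one_mem' := ⟨K.one_mem, fun d _ => by simp⟩
      mul_mem' := by
        rintro x y ⟨hx, hx'⟩ ⟨hy, hy'⟩
        refine ⟨K.mul_mem hx hy, fun d hd => ?_⟩
        have : ⁅d, x * y⁆ = ⁅d, x⁆ * (x * ⁅d, y⁆ * x⁻¹) := by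
          simp only [commutatorElement_def]; group
        rw [this]
        exact mul_mem (hx' d hd) (conj_mem_of_normalizes (oP_normal M) (h1 hx) (hy' d hd))
      inv_mem' := by
        rintro x ⟨hx, hx'⟩
        refine ⟨K.inv_mem hx, fun d hd => ?_⟩
        have : ⁅d, x⁻¹⁆ = x⁻¹ * ⁅d, x⁆⁻¹ * x⁻¹⁻¹ := by
          simp only [commutatorElement_def]; group
        rw [this]
        exact conj_mem_of_normalizes (oP_normal M) (inv_mem (h1 hx)) (inv_mem (hx' d hd)) }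
  have hRK : R ≤ K := fun x hx => hx.1
  have hRn : M ≤ normalizer (R : Set G) := by
    refine le_normalizer_of_cj_le fun g hg => ?_
    rintro _ ⟨x, ⟨hx, hx'⟩, rfl⟩
    refine ⟨conj_mem_of_normalizes h2 hg hx, fun d hd => ?_⟩
    have : ⁅d, g * x * g⁻¹⁆ = g * ⁅g⁻¹ * d * g⁻¹⁻¹, x⁆ * g⁻¹ := by
      simp only [commutatorElement_def]; group
    change ⁅d, g * x * g⁻¹⁆ ∈ Q
    rw [this]
    exact conj_mem_of_normalizes (oP_normal M) hg (hx' _ (conj_mem_of_normalizes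
      (le_normalizer_inf le_normalizer hD) (inv_mem hg) hd))
  have hAR : A ≤ R := fun a ha =>
    ⟨h3 ha, fun d hd => hc (commutator_mem_commutator hd ha)⟩
  have hRM : R ⊔ Q ≤ M := sup_le (hRK.trans h1) (oP_le M)
  have hRQn : M ≤ normalizer ((R ⊔ Q : Subgroup G) : Set G) := le_normalizer_sup hRn (oP_normal M)
  obtain ⟨P, hP, hAP⟩ := exists_sylIn_ge (p := p) (R := A ⊔ Q) (H := R ⊔ Q)
    (isPGroup_sup_of_normalizes hA (oP_isPGroup M) ((h3.trans h1).trans (oP_normal M)))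
    (sup_le_sup_right hAR Q)
  have hU : presOf p (R ⊔ Q) ≤ M ⊓ D := by
    rw [oU_sup_of_isPGroup (oP_isPGroup M) ((oP_le M).trans hRn)]
    refine oU_le_of_pow fun x hx => ?_
    obtain ⟨k, hk⟩ := h4 x (hRK hx)
    exact ⟨k, pow_mem (h1 (hRK hx)) _, hk⟩
  have hn : R ⊔ Q ≤ normalizer (P : Set G) := by
    refine le_of_oU_le_of_sylIn_le hP (hU.trans ?_) le_normalizer
    refine le_normalizer_iff_commutator_le_right.2 (le_trans ?_ (le_sup_right.trans hAP))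
    refine (commutator_mono le_rfl hP.le).trans (commutator_le.2 fun d hd x hx => ?_)
    obtain ⟨r, hr, q, hq, rfl⟩ := (CL.mem_sup_of_le_normalizer (H := R) (K := Q)
      ((hRK.trans h1).trans (oP_normal M))).1 hx
    have : ⁅d, r * q⁆ = ⁅d, r⁆ * (r * (d * q * d⁻¹ * q⁻¹) * r⁻¹) := by
      simp only [commutatorElement_def]; group
    rw [this]
    exact mul_mem (hr.2 d hd) (conj_mem_of_normalizes (oP_normal M) (h1 hr.1)
      (mul_mem (conj_mem_of_normalizes (oP_normal M) hd.1 hq) (inv_mem hq)))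
  exact (le_sup_left.trans hAP).trans ((le_oP hP.pgroup hP.le hn).trans
    (oP_le_oP_of_normal hRM hRQn))

theorem primPair_maxAbIn_le {M₁ M₂ : Subgroup G} (hM : M₁ ≠ ⊥)
    (hP : ∀ A : Subgroup G, A ≠ ⊥ → A ≤ M₁ ⊓ M₂ → M₁ ≤ normalizer (A : Set G) →
      M₂ ⊓ normalizer (A : Set G) ≤ M₁)
    (hc₁ : CharPIn p M₁) (hc₂ : CharPIn p M₂) (h₁ : pCoreOf p M₁ ≤ M₂) (h₂ : pCoreOf p M₂ ≤ M₁)
    (hs₁ : StabIn p M₁) (hs₂ : StabIn p M₂) {A : Subgroup G}
    (hA : A ∈ CL.ThA.maxAbIn (pCoreOf p M₁ ⊔ pCoreOf p M₂)) : A ≤ pCoreOf p M₂ := by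
  set Q₁ := pCoreOf p M₁ with hQ₁
  set Q₂ := pCoreOf p M₂ with hQ₂
  set B := Q₁ ⊔ Q₂ with hB
  have hB₁ : B ≤ M₁ := sup_le (oP_le _) h₂
  have hB₂ : B ≤ M₂ := sup_le h₁ (oP_le _)
  have hBp : IsPGroup p B :=
    isPGroup_sup_of_normalizes (oP_isPGroup _) (oP_isPGroup _) (h₁.trans (oP_normal _))
  set V := largestPReducedOf p M₁ with hV
  have hVr : PRedIn p V M₁ := pRedIn_yOf M₁
  have hVc : V ≤ centralizer (V : Set G) := elemAb_le_centralizer hVr.elem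
  have hV1 : V ≠ ⊥ := by
    obtain ⟨T, hT⟩ := exists_sylIn p M₁
    have hQ1 : Q₁ ≠ ⊥ := fun e => hM (eq_bot_iff.2 fun x hx => by
      have := hc₁ (show x ∈ M₁ ⊓ centralizer (Q₁ : Set G) from ⟨hx, by rw [e]; intro y hy; rw [mem_bot.1 hy]; simp⟩)
      rwa [← hQ₁, e] at this)
    have hT1 : T ≠ ⊥ := fun e => hQ1 (eq_bot_iff.2 (e ▸ oP_le_sylIn hT))
    obtain ⟨x, hx, hx1⟩ := (bot_or_exists_ne_one _).resolve_left
      (inf_centralizer_ne_bot hT.pgroup hT.pgroup le_normalizer hT1)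
    obtain ⟨n, hn⟩ := isPGroup_iff_forall_mem.1 hT.pgroup x hx.1
    have : ∃ j, x ^ p ^ j ≠ 1 ∧ (x ^ p ^ j) ^ p = 1 := by
      clear hx
      induction n with
      | zero => exact absurd (by simpa using hn) hx1
      | succ n ih =>
        by_cases h2 : x ^ p ^ n = 1
        · exact ih h2
        · exact ⟨n, h2, by rw [← pow_mul, ← pow_succ, hn]⟩
    obtain ⟨j, hj1, hj2⟩ := this
    intro e
    have := omegaZ_le_yOf hc₁ hT (mem_omegaZ_iff.2 ⟨pow_mem hx.1 _, pow_mem hx.2 _, hj2⟩)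
    rw [← hV, e] at this
    exact hj1 this
  have hVQ₁ : V ≤ Q₁ := hVr.le_pcoreOf
  have hVQ₂ : V ≤ Q₂ := hs₂.le_oP hc₂ (hVQ₁.trans h₁) (quad_of_normalizes hVc (h₂.trans hVr.norm))
  set W := ncl V M₂ with hW
  have hWQ : W ≤ Q₂ := ncl_le hVQ₂ (oP_normal _)
  have hVg : ∀ g ∈ M₂, g •ᶜ V ≤ centralizer (V : Set G) := by
    intro g hg
    have h1 : g •ᶜ V ≤ Q₂ := (cj_le_ncl V hg).trans hWQ
    refine hs₁.le_centralizer hVr (h1.trans h₂) (quad_of_normalizes ?_ (hVQ₂.trans ?_))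
    · rw [← cj_centralizer]; exact cj_mono g hVc
    · rw [← cj_normalizer]
      exact (cj_eq_of_mem_normalizer (oP_normal (p := p) M₂ hg)).ge.trans
        (cj_mono g (h₂.trans hVr.norm))
  have hcW : ∀ X : Subgroup G, (∀ g ∈ M₂, g •ᶜ X ≤ centralizer (V : Set G)) →
      X ≤ centralizer (W : Set G) := by
    intro X hX
    refine le_centralizer_iff.1 (ncl_le_iff.2 fun g hg => le_centralizer_iff.1 ?_)
    rw [← cj_centralizer]
    exact le_cj_iff.2 (hX _ (inv_mem hg))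
  have hWc : W ≤ centralizer (W : Set G) := hcW W fun g hg => by
    rw [cj_eq_of_mem_normalizer (ncl_normal V M₂ hg)]
    exact ncl_le_iff.2 hVg
  have hD : M₂ ⊓ centralizer (W : Set G) ≤ M₁ :=
    (inf_le_inf_left _ ((centralizer_anti (le_ncl V M₂)).trans (centralizer_le_normalizer _))).trans
      (hP V hV1 (le_inf hVr.le (hVQ₁.trans h₁)) hVr.norm)
  have hDn : M₂ ≤ normalizer ((M₂ ⊓ centralizer (W : Set G) : Subgroup G) : Set G) :=
    le_normalizer_inf le_normalizer (le_normalizer_centralizer (ncl_normal V M₂))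
  have hDB : M₂ ⊓ centralizer (W : Set G) ≤ normalizer (B : Set G) :=
    le_normalizer_sup (hD.trans (oP_normal _)) (inf_le_left.trans (oP_normal _))
  have hBD : B ⊓ (M₂ ⊓ centralizer (W : Set G)) ≤ Q₂ :=
    (le_oP hBp.to_inf_left inf_le_right (le_normalizer_inf hDB le_normalizer)).trans
      (oP_le_oP_of_normal inf_le_left hDn)
  have hall : ∀ A ∈ CL.ThA.maxAbIn B, A ≤ centralizer (V : Set G) := by
    intro A hA
    by_contra hc
    obtain ⟨A', hA', h1, h2⟩ := CL.FC.exists_quadratic_maxAbIn hBp (hVQ₁.trans le_sup_left)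
      (hB₁.trans hVr.norm) (isMulCommutative_iff_mem.2 fun x hx y hy => hVc hy x hx) le_rfl hA hc
      inf_le_right
    exact h1 (hs₁.le_centralizer hVr (hA'.1.trans hB₁) h2)
  by_contra hc
  obtain ⟨A', hA', h1, h2⟩ := CL.FC.exists_quadratic_maxAbIn hBp (hWQ.trans le_sup_right)
    (hB₂.trans (ncl_normal V M₂)) (isMulCommutative_iff_mem.2 fun x hx y hy => hWc hy x hx) le_rfl
    hA (fun h => hc ((le_inf hA.1 (le_inf (hA.1.trans hB₂) h)).trans hBD)) inf_le_right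
  have h3 : A' ≤ Q₂ := by
    refine le_oP_of_opMod (le_normalizer_centralizer (ncl_normal V M₂)) (hBp.to_le hA'.1)
      (hs₂ W A' (hWQ.trans (oP_le _)) (ncl_normal V M₂) ((oP_isPGroup _).to_le hWQ)
        (hA'.1.trans hB₂) h2) (le_trans (le_inf ?_ ?_) hBD)
    · exact (commutator_mono le_rfl hA'.1).trans (commutator_le_right_of_normalizes hDB)
    · exact commutator_le_left_of_normalizes ((hA'.1.trans hB₂).trans hDn)
  refine h1 (hcW A' fun g hg => hall _ (CL.ThA.mem_maxAbIn_of_card_le hA'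
    ((cj_le_of_mem_normalizer h3 (oP_normal _ hg)).trans le_sup_right)
    (isMulCommutative_cj g hA'.2.1) (card_cj g A').ge))

/-- No primitive pair of characteristic `p` consists of two `p`-stable groups. -/
theorem primPair_false {M₁ M₂ : Subgroup G} (hne : M₁ ≠ M₂)
    (hP₁ : ∀ A : Subgroup G, A ≠ ⊥ → A ≤ M₁ ⊓ M₂ → M₁ ≤ normalizer (A : Set G) →
      M₂ ⊓ normalizer (A : Set G) ≤ M₁)
    (hP₂ : ∀ A : Subgroup G, A ≠ ⊥ → A ≤ M₂ ⊓ M₁ → M₂ ≤ normalizer (A : Set G) →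
      M₁ ⊓ normalizer (A : Set G) ≤ M₂)
    (hc₁ : CharPIn p M₁) (hc₂ : CharPIn p M₂) (h₁ : pCoreOf p M₁ ≤ M₂) (h₂ : pCoreOf p M₂ ≤ M₁)
    (hs₁ : StabIn p M₁) (hs₂ : StabIn p M₂) : False := by
  have hbot : ∀ {M₁ M₂ : Subgroup G}, CharPIn p M₂ → pCoreOf p M₂ ≤ M₁ → M₁ = ⊥ → M₂ = ⊥ := by
    intro M₁ M₂ hc h e
    have hQ : pCoreOf p M₂ = ⊥ := eq_bot_iff.2 (e ▸ h)
    refine eq_bot_iff.2 fun x hx => ?_
    have := hc (show x ∈ M₂ ⊓ centralizer (pCoreOf p M₂ : Set G) from ⟨hx, by rw [hQ]; intro y hy; rw [mem_bot.1 hy]; simp⟩)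
    rwa [hQ] at this
  have hM₁ : M₁ ≠ ⊥ := fun e => hne (e.trans (hbot hc₂ h₂ e).symm)
  have hM₂ : M₂ ≠ ⊥ := fun e => hne ((hbot hc₁ h₁ e).trans e.symm)
  set B := pCoreOf p M₁ ⊔ pCoreOf p M₂ with hB
  have hJ₂ : thompsonSubgroupAOf B ≤ pCoreOf p M₂ := CL.ThA.thompsonSubgroupAOf_le_iff.2
    fun A hA => primPair_maxAbIn_le hM₁ hP₁ hc₁ hc₂ h₁ h₂ hs₁ hs₂ hA
  have hJ₁ : thompsonSubgroupAOf B ≤ pCoreOf p M₁ := CL.ThA.thompsonSubgroupAOf_le_iff.2
    fun A hA => primPair_maxAbIn_le hM₂ hP₂ hc₂ hc₁ h₂ h₁ hs₂ hs₁ (by rwa [sup_comm])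
  have hn₁ : M₁ ≤ normalizer (thompsonSubgroupAOf B : Set G) := by
    rw [← CL.ThA.thompsonSubgroupAOf_eq_of_le hJ₁ le_sup_left]
    exact (oP_normal _).trans (CL.ThA.normalizer_le_normalizer_thompsonSubgroupAOf _)
  have hn₂ : M₂ ≤ normalizer (thompsonSubgroupAOf B : Set G) := by
    rw [← CL.ThA.thompsonSubgroupAOf_eq_of_le hJ₂ le_sup_right]
    exact (oP_normal _).trans (CL.ThA.normalizer_le_normalizer_thompsonSubgroupAOf _)
  have hJ : thompsonSubgroupAOf B ≠ ⊥ := by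
    refine CL.ThA.thompsonSubgroupAOf_ne_bot
      (isPGroup_sup_of_normalizes (oP_isPGroup _) (oP_isPGroup _) (h₁.trans (oP_normal _)))
      fun e => hM₁ (hbot hc₁ le_sup_left e)
  have h3 := le_inf (hJ₁.trans (oP_le _)) (hJ₂.trans (oP_le _))
  exact hne (le_antisymm ((le_inf le_rfl hn₁).trans (hP₂ _ hJ (inf_comm M₁ M₂ ▸ h3) hn₂))
    ((le_inf le_rfl hn₂).trans (hP₁ _ hJ h3 hn₁)))

end CL.MSS
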