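import Mathlib
import Cfsg.Agent.SOLV.Frattini
import Cfsg.Agent.SOLV.SectionAut
import Cfsg.Agent.SOLV.CoprimeSylow
import Cfsg.Agent.PLOC.FrobeniusNPC

/-!
# Coprime action on a `p`-group with few generators
-/

namespace CL.RankAct

open Subgroup
open scoped commutatorElement

variable {G : Type*} [Group G] {p : ℕ}

/-- A `p'`-element acting nontrivially on a `p`-subgroup with `d` generators has order divisible by a
prime dividing `p ^ i - 1` for some `1 ≤ i ≤ d`. -/
theorem exists_prime_dvd_pow_sub_one [Finite G] [hp : Fact p.Prime] {Q : Subgroup G}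
    (hQ : IsPGroup p Q) {g : G} (hg : g ∈ normalizer (Q : Set G)) (hco : (orderOf g).Coprime p)
    (hc : g ∉ centralizer (Q : Set G)) :
    ∃ q i : ℕ, q.Prime ∧ q ≠ p ∧ q ∣ orderOf g ∧ 1 ≤ i ∧ i ≤ Group.rank Q ∧ q ∣ p ^ i - 1 := by
  set M : Subgroup G := (frattini Q).map Q.subtype with hM
  have hMQ : M.subgroupOf Q = frattini Q := Subgroup.comap_map_eq_self_of_injective
    Q.subtype_injective _
  have : (M.subgroupOf Q).Normal := hMQ ▸ inferInstance
  have hA : zpowers g ≤ normalizer (Q : Set G) := zpowers_le.2 hg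
  have hAM : zpowers g ≤ normalizer (M : Set G) :=
    hA.trans (normalizer_le_normalizer_map_subtype Q _)
  set φ := sectionAut (zpowers g) Q M hA hAM with hφ
  set a := φ ⟨g, mem_zpowers g⟩ with ha
  have ha1 : a ≠ 1 := by
    intro e
    apply hc
    have hker : φ.ker = ⊤ := by
      rw [eq_top_iff]
      rintro ⟨_, ⟨k, rfl⟩⟩ -
      have : (⟨g ^ k, ⟨k, rfl⟩⟩ : zpowers g) = ⟨g, mem_zpowers g⟩ ^ k := rfl
      rw [MonoidHom.mem_ker, this, map_zpow, ← ha, e, one_zpow]
    have h1 := commutator_map_ker_sectionAut_le (zpowers g) Q M hA hAM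
    rw [← hφ, hker, ← MonoidHom.range_eq_map, range_subtype] at h1
    have h2 := coprime_le_centralizer_of_commutator_le_frattini (zpowers g) Q hA (by
      rw [Nat.card_zpowers]
      exact coprime_card_of_isPGroup (hQ.to_subgroup _) hco) h1
    exact le_centralizer_iff.1 h2 (mem_zpowers g)
  have hda : orderOf a ∣ orderOf g := by
    have := orderOf_map_dvd φ ⟨g, mem_zpowers g⟩
    rwa [Subgroup.orderOf_mk] at this
  obtain ⟨q, hq, hqd⟩ := Nat.exists_prime_and_dvd (mt orderOf_eq_one_iff.1 ha1)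
  have hqp : q ≠ p := by
    rintro rfl
    exact (Nat.Prime.coprime_iff_not_dvd hq).1 hco.symm (hqd.trans hda)
  obtain ⟨n, hn⟩ := IsPGroup.iff_card.1 (hQ.to_quotient (M.subgroupOf Q))
  have hpos : 0 < orderOf a := orderOf_pos a
  obtain ⟨i, h1, h2, h3⟩ := Tr.prime_dvd_pow_sub_one_of_orderOf_mulAut hn hq hqp
    (a ^ (orderOf a / q)) (orderOf_pow_orderOf_div hpos.ne' hqd)
  refine ⟨q, i, hq, hqp, hqd.trans hda, h1, h2.trans ?_, h3⟩
  obtain ⟨T, hT1, hT2⟩ := Group.rank_spec Q
  rw [← hT1]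
  exact le_card_of_closure_eq_top hQ (by rw [← hMQ]; exact hn) hT2

/-- Burnside's criterion in terms of the rank of an abelian Sylow subgroup. -/
theorem hasNPC_of_abelian_rank [Finite G] [hp : Fact p.Prime] (P : Sylow p G)
    (hab : IsMulCommutative (P : Subgroup G))
    (h : ∀ q i : ℕ, q.Prime → q ≠ p → q ∣ Nat.card G → 1 ≤ i → i ≤ Group.rank (P : Subgroup G) →
      ¬ q ∣ p ^ i - 1) : Cfsg.HasNormalPComplement p G := by
  refine hasNPC_of_normalizer_le_centralizer P fun x hx => ?_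
  obtain ⟨z, hz, -, hz'⟩ := Tr.exists_sylowIn_conj_eq (E := (P : Subgroup G)) le_rfl P.isPGroup'
    (Tr.not_dvd_relIndex_sylow P le_normalizer) (fun g hg hco => by
      by_contra hc
      obtain ⟨q, i, h1, h2, h3, h4, h5, h6⟩ := exists_prime_dvd_pow_sub_one P.isPGroup' hg hco hc
      exact h q i h1 h2 (h3.trans (orderOf_dvd_natCard g)) h4 h5 h6) hx
  intro a ha
  have h1 := hz' a ha
  have h2 : z * a = a * z := setLike_mul_comm (s := (P : Subgroup G)) hz ha
  rw [h2, mul_inv_cancel_right] at h1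
  calc a * x = x * a * x⁻¹ * x := by rw [← h1]
    _ = x * a := by group

end CL.RankAct
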