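import Mathlib
import Cfsg.Agent.FGS.SchurTransfer

/-! The Hopf group of a presentation: generation by the relators. -/

set_option autoImplicit false

namespace CL.Schur

universe u v w

variable {F : Type u} {G : Type v} [Group F] [Group G]

/-- If the kernel of `π` is the normal closure of `s`, then the kernel of `F/[R,F] → G` is
generated by the images of the elements of `s`. -/
theorem hopf_ker_le_closure (π : F →* G) (s : Set F) (hs : π.ker = Subgroup.normalClosure s) :
    (hopfExt π).ker = Subgroup.closure ((QuotientGroup.mk : F → F ⧸ relComm π) '' s) := by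
  have h1 : Subgroup.closure ((QuotientGroup.mk : F → F ⧸ relComm π) '' s) ≤ (hopfExt π).ker := by
    rw [Subgroup.closure_le]
    rintro _ ⟨x, hx, rfl⟩
    have : x ∈ π.ker := hs ▸ Subgroup.subset_normalClosure hx
    exact this
  refine le_antisymm ?_ h1
  have := normal_of_le_center (h1.trans (hopfExt_ker_le_center π))
  have h2 : Subgroup.normalClosure s ≤ (Subgroup.closure
      ((QuotientGroup.mk : F → F ⧸ relComm π) '' s)).comap (QuotientGroup.mk' _) :=
    Subgroup.normalClosure_le_normal (fun x hx => Subgroup.subset_closure ⟨x, hx, rfl⟩)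
  intro k hk
  obtain ⟨k, rfl⟩ := QuotientGroup.mk_surjective k
  exact h2 (hs ▸ hk)

theorem ker_presentedGroup_mk {α : Type u} (rels : Set (FreeGroup α)) :
    (PresentedGroup.mk rels).ker = Subgroup.normalClosure rels :=
  QuotientGroup.ker_mk' _

/-- A homomorphism from `F` to a commutative group factors through `F/[R,F]`. -/
def hopfAbLift (π : F →* G) {C : Type w} [CommGroup C] (θ : F →* C) : F ⧸ relComm π →* C :=
  QuotientGroup.lift _ θ (relComm_le_ker π θ (fun _ _ _ => mul_comm _ _))

@[simp] theorem hopfAbLift_mk (π : F →* G) {C : Type w} [CommGroup C] (θ : F →* C) (x : F) :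
    hopfAbLift π θ (x : F ⧸ relComm π) = θ x := rfl

/-- A commutative group that is the image of a submodule of `ι → ℤ` has rank at most the rank of
that submodule. -/
theorem rank_le_finrank {ι : Type w} [Fintype ι] (P : Submodule ℤ (ι → ℤ)) {A : Type v}
    [CommGroup A] [Group.FG A] (φ : P →+ Additive A) (hφ : Function.Surjective φ) :
    Group.rank A ≤ Module.finrank ℤ P := by
  classical
  let b := Module.finBasis ℤ P
  refine (Group.rank_le (S := Finset.univ.image (fun i => (φ (b i)).toMul)) ?_).trans ?_
  · rw [eq_top_iff]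
    intro a _
    obtain ⟨x, hx⟩ := hφ (Additive.ofMul a)
    have : a = ∏ i, (φ (b i)).toMul ^ (b.repr x i) := by
      apply Additive.ofMul.injective
      rw [← hx, ofMul_prod]
      conv_lhs => rw [← b.sum_repr x, map_sum]
      simp
    rw [this]
    exact prod_mem fun i _ => zpow_mem (Subgroup.subset_closure (by simp)) _
  · exact Finset.card_image_le.trans (by simp)

/-- The multiplier of a finite group with `n` generators and `r` relators has rank at most
`r - n`. -/
theorem rank_multiplier_le (n : ℕ) (rels : Finset (FreeGroup (Fin n)))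
    [Finite (PresentedGroup (rels : Set (FreeGroup (Fin n))))] {A : Type w} [CommGroup A] [Finite A]
    (hA : Cfsg.HasSchurMultiplier (PresentedGroup (rels : Set (FreeGroup (Fin n)))) A) :
    Group.rank A ≤ rels.card - n := by
  classical
  set π := PresentedGroup.mk (rels : Set (FreeGroup (Fin n))) with hπ
  obtain ⟨e⟩ := (hasSchurMultiplier_iff_hopf (π := π) (PresentedGroup.mk_surjective _)).mp hA
  have hker : π.ker = Subgroup.normalClosure rels := ker_presentedGroup_mk _
  let r : rels → HKer π := fun x => toHKer π ⟨x, hker ▸ Subgroup.subset_normalClosure x.2⟩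
  let Φ : (rels → ℤ) →ₗ[ℤ] Additive (HKer π) := Fintype.linearCombination ℤ (fun x => .ofMul (r x))
  have hΦ : Function.Surjective Φ := by
    have h1 : (hopfExt π).ker ≤ ((LinearMap.range Φ).toAddSubgroup.toSubgroup').map (HKer.val π) := by
      rw [hopf_ker_le_closure π _ hker, Subgroup.closure_le]
      rintro _ ⟨x, hx, rfl⟩
      refine ⟨r ⟨x, hx⟩, ⟨Pi.single ⟨x, hx⟩ 1, ?_⟩, rfl⟩
      simp only [Φ, Fintype.linearCombination_apply_single, one_smul]
      rfl
    intro k
    obtain ⟨k', hk', h2⟩ := h1 (show HKer.val π k.toMul ∈ _ from (k.toMul).2)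
    rw [HKer.val_injective π h2] at hk'
    exact hk'
  let θ : FreeGroup (Fin n) →* Multiplicative (Fin n → ℤ) :=
    FreeGroup.lift (fun i => Multiplicative.ofAdd (Pi.single i 1))
  let g : Additive (HKer π) →ₗ[ℤ] (Fin n → ℤ) :=
    (MonoidHom.toAdditiveLeft ((hopfAbLift π θ).comp (HKer.val π))).toIntLinearMap
  let Ψ := g.comp Φ
  set N := Nat.card (PresentedGroup (rels : Set (FreeGroup (Fin n)))) with hN
  have hN0 : (N : ℤ) ≠ 0 := by exact_mod_cast Nat.card_pos.ne'
  have hθ : Function.Surjective θ := by
    intro x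
    refine ⟨(List.ofFn fun i => FreeGroup.of i ^ (x.toAdd i)).prod, ?_⟩
    rw [map_list_prod, List.map_ofFn, List.prod_ofFn]
    apply Multiplicative.toAdd.injective
    rw [toAdd_prod]
    ext j
    simp [θ, Finset.sum_apply, Pi.single_apply]
  have hrange : ∀ x : Fin n → ℤ, (N : ℤ) • x ∈ LinearMap.range Ψ := by
    intro x
    obtain ⟨y, hy⟩ := hθ (Multiplicative.ofAdd x)
    have h1 : y ^ N ∈ π.ker := by rw [MonoidHom.mem_ker, map_pow, pow_card_eq_one']
    obtain ⟨z, hz⟩ := hΦ (.ofMul (toHKer π ⟨_, h1⟩))
    refine ⟨z, ?_⟩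
    change g (Φ z) = _
    rw [hz]
    change (θ (y ^ N)).toAdd = _
    rw [map_pow, hy]
    simp
  have h1 : n ≤ Module.finrank ℤ (LinearMap.range Ψ) := by
    have := LinearMap.finrank_le_finrank_of_injective
      (f := LinearMap.codRestrict (LinearMap.range Ψ) ((N : ℤ) • LinearMap.id) hrange) (by
        intro x y h
        exact smul_right_injective _ hN0 (congrArg Subtype.val h))
    simpa using this
  have h2 := Submodule.finrank_quotient_add_finrank (LinearMap.ker Ψ)
  rw [Ψ.quotKerEquivRange.finrank_eq] at h2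
  let M : Submodule ℤ (Additive (HKer π)) :=
    AddSubgroup.toIntSubmodule (Subgroup.toAddSubgroup ((stemKer (hopfExt π)).comap (HKer.val π)))
  have h3 : M.comap Φ ≤ LinearMap.ker Ψ := by
    intro x hx
    exact Abelianization.commutator_subset_ker (hopfAbLift π θ) (mem_stemKer.mp hx).2
  have h4 := Submodule.finrank_mono h3
  let φ : M.comap Φ →+ Additive A :=
    { toFun := fun x => .ofMul (e.symm ⟨HKer.val π (Φ x).toMul, x.2⟩)
      map_zero' := by
        rw [ofMul_eq_zero, map_eq_one_iff _ e.symm.injective]
        apply Subtype.ext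
        simp
      map_add' := fun x y => by
        rw [← ofMul_mul, ← map_mul]
        congr 2
        apply Subtype.ext
        simp }
  have hφ : Function.Surjective φ := by
    intro a
    obtain ⟨z, hz⟩ := hΦ (.ofMul (show HKer π from ⟨(e a.toMul).1, (e a.toMul).2.1⟩))
    have hz' : HKer.val π (Φ z).toMul = (e a.toMul).1 := by rw [hz]; rfl
    refine ⟨⟨z, show HKer.val π (Φ z).toMul ∈ stemKer (hopfExt π) from hz' ▸ (e a.toMul).2⟩, ?_⟩
    apply Additive.toMul.injective
    change e.symm ⟨HKer.val π (Φ z).toMul, _⟩ = _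
    rw [MulEquiv.symm_apply_eq]
    exact Subtype.ext hz'
  have h5 := rank_le_finrank _ φ hφ
  simp only [Module.finrank_fintype_fun_eq_card, Fintype.card_coe] at h2
  omega

end CL.Schur
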