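import Mathlib
import Cfsg.Agent.FGS.SchurCover

/-! Twisted central extensions by bimultiplicative cocycles; the multiplier of a direct product. -/

set_option autoImplicit false
open scoped commutatorElement TensorProduct

namespace CL.Schur

universe u v w u'

theorem map_mem_commutator {G : Type u} {H : Type v} [Group G] [Group H] (f : G →* H) {g : G}
    (hg : g ∈ commutator G) : f g ∈ commutator H := by
  have h1 : (commutator G).map f ≤ commutator H := by
    rw [map_commutator_eq]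
    exact Subgroup.commutator_mono le_top le_top
  exact h1 ⟨g, hg, rfl⟩

section Twist

variable {G : Type u} {T : Type v} [Group G] [CommGroup T]

/-- The central extension of `G` by `T` defined by a bimultiplicative cocycle `c`. -/
@[ext] structure Twist (c : G →* G →* T) where
  /-- component in the base group -/
  g : G
  /-- component in the central group -/
  t : T

instance instGroupTwist (c : G →* G →* T) : Group (Twist c) where
  mul x y := ⟨x.g * y.g, x.t * y.t * c x.g y.g⟩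
  one := ⟨1, 1⟩
  inv x := ⟨x.g⁻¹, x.t⁻¹ * c x.g x.g⟩
  mul_assoc x y z := by
    change Twist.mk _ _ = Twist.mk _ _
    congr 1
    · exact mul_assoc _ _ _
    · change (x.t * y.t * c x.g y.g) * z.t * c (x.g * y.g) z.g =
        x.t * (y.t * z.t * c y.g z.g) * c x.g (y.g * z.g)
      simp only [map_mul, MonoidHom.mul_apply, mul_comm, mul_left_comm, mul_assoc]
  one_mul x := by
    change Twist.mk (1 * x.g) (1 * x.t * c 1 x.g) = x
    simp
  mul_one x := by
    change Twist.mk (x.g * 1) (x.t * 1 * c x.g 1) = x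
    simp
  inv_mul_cancel x := by
    change Twist.mk (x.g⁻¹ * x.g) (x.t⁻¹ * c x.g x.g * x.t * c x.g⁻¹ x.g) = Twist.mk 1 1
    simp [mul_comm]

variable {c : G →* G →* T}

@[simp] theorem Twist.mul_g (x y : Twist c) : (x * y).g = x.g * y.g := rfl
@[simp] theorem Twist.mul_t (x y : Twist c) : (x * y).t = x.t * y.t * c x.g y.g := rfl
@[simp] theorem Twist.one_g : (1 : Twist c).g = 1 := rfl
@[simp] theorem Twist.one_t : (1 : Twist c).t = 1 := rfl
@[simp] theorem Twist.inv_g (x : Twist c) : (x⁻¹).g = x.g⁻¹ := rfl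
@[simp] theorem Twist.inv_t (x : Twist c) : (x⁻¹).t = x.t⁻¹ * c x.g x.g := rfl

/-- Projection to the base group. -/
def Twist.proj (c : G →* G →* T) : Twist c →* G where
  toFun x := x.g
  map_one' := rfl
  map_mul' _ _ := rfl

/-- Inclusion of the central group. -/
def Twist.incl (c : G →* G →* T) : T →* Twist c where
  toFun t := ⟨1, t⟩
  map_one' := rfl
  map_mul' s t := by ext <;> simp

theorem Twist.proj_apply (x : Twist c) : Twist.proj c x = x.g := rfl

theorem Twist.incl_injective : Function.Injective (Twist.incl c) :=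
  fun _ _ h => congrArg Twist.t h

theorem Twist.commutator_of_commute (x y : Twist c) (h : x.g * y.g = y.g * x.g) :
    ⁅x, y⁆ = Twist.incl c (c x.g y.g * (c y.g x.g)⁻¹) := by
  rw [commutatorElement_def, mul_inv_eq_iff_eq_mul, mul_inv_eq_iff_eq_mul]
  ext
  · simp [Twist.incl, h]
  · simp [Twist.incl, mul_comm, mul_left_comm, mul_assoc]

theorem Twist.mem_center {x : Twist c} (h : x.g ∈ Subgroup.center G) (h1 : ∀ g, c x.g g = c g x.g) :
    x ∈ Subgroup.center (Twist c) := by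
  rw [Subgroup.mem_center_iff]
  intro y
  ext
  · simp [Subgroup.mem_center_iff.mp h]
  · simp [h1, mul_comm]

theorem Twist.isCentralExt_proj : IsCentralExt (Twist.proj c) := by
  refine ⟨fun g => ⟨⟨g, 1⟩, rfl⟩, fun x hx => ?_⟩
  have h : x.g = 1 := hx
  exact Twist.mem_center (h ▸ one_mem _) (by simp [h])

end Twist

section Product

variable {Q₁ : Type u} {Q₂ : Type v} [Group Q₁] [Group Q₂]

/-- The tensor product of the abelianizations, written multiplicatively. -/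
abbrev AbTensor (Q₁ : Type u) (Q₂ : Type v) [Group Q₁] [Group Q₂] : Type (max u v) :=
  Multiplicative (TensorProduct ℤ (Additive (Abelianization Q₁)) (Additive (Abelianization Q₂)))

/-- The canonical bimultiplicative map to the tensor product of the abelianizations. -/
def abTmul (Q₁ : Type u) (Q₂ : Type v) [Group Q₁] [Group Q₂] : Q₁ →* Q₂ →* AbTensor Q₁ Q₂ where
  toFun a :=
    { toFun := fun b => Multiplicative.ofAdd
        (Additive.ofMul (Abelianization.of a) ⊗ₜ[ℤ] Additive.ofMul (Abelianization.of b))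
      map_one' := by simp
      map_mul' := fun b b' => by simp [TensorProduct.tmul_add] }
  map_one' := by ext; simp
  map_mul' a a' := by ext; simp [TensorProduct.add_tmul]

theorem abTmul_apply (a : Q₁) (b : Q₂) : abTmul Q₁ Q₂ a b = Multiplicative.ofAdd
    (Additive.ofMul (Abelianization.of a) ⊗ₜ[ℤ] Additive.ofMul (Abelianization.of b)) := rfl

theorem abTensor_induction (H : Subgroup (AbTensor Q₁ Q₂)) (h : ∀ a b, abTmul Q₁ Q₂ a b ∈ H)
    (t : AbTensor Q₁ Q₂) : t ∈ H := by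
  obtain ⟨t, rfl⟩ := Multiplicative.ofAdd.surjective t
  induction t using TensorProduct.induction_on with
  | zero => exact one_mem _
  | tmul x y =>
    obtain ⟨a, ha⟩ : ∃ a : Q₁, Abelianization.of a = x.toMul := QuotientGroup.mk_surjective _
    obtain ⟨b, hb⟩ : ∃ b : Q₂, Abelianization.of b = y.toMul := QuotientGroup.mk_surjective _
    have := h a b
    rwa [abTmul_apply, ha, hb] at this
  | add x y hx hy => exact mul_mem hx hy

theorem exists_abTensor_lift {K : Type w} [CommGroup K] (c : Q₁ →* Q₂ →* K) :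
    ∃ ψ : AbTensor Q₁ Q₂ →* K, ∀ a b, ψ (abTmul Q₁ Q₂ a b) = c a b := by
  let c₁ : Q₁ →* Abelianization Q₂ →* K :=
    { toFun := fun a => Abelianization.lift (c a)
      map_one' := by ext; simp
      map_mul' := fun a a' => by ext; simp }
  let c₂ : Abelianization Q₁ →* Abelianization Q₂ →* K := Abelianization.lift c₁
  let f : Additive (Abelianization Q₁) →+ Additive (Abelianization Q₂) →+ Additive K :=
    { toFun := fun x => MonoidHom.toAdditive (c₂ x.toMul)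
      map_zero' := by ext; simp
      map_add' := fun x y => by ext; simp }
  refine ⟨AddMonoidHom.toMultiplicativeLeft (TensorProduct.liftAddHom f (fun r m n => ?_)),
    fun a b => rfl⟩
  rw [map_zsmul, map_zsmul]
  rfl

/-- The commutator pairing of a central extension of a direct product. -/
theorem exists_comm_pairing {Δ : Type w} [Group Δ] {τ : Δ →* Q₁ × Q₂} (hτ : IsCentralExt τ) :
    ∃ ψ : AbTensor Q₁ Q₂ →* Δ, (∀ t, τ (ψ t) = 1) ∧
      ∀ x y : Δ, (τ x).2 = 1 → (τ y).1 = 1 → ⁅x, y⁆ = ψ (abTmul Q₁ Q₂ (τ x).1 (τ y).2) := by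
  let _ : CommGroup τ.ker := { (inferInstance : Group τ.ker) with mul_comm := hτ.ker_comm.is_comm.comm }
  choose s hs using hτ.surj
  have hk : ∀ a b, ⁅s (a, 1), s (1, b)⁆ ∈ τ.ker := by
    intro a b
    rw [MonoidHom.mem_ker, map_commutatorElement, hs, hs]
    simp [commutatorElement_def]
  have key : ∀ (x y : Δ) a b, τ x = (a, 1) → τ y = (1, b) → ⁅x, y⁆ = ⁅s (a, 1), s (1, b)⁆ :=
    fun x y a b hx hy => commutatorElement_eq_of_map_eq hτ.central (by rw [hx, hs]) (by rw [hy, hs])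
  let c : Q₁ →* Q₂ →* τ.ker :=
    { toFun := fun a =>
        { toFun := fun b => ⟨_, hk a b⟩
          map_one' := Subtype.ext (by
            change ⁅s (a, 1), s (1, 1)⁆ = 1
            rw [← key (s (a, 1)) 1 a 1 (hs _) (map_one τ)]
            simp)
          map_mul' := fun b b' => Subtype.ext (by
            change ⁅s (a, 1), s (1, b * b')⁆ = ⁅s (a, 1), s (1, b)⁆ * ⁅s (a, 1), s (1, b')⁆
            rw [← key (s (a, 1)) (s (1, b) * s (1, b')) a (b * b') (hs _) (by simp [hs]),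
              commutatorElement_mul_right_eq_mul_conj, mul_assoc _ (s (1, b)), hτ.comm (hk a b')]
            group) }
      map_one' := by
        ext b
        change ⁅s (1, 1), s (1, b)⁆ = 1
        rw [← key 1 (s (1, b)) 1 b (map_one τ) (hs _)]
        simp
      map_mul' := fun a a' => by
        ext b
        change ⁅s (a * a', 1), s (1, b)⁆ = ⁅s (a, 1), s (1, b)⁆ * ⁅s (a', 1), s (1, b)⁆
        rw [← key (s (a, 1) * s (a', 1)) (s (1, b)) (a * a') b (by simp [hs]) (hs _),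
          commutatorElement_mul_left_eq_conj_mul, hτ.comm (hk a' b), hτ.comm (hk a' b)]
        group }
  obtain ⟨ψ, hψ⟩ := exists_abTensor_lift c
  refine ⟨τ.ker.subtype.comp ψ, fun t => (ψ t).2, fun x y hx hy => ?_⟩
  rw [MonoidHom.comp_apply, hψ]
  exact key x y _ _ (Prod.ext rfl hx) (Prod.ext hy rfl)

/-- Upper bound for central extensions of a direct product. -/
theorem exists_surj_prod {A : Type w} {B : Type u'} [CommGroup A] [CommGroup B]
    (hA : Cfsg.HasSchurMultiplier Q₁ A) (hB : Cfsg.HasSchurMultiplier Q₂ B)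
    {Δ : Type*} [Group Δ] {τ : Δ →* Q₁ × Q₂} (hτ : IsCentralExt τ) :
    ∃ g : A × B × AbTensor Q₁ Q₂ → stemKer τ, Function.Surjective g := by
  obtain ⟨ψ, hψ1, hψ2⟩ := exists_comm_pairing hτ
  let D₁ : Subgroup Δ := ((MonoidHom.snd Q₁ Q₂).comp τ).ker
  let D₂ : Subgroup Δ := ((MonoidHom.fst Q₁ Q₂).comp τ).ker
  let ξ₁ : D₁ →* Q₁ := (MonoidHom.fst Q₁ Q₂).comp (τ.comp D₁.subtype)
  let ξ₂ : D₂ →* Q₂ := (MonoidHom.snd Q₁ Q₂).comp (τ.comp D₂.subtype)
  have h₁ : IsCentralExt ξ₁ := by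
    refine ⟨fun a => ?_, fun k hk => Subgroup.mem_center_iff.mpr fun y => Subtype.ext ?_⟩
    · obtain ⟨x, hx⟩ := hτ.surj (a, 1)
      exact ⟨⟨x, congrArg Prod.snd hx⟩, congrArg Prod.fst hx⟩
    · exact hτ.comm (Prod.ext hk k.2) y
  have h₂ : IsCentralExt ξ₂ := by
    refine ⟨fun a => ?_, fun k hk => Subgroup.mem_center_iff.mpr fun y => Subtype.ext ?_⟩
    · obtain ⟨x, hx⟩ := hτ.surj (1, a)
      exact ⟨⟨x, congrArg Prod.fst hx⟩, congrArg Prod.snd hx⟩
    · exact hτ.comm (Prod.ext k.2 hk) y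
  obtain ⟨φ₁, hφ₁⟩ := exists_surj_stemKer hA h₁
  obtain ⟨φ₂, hφ₂⟩ := exists_surj_stemKer hB h₂
  have hψc : ∀ t, ψ t ∈ commutator Δ := abTensor_induction ((commutator Δ).comap ψ) (fun a b => by
    obtain ⟨x, hx⟩ := hτ.surj (a, 1)
    obtain ⟨y, hy⟩ := hτ.surj (1, b)
    have := hψ2 x y (by rw [hx]) (by rw [hy])
    rw [hx, hy] at this
    rw [Subgroup.mem_comap, ← this]
    exact Subgroup.commutator_mem_commutator (Subgroup.mem_top _) (Subgroup.mem_top _))
  have hc₁ : ∀ x : D₁, x ∈ commutator D₁ ↔ (x : Δ) ∈ ⁅D₁, D₁⁆ := fun x => by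
    rw [← Subgroup.map_subtype_commutator]; simp
  have hc₂ : ∀ x : D₂, x ∈ commutator D₂ ↔ (x : Δ) ∈ ⁅D₂, D₂⁆ := fun x => by
    rw [← Subgroup.map_subtype_commutator]; simp
  have hr : ψ.range.Normal := normal_of_le_center (by
    rintro _ ⟨t, rfl⟩
    exact hτ.central (hψ1 t))
  have hle : commutator Δ ≤ (⁅D₁, D₁⁆ ⊔ ⁅D₂, D₂⁆) ⊔ ψ.range := by
    rw [← Subgroup.Normal.quotient_commutative_iff_commutator_le]
    set N := (⁅D₁, D₁⁆ ⊔ ⁅D₂, D₂⁆) ⊔ ψ.range with hN
    have hcomm : ∀ x y : Δ, ⁅x, y⁆ ∈ N → Commute (x : Δ ⧸ N) (y : Δ ⧸ N) := fun x y h => by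
      rw [← commutatorElement_eq_one_iff_commute]
      exact (map_commutatorElement (QuotientGroup.mk' N) x y).symm.trans
        ((QuotientGroup.eq_one_iff _).mpr h)
    have dec : ∀ x : Δ, ∃ x₁ ∈ D₁, ∃ x₂ ∈ D₂, x = x₁ * x₂ := fun x => by
      obtain ⟨y, hy⟩ := hτ.surj ((τ x).1, 1)
      refine ⟨y, congrArg Prod.snd hy, y⁻¹ * x, ?_, by group⟩
      change (τ (y⁻¹ * x)).1 = 1
      simp [hy]
    have c11 : ∀ x ∈ D₁, ∀ y ∈ D₁, Commute (x : Δ ⧸ N) (y : Δ ⧸ N) := fun x hx y hy =>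
      hcomm x y (Subgroup.mem_sup_left (Subgroup.mem_sup_left
        (Subgroup.commutator_mem_commutator hx hy)))
    have c22 : ∀ x ∈ D₂, ∀ y ∈ D₂, Commute (x : Δ ⧸ N) (y : Δ ⧸ N) := fun x hx y hy =>
      hcomm x y (Subgroup.mem_sup_left (Subgroup.mem_sup_right
        (Subgroup.commutator_mem_commutator hx hy)))
    have c12 : ∀ x ∈ D₁, ∀ y ∈ D₂, Commute (x : Δ ⧸ N) (y : Δ ⧸ N) := fun x hx y hy =>
      hcomm x y (Subgroup.mem_sup_right ⟨_, (hψ2 x y hx hy).symm⟩)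
    refine ⟨⟨fun x y => ?_⟩⟩
    obtain ⟨x, rfl⟩ := QuotientGroup.mk_surjective x
    obtain ⟨y, rfl⟩ := QuotientGroup.mk_surjective y
    obtain ⟨x₁, hx₁, x₂, hx₂, rfl⟩ := dec x
    obtain ⟨y₁, hy₁, y₂, hy₂, rfl⟩ := dec y
    rw [QuotientGroup.mk_mul, QuotientGroup.mk_mul]
    exact (((c11 _ hx₁ _ hy₁).mul_right (c12 _ hx₁ _ hy₂)).mul_left
      ((c12 _ hy₁ _ hx₂).symm.mul_right (c22 _ hx₂ _ hy₂))).eq
  have t₁ : ∀ a, τ ((φ₁ a : D₁) : Δ) = 1 := fun a => Prod.ext (φ₁ a).2.1 (φ₁ a).1.2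
  have t₂ : ∀ a, τ ((φ₂ a : D₂) : Δ) = 1 := fun a => Prod.ext (φ₂ a).1.2 (φ₂ a).2.1
  refine ⟨fun z => ⟨((φ₁ z.1 : D₁) : Δ) * ((φ₂ z.2.1 : D₂) : Δ) * ψ z.2.2, mem_stemKer.mpr ⟨?_, ?_⟩⟩, ?_⟩
  · rw [map_mul, map_mul, t₁, t₂, hψ1]; simp
  · refine mul_mem (mul_mem ?_ ?_) (hψc _)
    · exact Subgroup.commutator_mono le_top le_top ((hc₁ _).mp (φ₁ z.1).2.2)
    · exact Subgroup.commutator_mono le_top le_top ((hc₂ _).mp (φ₂ z.2.1).2.2)
  · rintro ⟨k, hk⟩
    obtain ⟨d, hd, _, ⟨t, rfl⟩, rfl⟩ := Subgroup.mem_sup_of_normal_right.mp (hle hk.2)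
    obtain ⟨d₁, hd₁, d₂, hd₂, rfl⟩ := Subgroup.mem_sup_of_normal_right.mp hd
    have m₁ : d₁ ∈ D₁ := Subgroup.commutator_le_left _ _ hd₁
    have m₂ : d₂ ∈ D₂ := Subgroup.commutator_le_left _ _ hd₂
    have e : τ d₁ * τ d₂ = 1 := by
      have := (mem_stemKer.mp hk).1
      rwa [map_mul, hψ1, mul_one, map_mul] at this
    have e₁ : (τ d₁).1 = 1 := by
      have := congrArg Prod.fst e
      rwa [Prod.fst_mul, show (τ d₂).1 = 1 from m₂, mul_one] at this
    have e₂ : (τ d₂).2 = 1 := by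
      have := congrArg Prod.snd e
      rwa [Prod.snd_mul, show (τ d₁).2 = 1 from m₁, one_mul] at this
    obtain ⟨a, ha⟩ := hφ₁ ⟨⟨d₁, m₁⟩, e₁, (hc₁ _).mpr hd₁⟩
    obtain ⟨b, hb⟩ := hφ₂ ⟨⟨d₂, m₂⟩, e₂, (hc₂ _).mpr hd₂⟩
    exact ⟨(a, b, t), Subtype.ext (by simp [ha, hb])⟩

/-- The multiplier of a direct product. -/
theorem hasSchurMultiplier_prod {A : Type w} {B : Type u'} [CommGroup A] [CommGroup B]
    (hA : Cfsg.HasSchurMultiplier Q₁ A) (hB : Cfsg.HasSchurMultiplier Q₂ B) :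
    Cfsg.HasSchurMultiplier (Q₁ × Q₂) (A × B × AbTensor Q₁ Q₂) := by
  have := finite_of_hasSchurMultiplier hA
  have := finite_of_hasSchurMultiplier hB
  obtain ⟨Γ₁, _, _, σ₁, hσ₁, ⟨e₁⟩⟩ := hA.1
  obtain ⟨Γ₂, _, _, σ₂, hσ₂, ⟨e₂⟩⟩ := hB.1
  let c : Γ₁ × Γ₂ →* Γ₁ × Γ₂ →* AbTensor Q₁ Q₂ :=
    { toFun := fun x => (abTmul Q₁ Q₂ (σ₁ x.1)).comp (σ₂.comp (MonoidHom.snd _ _))
      map_one' := by ext <;> simp
      map_mul' := fun x y => by ext <;> simp }
  have hc : ∀ x y, c x y = abTmul Q₁ Q₂ (σ₁ x.1) (σ₂ y.2) := fun _ _ => rfl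
  let ξ : Twist c →* Q₁ × Q₂ := (σ₁.prodMap σ₂).comp (Twist.proj c)
  have hξ' : ∀ x : Twist c, ξ x = (σ₁ x.g.1, σ₂ x.g.2) := fun _ => rfl
  have hξ : IsCentralExt ξ := by
    refine ⟨(hσ₁.1.prodMap hσ₂.1).comp Twist.isCentralExt_proj.surj, fun x hx => ?_⟩
    have h1 : σ₁ x.g.1 = 1 := congrArg Prod.fst hx
    have h2 : σ₂ x.g.2 = 1 := congrArg Prod.snd hx
    refine Twist.mem_center ?_ (fun g => by simp [hc, h1, h2])
    rw [Subgroup.mem_center_iff]
    intro y
    exact Prod.ext ((isCentralExt_of_stem hσ₁).comm h1 _) ((isCentralExt_of_stem hσ₂).comm h2 _)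
  let j₁ : Γ₁ →* Twist c :=
    { toFun := fun g => ⟨(g, 1), 1⟩
      map_one' := rfl
      map_mul' := fun g h => by ext <;> simp [hc] }
  let j₂ : Γ₂ →* Twist c :=
    { toFun := fun g => ⟨(1, g), 1⟩
      map_one' := rfl
      map_mul' := fun g h => by ext <;> simp [hc] }
  have hT : ∀ t, Twist.incl c t ∈ commutator (Twist c) :=
    abTensor_induction ((commutator _).comap (Twist.incl c)) (fun a b => by
      obtain ⟨x, rfl⟩ := hσ₁.1 a
      obtain ⟨y, rfl⟩ := hσ₂.1 b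
      have := Twist.commutator_of_commute (j₁ x) (j₂ y) (by simp [j₁, j₂])
      have h2 : c (j₁ x).g (j₂ y).g * (c (j₂ y).g (j₁ x).g)⁻¹ = abTmul Q₁ Q₂ (σ₁ x) (σ₂ y) := by
        simp [hc, j₁, j₂]
      rw [Subgroup.mem_comap, ← h2, ← this]
      exact Subgroup.commutator_mem_commutator (Subgroup.mem_top _) (Subgroup.mem_top _))
  let g : stemKer ξ →* A × B × AbTensor Q₁ Q₂ :=
    { toFun := fun x => (e₁ ⟨x.1.g.1, congrArg Prod.fst x.2.1⟩, e₂ ⟨x.1.g.2, congrArg Prod.snd x.2.1⟩,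
        x.1.t)
      map_one' := Prod.ext (map_one e₁) (Prod.ext (map_one e₂) rfl)
      map_mul' := fun x y => by
        refine Prod.ext (map_mul e₁ ⟨x.1.g.1, congrArg Prod.fst x.2.1⟩ ⟨y.1.g.1, congrArg Prod.fst y.2.1⟩)
          (Prod.ext (map_mul e₂ ⟨x.1.g.2, congrArg Prod.snd x.2.1⟩ ⟨y.1.g.2, congrArg Prod.snd y.2.1⟩) ?_)
        have h1 : σ₁ x.1.g.1 = 1 := congrArg Prod.fst x.2.1
        change x.1.t * y.1.t * c x.1.g y.1.g = x.1.t * y.1.t
        simp [hc, h1] }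
  have hg : Function.Surjective g := by
    rintro ⟨a, b, t⟩
    obtain ⟨a, rfl⟩ := e₁.surjective a
    obtain ⟨b, rfl⟩ := e₂.surjective b
    have ha : σ₁ a = 1 := a.2
    have hb : σ₂ b = 1 := b.2
    refine ⟨⟨j₁ a * j₂ b * Twist.incl c t, mem_stemKer.mpr ⟨?_, ?_⟩⟩, ?_⟩
    · simp [hξ', j₁, j₂, Twist.incl, ha, hb]
    · exact mul_mem (mul_mem (map_mem_commutator j₁ (hσ₁.2.2 a.2))
        (map_mem_commutator j₂ (hσ₂.2.2 b.2))) (hT t)
    · simp [g, j₁, j₂, Twist.incl, hc, ha]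
  refine hasSchurMultiplier_of_surj_of_card_le hξ g hg (fun Δ _ _ τ hτ => ?_)
  have := hξ.finite_stemKer
  have : Finite (A × B × AbTensor Q₁ Q₂) := Finite.of_surjective g hg
  obtain ⟨f, hf⟩ := exists_surj_prod hA hB (isCentralExt_of_stem hτ)
  rw [← stemKer_eq_ker hτ]
  exact Nat.card_le_card_of_surjective f hf

end Product

end CL.Schur
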